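import Mathlib

set_option autoImplicit false

/-!
Statements (as `Prop` definitions) of the generic pieces of the proof that in a finite group with
a rank two Bruhat decomposition an element fixing a chamber but no pair of opposite chambers has
Euler characteristic one on the building: the numbers of fixed cosets of the two minimal
parabolic subgroups add up to the number of fixed cosets of `B` plus one.
-/

namespace Cfsg.Agent.Lib.Helper19.BTGen

universe u

/-- the coset `x` of `B` lies in the double coset of `n w` -/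
def InCell {G : Type u} [Group G] (B : Subgroup G) {ι : Type} (n : ι → G) (w : ι) (x : G ⧸ B) :
    Prop :=
  ∃ b ∈ B, (QuotientGroup.mk (b * n w) : G ⧸ B) = x

/-- the double cosets of the `n w` cover the group -/
def Cover {G : Type u} [Group G] (B : Subgroup G) {ι : Type} (n : ι → G) : Prop :=
  ∀ g : G, ∃ w : ι, ∃ b ∈ B, ∃ b' ∈ B, g = b * n w * b'

/-- the double cosets of the `n w` are pairwise distinct -/
def Disj {G : Type u} [Group G] (B : Subgroup G) {ι : Type} (n : ι → G) : Prop :=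
  ∀ w w' : ι, ∀ b ∈ B, ∀ b' ∈ B, n w' = b * n w * b' → w = w'

/-- `P` is the union of `B` and the double coset of `s` -/
def IsPar {G : Type u} [Group G] (B P : Subgroup G) (s : G) : Prop :=
  ∀ g : G, g ∈ P ↔ g ∈ B ∨ ∃ b ∈ B, ∃ b' ∈ B, g = b * s * b'

/-- the strong exchange condition on the right for the indices in `U` -/
def Strong {G : Type u} [Group G] (B : Subgroup G) {ι : Type} (n : ι → G) (s : G) (t : ι → ι)
    (U : Finset ι) : Prop :=
  ∀ w ∈ U, ∀ b ∈ B, ∃ c ∈ B, ∃ c' ∈ B, n w * b * s = c * n (t w) * c'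

/-- [UPFIX] the fixed cosets of a minimal parabolic subgroup correspond to the fixed cosets of
`B` in the cells that are "up" for it. -/
def UpFix : Prop :=
  ∀ (G : Type u) [Group G] [Finite G] (B P : Subgroup G) (ι : Type) [Fintype ι] [DecidableEq ι]
    (n : ι → G) (s : G) (t : ι → ι) (U : Finset ι) (a : G),
    Cover B n → Disj B n → IsPar B P s → Strong B n s t U →
    (∀ w, w ∈ U ↔ t w ∉ U) → (∀ w, t (t w) = w) → a ∈ B →
    Nat.card {x : G ⧸ P // a • x = x} =
      Nat.card {x : G ⧸ B // a • x = x ∧ ∃ w ∈ U, InCell B n w x}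

/-- [CELLCOUNT] counting the fixed cosets of `B` cell by cell. -/
def CellCount : Prop :=
  ∀ (G : Type u) [Group G] [Finite G] (B : Subgroup G) (ι : Type) [Fintype ι] [DecidableEq ι]
    (n : ι → G) (U₁ U₂ : Finset ι) (e w₀ : ι) (a : G),
    Cover B n → Disj B n → n e ∈ B →
    (∀ w, w ≠ e → w ≠ w₀ → (w ∈ U₁ ↔ w ∉ U₂)) → e ∈ U₁ → e ∈ U₂ → w₀ ∉ U₁ → w₀ ∉ U₂ →
    a ∈ B → (∀ b ∈ B, (n w₀)⁻¹ * (b⁻¹ * a * b) * n w₀ ∉ B) →
    Nat.card {x : G ⧸ B // a • x = x ∧ ∃ w ∈ U₁, InCell B n w x} +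
      Nat.card {x : G ⧸ B // a • x = x ∧ ∃ w ∈ U₂, InCell B n w x} =
      Nat.card {x : G ⧸ B // a • x = x} + 1

/-- [FREEDVD] an element of prime order not dividing the order of `Q` that commutes with `a`
acts freely on the cosets of `Q` fixed by `a`. -/
def FreeDvd : Prop :=
  ∀ (G : Type u) [Group G] [Finite G] (Q : Subgroup G) (a c : G) (r : ℕ),
    r.Prime → Commute a c → orderOf c = r → ¬ r ∣ Nat.card Q →
    r ∣ Nat.card {x : G ⧸ Q // a • x = x}

/-- [RANKONE] the union of `B` and `B s B` is a subgroup. -/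
def RankOne : Prop :=
  ∀ (G : Type u) [Group G] (B : Subgroup G) (s : G), s * s ∈ B →
    (∀ b ∈ B, s * b * s ∈ B ∨ ∃ c ∈ B, ∃ c' ∈ B, s * b * s = c * s * c') →
    ∃ P : Subgroup G, IsPar B P s

/-- [PARCARD] the order of a minimal parabolic subgroup. -/
def ParCard : Prop :=
  ∀ (G : Type u) [Group G] [Finite G] (B P : Subgroup G) (s : G), IsPar B P s → s ∉ B →
    Nat.card P = Nat.card B + Nat.card {g : G // ∃ b ∈ B, ∃ b' ∈ B, g = b * s * b'}

/-- [SYLCONJ] an involution is conjugate into a subgroup of 2-power order and odd index. -/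
def SylConj : Prop :=
  ∀ (G : Type u) [Group G] [Finite G] (U : Subgroup G) (k : ℕ), Nat.card U = 2 ^ k →
    ¬ 2 ∣ U.index → ∀ a : G, orderOf a = 2 → ∃ g : G, g * a * g⁻¹ ∈ U

/-- [PRIMEPOW] a power of prime order. -/
def PrimePow : Prop :=
  ∀ (G : Type u) [Group G] (b : G) (p : ℕ), p ∈ (orderOf b).primeFactors →
    ∃ k : ℕ, orderOf (b ^ k) = p

/-- [ARITH] the primes of the orders of `B`, `P_A`, `P_B`. -/
def Arith : Prop :=
  ∀ q p : ℕ, p.Prime → 2 ≤ q → ¬ p ∣ q * (q ^ 4 - 1) →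
    ¬ p ∣ q ^ 12 * (q - 1) ^ 2 ∧ ¬ p ∣ q ^ 12 * (q - 1) ^ 2 + q * (q ^ 12 * (q - 1) ^ 2) ∧
      ¬ p ∣ q ^ 12 * (q - 1) ^ 2 + q ^ 2 * (q ^ 12 * (q - 1) ^ 2)

end Cfsg.Agent.Lib.Helper19.BTGen
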