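import Cfsg.Agent.Lib.Helper19.TwQuot
import Cfsg.Agent.Lib.Helper18.BNPairC
import Cfsg.Agent.Lib.Helper18.Torus
import Cfsg.Agent.Lib.Helper36.ChevBC
import Mathlib

set_option autoImplicit false

/-!
Twisting endomorphisms of a Chevalley group that are only defined on the group itself (such as the
exceptional graph automorphisms composed with a field automorphism): `x_r(t) ↦ x_{bar r}(φ(t)^{lam r})`.
The action on words, the subgroup of fixed elements, and the quotient `N¹ / H¹` of a subgroup of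
fixed elements.
-/

namespace Cfsg.Agent.Lib.Helper19.TwSig

open Cfsg Cfsg.Lie Cfsg.Agent.Lib.Helper18.Fast Cfsg.Agent.Lib.Helper18.AllRoots
  Cfsg.Agent.Lib.Helper18.WGroup Cfsg.Agent.Lib.Helper18.BNChev Cfsg.Agent.Lib.Helper18.BNPairC
  Cfsg.Agent.Lib.Helper18.Sub Cfsg.Agent.Lib.Helper18.Units Cfsg.Agent.Lib.Helper18.Torus
  Cfsg.Agent.Lib.Helper18.Weyl

section abstract

variable {Γ : Type*} [Group Γ] {W : Type*} [Group W] {V : Type*} [Group V]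

theorem equivariant_sub (G N : Subgroup Γ) (hNG : N ≤ G) (π : ↥N →* W) (σ : ↥G →* ↥G)
    (ρ : W →* W) (T : Set Γ) (hN : N = Subgroup.closure T)
    (hT : ∀ t ∈ T, ∃ (h1 : t ∈ N) (h2 : ((σ ⟨t, hNG h1⟩ : ↥G) : Γ) ∈ N),
      π ⟨((σ ⟨t, hNG h1⟩ : ↥G) : Γ), h2⟩ = ρ (π ⟨t, h1⟩))
    (n : Γ) (hn : n ∈ N) :
    ∃ (h1 : n ∈ N) (h2 : ((σ ⟨n, hNG h1⟩ : ↥G) : Γ) ∈ N),
      π ⟨((σ ⟨n, hNG h1⟩ : ↥G) : Γ), h2⟩ = ρ (π ⟨n, h1⟩) := by
  have hn' : n ∈ Subgroup.closure T := hN ▸ hn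
  induction hn' using Subgroup.closure_induction with
  | mem t ht => exact hT t ht
  | one =>
    have e0 : σ (⟨1, hNG N.one_mem⟩ : ↥G) = 1 := map_one σ
    have e0' : ((σ ⟨1, hNG N.one_mem⟩ : ↥G) : Γ) = 1 := by
      rw [e0]
      rfl
    have h2 : ((σ ⟨1, hNG N.one_mem⟩ : ↥G) : Γ) ∈ N := by
      rw [e0']
      exact N.one_mem
    refine ⟨N.one_mem, h2, ?_⟩
    have e1 : (⟨((σ ⟨1, hNG N.one_mem⟩ : ↥G) : Γ), h2⟩ : ↥N) = 1 :=
      Subtype.ext e0'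
    have e2 : (⟨1, N.one_mem⟩ : ↥N) = 1 := rfl
    rw [e1, e2, map_one, map_one]
  | mul a b _ _ iha ihb =>
    obtain ⟨a1, a2, ea⟩ := iha (hN ▸ ‹a ∈ Subgroup.closure T›)
    obtain ⟨b1, b2, eb⟩ := ihb (hN ▸ ‹b ∈ Subgroup.closure T›)
    have e0 : σ (⟨a * b, hNG (N.mul_mem a1 b1)⟩ : ↥G) = σ ⟨a, hNG a1⟩ * σ ⟨b, hNG b1⟩ :=
      map_mul σ ⟨a, hNG a1⟩ ⟨b, hNG b1⟩
    have e0' : ((σ ⟨a * b, hNG (N.mul_mem a1 b1)⟩ : ↥G) : Γ) =
        ((σ ⟨a, hNG a1⟩ : ↥G) : Γ) * ((σ ⟨b, hNG b1⟩ : ↥G) : Γ) := by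
      rw [e0]
      rfl
    have h2 : ((σ ⟨a * b, hNG (N.mul_mem a1 b1)⟩ : ↥G) : Γ) ∈ N := by
      rw [e0']
      exact N.mul_mem a2 b2
    refine ⟨N.mul_mem a1 b1, h2, ?_⟩
    have e1 : (⟨((σ ⟨a * b, hNG (N.mul_mem a1 b1)⟩ : ↥G) : Γ), h2⟩ : ↥N) =
        ⟨((σ ⟨a, hNG a1⟩ : ↥G) : Γ), a2⟩ * ⟨((σ ⟨b, hNG b1⟩ : ↥G) : Γ), b2⟩ :=
      Subtype.ext e0'
    have e2 : (⟨a * b, N.mul_mem a1 b1⟩ : ↥N) = ⟨a, a1⟩ * ⟨b, b1⟩ := rfl
    rw [e1, e2, map_mul, map_mul, map_mul, ea, eb]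
  | inv a _ iha =>
    obtain ⟨a1, a2, ea⟩ := iha (hN ▸ ‹a ∈ Subgroup.closure T›)
    have e0 : σ (⟨a⁻¹, hNG (N.inv_mem a1)⟩ : ↥G) = (σ ⟨a, hNG a1⟩)⁻¹ :=
      map_inv σ ⟨a, hNG a1⟩
    have e0' : ((σ ⟨a⁻¹, hNG (N.inv_mem a1)⟩ : ↥G) : Γ) =
        (((σ ⟨a, hNG a1⟩ : ↥G) : Γ))⁻¹ := by
      rw [e0]
      rfl
    have h2 : ((σ ⟨a⁻¹, hNG (N.inv_mem a1)⟩ : ↥G) : Γ) ∈ N := by
      rw [e0']
      exact N.inv_mem a2
    refine ⟨N.inv_mem a1, h2, ?_⟩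
    have e1 : (⟨((σ ⟨a⁻¹, hNG (N.inv_mem a1)⟩ : ↥G) : Γ), h2⟩ : ↥N) =
        (⟨((σ ⟨a, hNG a1⟩ : ↥G) : Γ), a2⟩ : ↥N)⁻¹ :=
      Subtype.ext e0'
    have e2 : (⟨a⁻¹, N.inv_mem a1⟩ : ↥N) = (⟨a, a1⟩ : ↥N)⁻¹ := rfl
    rw [e1, e2, map_inv, map_inv, map_inv, ea]

theorem exists_hom_of_fixed (N H G1 : Subgroup Γ) (π : ↥N →* W)
    (hker : π.ker = H.subgroupOf N) (ρ : W →* W)
    (hfixed : ∀ m : ↥(N ⊓ G1), ρ (π ⟨m.1, m.2.1⟩) = π ⟨m.1, m.2.1⟩)
    (ψ : V →* W) (hψ : Function.Injective ψ) (hrange : ∀ w : W, ρ w = w → w ∈ ψ.range)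
    (S : Set V) (hS : Subgroup.closure S = ⊤)
    (hgen : ∀ s ∈ S, ∃ n : ↥N, (n : Γ) ∈ G1 ∧ π n = ψ s) :
    ∃ φ : ↥(N ⊓ G1) →* V, Function.Surjective φ ∧
      φ.ker = (H ⊓ G1).subgroupOf (N ⊓ G1) := by
  let π1 : ↥(N ⊓ G1) →* W := π.comp (Subgroup.inclusion inf_le_left)
  have hπ1 : ∀ m : ↥(N ⊓ G1), π1 m = π ⟨m.1, m.2.1⟩ := fun m => rfl
  have hmem : ∀ m : ↥(N ⊓ G1), π1 m ∈ ψ.range := by
    intro m
    apply hrange
    rw [hπ1]
    exact hfixed m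
  let φ : ↥(N ⊓ G1) →* V :=
    (MonoidHom.ofInjective hψ).symm.toMonoidHom.comp (π1.codRestrict ψ.range hmem)
  have hφ : ∀ m : ↥(N ⊓ G1), ψ (φ m) = π ⟨m.1, m.2.1⟩ := by
    intro m
    have e : (MonoidHom.ofInjective hψ) (φ m) = π1.codRestrict ψ.range hmem m :=
      (MonoidHom.ofInjective hψ).apply_symm_apply _
    have e2 := congrArg Subtype.val e
    rw [MonoidHom.ofInjective_apply] at e2
    exact e2
  refine ⟨φ, ?_, ?_⟩
  · rw [← MonoidHom.range_eq_top, eq_top_iff, ← hS, Subgroup.closure_le]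
    intro s hs
    obtain ⟨n, hn1, hn⟩ := hgen s hs
    refine ⟨⟨n.1, ⟨n.2, hn1⟩⟩, ?_⟩
    apply hψ
    rw [hφ, ← hn]
  · ext m
    rw [MonoidHom.mem_ker, Subgroup.mem_subgroupOf]
    constructor
    · intro h
      have h1 : π ⟨m.1, m.2.1⟩ = 1 := by rw [← hφ, h, map_one]
      have h2 : (⟨m.1, m.2.1⟩ : ↥N) ∈ π.ker := MonoidHom.mem_ker.mpr h1
      rw [hker, Subgroup.mem_subgroupOf] at h2
      exact ⟨h2, m.2.2⟩
    · intro h
      apply hψ
      rw [hφ, map_one]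
      have h2 : (⟨m.1, m.2.1⟩ : ↥N) ∈ π.ker := by
        rw [hker, Subgroup.mem_subgroupOf]
        exact h.1
      exact MonoidHom.mem_ker.mp h2

/-- the quotient lemma for an endomorphism `σ` defined on a subgroup `G` containing `N` and
`G1` -/
theorem exists_hom_sub (G N H G1 : Subgroup Γ) (hNG : N ≤ G) (π : ↥N →* W)
    (hker : π.ker = H.subgroupOf N) (σ : ↥G →* ↥G) (ρ : W →* W) (T : Set Γ)
    (hN : N = Subgroup.closure T)
    (hT : ∀ t ∈ T, ∃ (h1 : t ∈ N) (h2 : ((σ ⟨t, hNG h1⟩ : ↥G) : Γ) ∈ N),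
      π ⟨((σ ⟨t, hNG h1⟩ : ↥G) : Γ), h2⟩ = ρ (π ⟨t, h1⟩))
    (hfix : ∀ g ∈ G1, ∃ hg : g ∈ G, ((σ ⟨g, hg⟩ : ↥G) : Γ) = g)
    (ψ : V →* W) (hψ : Function.Injective ψ) (hrange : ∀ w : W, ρ w = w → w ∈ ψ.range)
    (S : Set V) (hS : Subgroup.closure S = ⊤)
    (hgen : ∀ s ∈ S, ∃ n : ↥N, (n : Γ) ∈ G1 ∧ π n = ψ s) :
    ∃ φ : ↥(N ⊓ G1) →* V, Function.Surjective φ ∧
      φ.ker = (H ⊓ G1).subgroupOf (N ⊓ G1) := by
  apply exists_hom_of_fixed N H G1 π hker ρ ?_ ψ hψ hrange S hS hgen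
  intro m
  obtain ⟨h1, h2, e⟩ := equivariant_sub G N hNG π σ ρ T hN hT m.1 m.2.1
  obtain ⟨hg, e'⟩ := hfix m.1 m.2.2
  have e1 : (⟨((σ ⟨m.1, hNG h1⟩ : ↥G) : Γ), h2⟩ : ↥N) = ⟨m.1, m.2.1⟩ := Subtype.ext e'
  rw [e1] at e
  exact e.symm

end abstract

section chev

variable {A : FData} {D : ChevalleyDatum} {K : Type*} [Field K] {X : WD} {m : ℕ → ℕ → ℤ}
  {w : ℕ → ℤ}

/-- the endomorphism of the Chevalley group induced by an endomorphism of the field -/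
noncomputable def fieldHom (D : ChevalleyDatum) (φ : K →+* K) : ↥(D.group K) →* ↥(D.group K) :=
  ((Matrix.GeneralLinearGroup.map φ).comp (D.group K).subtype).codRestrict (D.group K)
    (fun g => Cfsg.Agent.Lib.Helper36.ChevBC.map_group_le φ D (Subgroup.mem_map_of_mem _ g.2))

theorem coe_fieldHom (φ : K →+* K) (g : ↥(D.group K)) :
    (((fieldHom D φ g : ↥(D.group K)) : GL D.Idx K) : Matrix D.Idx D.Idx K) =
      ((g : GL D.Idx K) : Matrix D.Idx D.Idx K).map φ := rfl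

/-- a twisting endomorphism: `x_r(t) ↦ x_{bar r}(φ(t) ^ lam r)` -/
def IsSig (D : ChevalleyDatum) (bar lam : ℕ → ℕ) (φ : K →+* K)
    (σ : ↥(D.group K) →* ↥(D.group K)) : Prop :=
  ∀ (g : ↥(D.group K)) (r : ℕ) (t : K), r < D.nroots →
    ((g : GL D.Idx K) : Matrix D.Idx D.Idx K) = D.x K r t →
    (((σ g : ↥(D.group K)) : GL D.Idx K) : Matrix D.Idx D.Idx K) = D.x K (bar r) (φ t ^ lam r)

theorem isSig_comp {bar lam : ℕ → ℕ} (φ : K →+* K) (α : ↥(D.group K) ≃* ↥(D.group K))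
    (hα : ∀ (g : ↥(D.group K)) (r : ℕ) (t : K), r < D.nroots →
      ((g : GL D.Idx K) : Matrix D.Idx D.Idx K) = D.x K r t →
      (((α g : ↥(D.group K)) : GL D.Idx K) : Matrix D.Idx D.Idx K) = D.x K (bar r) (t ^ lam r)) :
    IsSig D bar lam φ (α.toMonoidHom.comp (fieldHom D φ)) := by
  intro g r t hr hg
  apply hα (fieldHom D φ g) r (φ t) hr
  rw [coe_fieldHom, hg, Cfsg.Agent.Lib.Helper36.ChevBC.x_map]

/-- the image of a word -/
def sigW (bar lam : ℕ → ℕ) (φ : K →+* K) (wd : List (ℕ × K)) : List (ℕ × K) :=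
  wd.map (fun p => (bar p.1, φ p.2 ^ lam p.1))

theorem sig_word (hF : AFacts A D) {bar lam : ℕ → ℕ} {φ : K →+* K}
    {σ : ↥(D.group K) →* ↥(D.group K)} (hσ : IsSig D bar lam φ σ) :
    ∀ (wd : List (ℕ × K)), (∀ p ∈ wd, p.1 < D.nroots) →
    ∀ g : ↥(D.group K), ((g : GL D.Idx K) : Matrix D.Idx D.Idx K) = D.wordMat K wd →
      (((σ g : ↥(D.group K)) : GL D.Idx K) : Matrix D.Idx D.Idx K) =
        D.wordMat K (sigW bar lam φ wd) := by
  intro wd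
  induction wd with
  | nil =>
    intro _ g hg
    have e : g = 1 := Subtype.ext (Units.ext (by rw [hg, wordMat_nil]; rfl))
    rw [e, map_one]
    show (1 : Matrix D.Idx D.Idx K) = D.wordMat K []
    rw [wordMat_nil]
  | cons p l ih =>
    intro hw g hg
    have hp := hw p List.mem_cons_self
    have hl : ∀ q ∈ l, q.1 < D.nroots := fun q hq => hw q (List.mem_cons_of_mem _ hq)
    obtain ⟨x0, hx0⟩ : ∃ x0 : ↥(D.group K),
        ((x0 : GL D.Idx K) : Matrix D.Idx D.Idx K) = D.x K p.1 p.2 :=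
      ⟨⟨xU hF K p.1 hp p.2, xU_mem_group hF p.1 hp p.2⟩, rfl⟩
    obtain ⟨g1, hg1⟩ : ∃ g1 : ↥(D.group K),
        ((g1 : GL D.Idx K) : Matrix D.Idx D.Idx K) = D.wordMat K l :=
      ⟨⟨(isUnit_wordMat hF l hl).unit, word_mem_group hF l hl _ rfl⟩, rfl⟩
    have e : g = x0 * g1 := by
      apply Subtype.ext
      apply Units.ext
      rw [hg, wordMat_cons]
      show _ = ((x0 : GL D.Idx K) : Matrix D.Idx D.Idx K) * ((g1 : GL D.Idx K) : Matrix D.Idx D.Idx K)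
      rw [hx0, hg1]
    rw [e, map_mul]
    show ((σ x0 : ↥(D.group K)) : GL D.Idx K).1 * ((σ g1 : ↥(D.group K)) : GL D.Idx K).1 = _
    rw [hσ x0 p.1 p.2 hp hx0, ih hl g1 hg1]
    show _ = D.wordMat K ((bar p.1, φ p.2 ^ lam p.1) :: sigW bar lam φ l)
    rw [wordMat_cons]

/-- the subgroup of the fixed elements, as a subgroup of the general linear group -/
noncomputable def fixG (σ : ↥(D.group K) →* ↥(D.group K)) : Subgroup (GL D.Idx K) :=
  (σ.eqLocus (MonoidHom.id _)).map (D.group K).subtype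

theorem mem_fixG (σ : ↥(D.group K) →* ↥(D.group K)) (g : GL D.Idx K) :
    g ∈ fixG σ ↔ ∃ hg : g ∈ D.group K, ((σ ⟨g, hg⟩ : ↥(D.group K)) : GL D.Idx K) = g := by
  constructor
  · rintro ⟨x, hx, rfl⟩
    exact ⟨x.2, congrArg Subtype.val hx⟩
  · rintro ⟨hg, h⟩
    exact ⟨⟨g, hg⟩, Subtype.ext h, rfl⟩

theorem fixG_le (σ : ↥(D.group K) →* ↥(D.group K)) : fixG σ ≤ D.group K := by
  intro g hg
  exact ((mem_fixG σ g).mp hg).1

/-- a subgroup generated by words fixed by `σ` consists of fixed elements -/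
theorem gen_le_fixG (hF : AFacts A D) {bar lam : ℕ → ℕ} {φ : K →+* K}
    {σ : ↥(D.group K) →* ↥(D.group K)} (hσ : IsSig D bar lam φ σ) (S : Set (List (ℕ × K)))
    (hS : ∀ wd ∈ S, (∀ p ∈ wd, p.1 < D.nroots) ∧
      D.wordMat K (sigW bar lam φ wd) = D.wordMat K wd) :
    D.genSubgroup K S ≤ fixG σ := by
  unfold ChevalleyDatum.genSubgroup
  rw [Subgroup.closure_le]
  rintro g ⟨wd, hwd, hg⟩
  obtain ⟨hlt, hfix⟩ := hS wd hwd
  have hgG : g ∈ D.group K := word_mem_group hF wd hlt g hg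
  rw [SetLike.mem_coe, mem_fixG]
  refine ⟨hgG, Units.ext ?_⟩
  rw [sig_word hF hσ wd hlt ⟨g, hgG⟩ hg, hfix, hg]

theorem sigW_nWord {bar lam : ℕ → ℕ} (φ : K →+* K) {r : ℕ}
    (hb : bar (D.neg r) = D.neg (bar r)) (hl : lam (D.neg r) = lam r)
    (hneg : ∀ t : K, (-t) ^ lam r = -(t ^ lam r)) (t : K) :
    sigW bar lam φ (D.nWord r t) = D.nWord (bar r) (φ t ^ lam r) := by
  simp only [sigW, ChevalleyDatum.nWord, List.map_cons, List.map_nil, hb, hl, map_neg, map_inv₀,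
    hneg, inv_pow]

theorem sigW_hWord {bar lam : ℕ → ℕ} (φ : K →+* K) {r : ℕ}
    (hb : bar (D.neg r) = D.neg (bar r)) (hl : lam (D.neg r) = lam r)
    (hneg : ∀ t : K, (-t) ^ lam r = -(t ^ lam r)) (t : K) :
    sigW bar lam φ (D.hWord r t) = D.hWord (bar r) (φ t ^ lam r) := by
  have e : sigW bar lam φ (D.nWord r t ++ D.nWord r (-1)) =
      sigW bar lam φ (D.nWord r t) ++ sigW bar lam φ (D.nWord r (-1)) := List.map_append
  unfold ChevalleyDatum.hWord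
  rw [e, sigW_nWord φ hb hl hneg, sigW_nWord φ hb hl hneg, map_neg, map_one, hneg, one_pow]

/-- the quotient `N¹ / H¹` for a subgroup `G1` of elements fixed by a twisting endomorphism -/
theorem sig_quot (hC : CFacts A D X m w) {bar lam : ℕ → ℕ} {φ : K →+* K}
    {σ : ↥(D.group K) →* ↥(D.group K)} (hσ : IsSig D bar lam φ σ)
    (hbar : ∀ r < D.nroots, bar r < D.nroots ∧ bar (D.neg r) = D.neg (bar r) ∧
      lam (D.neg r) = lam r)
    (hneg : ∀ r < D.nroots, ∀ t : K, (-t) ^ lam r = -(t ^ lam r))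
    (G1 : Subgroup (GL D.Idx K)) (hG1 : G1 ≤ fixG σ)
    {n : ℕ} (hn : A.rank = n) (M : CoxeterMatrix (Fin n))
    (π : ↥(D.monomialSubgroup K) →* M.Group)
    (hker : π.ker = (D.diagonalSubgroup K).subgroupOf (D.monomialSubgroup K))
    (hπ : ∀ (i : Fin n) (g : ↥(D.monomialSubgroup K)),
      ((g : GL D.Idx K) : Matrix D.Idx D.Idx K) = D.nMat K (D.simple i) 1 → π g = M.simple i)
    (ρ : M.Group →* M.Group) (l : ℕ → ℕ) (hlt : ∀ i < n, l i < n)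
    (hρ : ∀ i : Fin n, ρ (M.simple i) = M.simple ⟨l i.val, hlt i.val i.isLt⟩)
    (hls : ∀ i < n, bar (D.simple i) = D.simple (l i))
    {V : Type*} [Group V] (ψ : V →* M.Group) (hψ : Function.Injective ψ)
    (hrange : ∀ g : M.Group, ρ g = g → g ∈ ψ.range)
    (S : Set V) (hS : Subgroup.closure S = ⊤)
    (hgen : ∀ s ∈ S, ∃ wd : List ℕ, (∀ i ∈ wd, i < n) ∧ (wd.map (ng hC.af K)).prod ∈ G1 ∧
      ψ s = (wd.map (fun i => if h : i < n then M.simple ⟨i, h⟩ else 1)).prod) :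
    ∃ φ' : ↥(D.monomialSubgroup K ⊓ G1) →* V, Function.Surjective φ' ∧
      φ'.ker = (D.diagonalSubgroup K ⊓ G1).subgroupOf (D.monomialSubgroup K ⊓ G1) := by
  have hF := hC.af
  have hHN : D.diagonalSubgroup K ≤ D.monomialSubgroup K := by
    unfold ChevalleyDatum.monomialSubgroup
    exact le_sup_left
  have hNG : D.monomialSubgroup K ≤ D.group K := monomialSubgroup_le hF K
  have hngN : ∀ i < n, ng hF K i ∈ D.monomialSubgroup K := by
    intro i hi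
    rw [hC.monomial_eq (F := K)]
    exact ng_mem_N0 hF (hn ▸ hi)
  have hπng : ∀ (i : ℕ) (hi : i < n), π ⟨ng hF K i, hngN i hi⟩ = M.simple ⟨i, hi⟩ := by
    intro i hi
    apply hπ ⟨i, hi⟩
    have hiA : i < A.rank := hn ▸ hi
    have hiD : i < D.rank := hF.agrees.rank_eq ▸ hiA
    show ((ng hF K i : GL D.Idx K) : Matrix D.Idx D.Idx K) = D.nMat K (D.simple i) 1
    rw [coe_ng hF hiA, simple_eq_fast hF hiD]
  have hπH : ∀ (h : GL D.Idx K) (hh : h ∈ D.diagonalSubgroup K), π ⟨h, hHN hh⟩ = 1 := by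
    intro h hh
    have : (⟨h, hHN hh⟩ : ↥(D.monomialSubgroup K)) ∈ π.ker := by
      rw [hker, Subgroup.mem_subgroupOf]
      exact hh
    exact MonoidHom.mem_ker.mp this
  have hNT : D.monomialSubgroup K = Subgroup.closure
      ({g : GL D.Idx K | ∃ (r : ℕ) (t : K), r < D.nroots ∧ t ≠ 0 ∧
          (g : Matrix D.Idx D.Idx K) = D.hMat K r t} ∪
        {g | ∃ i < A.rank, g = ng hF K i}) := by
    rw [hC.monomial_eq (F := K), Subgroup.closure_union]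
    rfl
  apply exists_hom_sub (D.group K) (D.monomialSubgroup K) (D.diagonalSubgroup K) G1 hNG π hker
    σ ρ _ hNT ?_ ?_ ψ hψ hrange S hS ?_
  · rintro t (⟨r, c, hr, hc, ht⟩ | ⟨i, hi, rfl⟩)
    · have htH : t ∈ D.diagonalSubgroup K := Subgroup.subset_closure ⟨r, c, hr, hc, ht⟩
      obtain ⟨hb1, hb2, hb3⟩ := hbar r hr
      have e : (((σ ⟨t, hNG (hHN htH)⟩ : ↥(D.group K)) : GL D.Idx K) :
          Matrix D.Idx D.Idx K) = D.hMat K (bar r) (φ c ^ lam r) := by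
        have h0 := sig_word hF hσ (D.hWord r c) (hWord_lt hF hr c) ⟨t, hNG (hHN htH)⟩ ht
        rw [h0, sigW_hWord φ hb2 hb3 (hneg r hr) c]
        rfl
      have h2 : ((σ ⟨t, hNG (hHN htH)⟩ : ↥(D.group K)) : GL D.Idx K) ∈ D.diagonalSubgroup K :=
        Subgroup.subset_closure
          ⟨bar r, φ c ^ lam r, hb1, pow_ne_zero _ ((map_ne_zero φ).mpr hc), e⟩
      refine ⟨hHN htH, hHN h2, ?_⟩
      rw [hπH _ h2, hπH _ htH, map_one]
    · have hi' : i < n := hn ▸ hi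
      have hiD : i < D.rank := hF.agrees.rank_eq ▸ hi
      have hj : l i < n := hlt i hi'
      have hjA : l i < A.rank := hn.symm ▸ hj
      have hjD : l i < D.rank := hF.agrees.rank_eq ▸ hjA
      have hr : D.simple i < D.nroots := simple_lt hF hiD
      obtain ⟨hb1, hb2, hb3⟩ := hbar _ hr
      have e : ((σ ⟨ng hF K i, hNG (hngN i hi')⟩ : ↥(D.group K)) : GL D.Idx K) =
          ng hF K (l i) := by
        apply Units.ext
        have h0 : ((ng hF K i : GL D.Idx K) : Matrix D.Idx D.Idx K) =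
            D.wordMat K (D.nWord (D.simple i) 1) := by
          rw [coe_ng hF hi, simple_eq_fast hF hiD]
          rfl
        rw [sig_word hF hσ _ (nWord_lt hF hr 1) ⟨ng hF K i, hNG (hngN i hi')⟩ h0,
          sigW_nWord φ hb2 hb3 (hneg _ hr) 1, map_one, one_pow, hls i hi', coe_ng hF hjA,
          simple_eq_fast hF hjD]
        rfl
      have h2 : ((σ ⟨ng hF K i, hNG (hngN i hi')⟩ : ↥(D.group K)) : GL D.Idx K) ∈
          D.monomialSubgroup K := by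
        rw [e]
        exact hngN _ hj
      refine ⟨hngN i hi', h2, ?_⟩
      have e2 : (⟨((σ ⟨ng hF K i, hNG (hngN i hi')⟩ : ↥(D.group K)) : GL D.Idx K), h2⟩ :
          ↥(D.monomialSubgroup K)) = ⟨ng hF K (l i), hngN _ hj⟩ := Subtype.ext e
      rw [e2, hπng _ hj, hπng i hi']
      exact (hρ ⟨i, hi'⟩).symm
  · intro g hg
    exact (mem_fixG σ g).mp (hG1 hg)
  · intro s hs
    obtain ⟨wd, hwd, hmem, hψs⟩ := hgen s hs
    have key : ∀ wd : List ℕ, (∀ i ∈ wd, i < n) →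
        ∃ hN : (wd.map (ng hF K)).prod ∈ D.monomialSubgroup K,
          π ⟨(wd.map (ng hF K)).prod, hN⟩ =
            (wd.map (fun i => if h : i < n then M.simple ⟨i, h⟩ else 1)).prod := by
      intro wd
      induction wd with
      | nil =>
        intro _
        refine ⟨Subgroup.one_mem _, ?_⟩
        show π 1 = 1
        rw [map_one]
      | cons a wd ih =>
        intro hlt'
        have ha : a < n := hlt' a List.mem_cons_self
        obtain ⟨h1, e1⟩ := ih (fun i hi => hlt' i (List.mem_cons_of_mem _ hi))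
        refine ⟨?_, ?_⟩
        · rw [List.map_cons, List.prod_cons]
          exact Subgroup.mul_mem _ (hngN a ha) h1
        · have e3 : (⟨((a :: wd).map (ng hF K)).prod, by
              rw [List.map_cons, List.prod_cons]
              exact Subgroup.mul_mem _ (hngN a ha) h1⟩ : ↥(D.monomialSubgroup K)) =
              ⟨ng hF K a, hngN a ha⟩ * ⟨(wd.map (ng hF K)).prod, h1⟩ := by
            apply Subtype.ext
            show ((a :: wd).map (ng hF K)).prod = ng hF K a * (wd.map (ng hF K)).prod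
            rw [List.map_cons, List.prod_cons]
          rw [e3, map_mul, e1, hπng a ha, List.map_cons, List.prod_cons, dif_pos ha]
    obtain ⟨hN, e⟩ := key wd hwd
    exact ⟨⟨_, hN⟩, hmem, by rw [e, hψs]⟩

end chev

end Cfsg.Agent.Lib.Helper19.TwSig
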