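import Mathlib
import Cfsg.Agent.Lib.Helper19.TwSig
import Cfsg.Agent.Lib.Helper18.Tw3

set_option autoImplicit false
set_option linter.unusedSimpArgs false
set_option linter.unusedSectionVars false
set_option linter.unusedVariables false

/-!
Twisting endomorphisms defined on the Chevalley group only, in relational form (`Sg σ g g'` says
that `g` lies in the group and is sent to `g'`), their action on the Borel subgroup, on the
elements `n_i` and on the Bruhat cells; products of normal forms along lists of blocks.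
-/

namespace Cfsg.Agent.Lib.Helper19.TwRel

open Cfsg Cfsg.Lie Cfsg.Agent.Lib.Helper18.Fast Cfsg.Agent.Lib.Helper18.Grade
  Cfsg.Agent.Lib.Helper18.Facts Cfsg.Agent.Lib.Helper18.AllRoots Cfsg.Agent.Lib.Helper18.Loop
  Cfsg.Agent.Lib.Helper18.Weyl Cfsg.Agent.Lib.Helper18.RootSys Cfsg.Agent.Lib.Helper18.Orbit
  Cfsg.Agent.Lib.Helper18.Units Cfsg.Agent.Lib.Helper18.Sub Cfsg.Agent.Lib.Helper18.Norm
  Cfsg.Agent.Lib.Helper18.HAll Cfsg.Agent.Lib.Helper18.Torus Cfsg.Agent.Lib.Helper18.Pos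
  Cfsg.Agent.Lib.Helper18.WGroup Cfsg.Agent.Lib.Helper18.BNChev Cfsg.Agent.Lib.Helper18.Mono
  Cfsg.Agent.Lib.Helper18.BNPairC Cfsg.Agent.Lib.Helper18.UOrd Cfsg.Agent.Lib.Helper18.Cox
  Cfsg.Agent.Lib.Helper18.Long Cfsg.Agent.Lib.Helper18.Core Cfsg.Agent.Lib.Helper18.Conj
  Cfsg.Agent.Lib.Helper18.RFact Cfsg.Agent.Lib.Helper18.BNCell Cfsg.Agent.Lib.Helper18.Vec
  Cfsg.Agent.Lib.Helper18.XMat Cfsg.Agent.Lib.Helper18.Cells Cfsg.Agent.Lib.Helper18.Cox2
  Cfsg.Agent.Lib.Helper18.Cells2 Cfsg.Agent.Lib.Helper18.BNAbs Cfsg.Agent.Lib.Helper18.Poly2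
  Cfsg.Agent.Lib.Helper18.Graph Cfsg.Agent.Lib.Helper18.Tw1
  Cfsg.Agent.Lib.Helper18.Par Cfsg.Agent.Lib.Helper18.Par2 Cfsg.Agent.Lib.Helper18.Tw2
  Cfsg.Agent.Lib.Helper18.Tw3 Cfsg.Agent.Lib.Helper19.TwSig

variable {A : FData} {D : ChevalleyDatum} {K : Type*} [Field K] {X : WD} {m : ℕ → ℕ → ℤ}
  {w : ℕ → ℤ} {N : ℕ} {ord rnk : ℕ → ℕ} {bz : ℕ → ℕ → ℤ} {w' : ℕ → ℤ}

/-- `g` lies in the Chevalley group and the endomorphism sends it to `g'` -/
def Sg (σ : ↥(D.group K) →* ↥(D.group K)) (g g' : GL D.Idx K) : Prop :=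
  ∃ hg : g ∈ D.group K, ((σ ⟨g, hg⟩ : ↥(D.group K)) : GL D.Idx K) = g'

section rel

variable {σ : ↥(D.group K) →* ↥(D.group K)}

theorem Sg.mul {g g' h h' : GL D.Idx K} (h1 : Sg σ g g') (h2 : Sg σ h h') :
    Sg σ (g * h) (g' * h') := by
  obtain ⟨hg, e1⟩ := h1
  obtain ⟨hh, e2⟩ := h2
  refine ⟨(D.group K).mul_mem hg hh, ?_⟩
  have e : (⟨g * h, (D.group K).mul_mem hg hh⟩ : ↥(D.group K)) = ⟨g, hg⟩ * ⟨h, hh⟩ := rfl
  rw [e, map_mul, Subgroup.coe_mul, e1, e2]

theorem Sg.one : Sg σ (1 : GL D.Idx K) 1 := by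
  refine ⟨(D.group K).one_mem, ?_⟩
  have e : (⟨1, (D.group K).one_mem⟩ : ↥(D.group K)) = 1 := rfl
  rw [e, map_one]
  rfl

theorem Sg.inv {g g' : GL D.Idx K} (h1 : Sg σ g g') : Sg σ g⁻¹ g'⁻¹ := by
  obtain ⟨hg, e1⟩ := h1
  refine ⟨(D.group K).inv_mem hg, ?_⟩
  have e : (⟨g⁻¹, (D.group K).inv_mem hg⟩ : ↥(D.group K)) = (⟨g, hg⟩ : ↥(D.group K))⁻¹ := rfl
  rw [e, map_inv, Subgroup.coe_inv, e1]

theorem Sg.unique {g a b : GL D.Idx K} (h1 : Sg σ g a) (h2 : Sg σ g b) : a = b := by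
  obtain ⟨hg, e1⟩ := h1
  obtain ⟨hg', e2⟩ := h2
  rw [← e1, ← e2]

theorem Sg.mem {g g' : GL D.Idx K} (h1 : Sg σ g g') : g ∈ D.group K := h1.1

theorem Sg.mem' {g g' : GL D.Idx K} (h1 : Sg σ g g') : g' ∈ D.group K := by
  obtain ⟨hg, e1⟩ := h1
  rw [← e1]
  exact (σ ⟨g, hg⟩).2

theorem Sg.total {g : GL D.Idx K} (hg : g ∈ D.group K) : ∃ g', Sg σ g g' := ⟨_, hg, rfl⟩

theorem sg_fix_iff {g : GL D.Idx K} : g ∈ fixG σ ↔ Sg σ g g := mem_fixG σ g

theorem Sg.congr {g g' g'' : GL D.Idx K} (h1 : Sg σ g g') (e : g' = g'') : Sg σ g g'' := e ▸ h1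

end rel

section chev

variable {bar lam : ℕ → ℕ} {φ : K →+* K} {σ : ↥(D.group K) →* ↥(D.group K)}

theorem sg_xg (hF : AFacts A D) (hσ : IsSig D bar lam φ σ) {r : ℕ} (hr : r < D.nroots)
    (hbr : bar r < D.nroots) (t : K) :
    Sg σ (xg hF K r t) (xg hF K (bar r) (φ t ^ lam r)) := by
  rw [xg_eq hF hr, xg_eq hF hbr]
  refine ⟨xU_mem_group hF r hr t, Units.ext ?_⟩
  rw [coe_xU]
  exact hσ ⟨xU hF K r hr t, xU_mem_group hF r hr t⟩ r t hr rfl

theorem sg_word (hF : AFacts A D) (hσ : IsSig D bar lam φ σ) (wd : List (ℕ × K))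
    (hwd : ∀ p ∈ wd, p.1 < D.nroots) {g g' : GL D.Idx K}
    (hg : (g : Matrix D.Idx D.Idx K) = D.wordMat K wd)
    (hg' : (g' : Matrix D.Idx D.Idx K) = D.wordMat K (sigW bar lam φ wd)) : Sg σ g g' := by
  have hgG := word_mem_group hF wd hwd g hg
  exact ⟨hgG, Units.ext (by rw [sig_word hF hσ wd hwd ⟨g, hgG⟩ hg, hg'])⟩

theorem sg_ng (hF : AFacts A D) (hσ : IsSig D bar lam φ σ)
    (hbar : ∀ r < D.nroots, bar r < D.nroots ∧ bar (D.neg r) = D.neg (bar r) ∧
      lam (D.neg r) = lam r)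
    (hneg : ∀ r < D.nroots, ∀ t : K, (-t) ^ lam r = -(t ^ lam r)) {i j : ℕ} (hi : i < A.rank)
    (hj : j < A.rank) (hij : bar (D.simple i) = D.simple j) :
    Sg σ (ng hF K i) (ng hF K j) := by
  have hiD : i < D.rank := hF.agrees.rank_eq ▸ hi
  have hjD : j < D.rank := hF.agrees.rank_eq ▸ hj
  have hr : D.simple i < D.nroots := simple_lt hF hiD
  obtain ⟨hb1, hb2, hb3⟩ := hbar _ hr
  apply sg_word hF hσ (D.nWord (D.simple i) 1) (nWord_lt hF hr 1)
  · rw [coe_ng hF hi, simple_eq_fast hF hiD]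
    rfl
  · rw [sigW_nWord φ hb2 hb3 (hneg _ hr) 1, map_one, one_pow, hij, coe_ng hF hj,
      simple_eq_fast hF hjD]
    rfl

theorem sg_borel (hF : AFacts A D) (hσ : IsSig D bar lam φ σ)
    (hbar : ∀ r < D.nroots, bar r < D.nroots ∧ bar (D.neg r) = D.neg (bar r) ∧
      lam (D.neg r) = lam r)
    (hneg : ∀ r < D.nroots, ∀ t : K, (-t) ^ lam r = -(t ^ lam r))
    (hpos : ∀ r < A.n, PosA A r → PosA A (bar r)) {b b' : GL D.Idx K}
    (hb : b ∈ D.borelSubgroup K) (h : Sg σ b b') : b' ∈ D.borelSubgroup K := by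
  have hBG : D.borelSubgroup K ≤ D.group K := borelSubgroup_le hF K
  have key : D.borelSubgroup K ≤
      ((((D.borelSubgroup K).subgroupOf (D.group K)).comap σ).map (D.group K).subtype) := by
    conv_lhs => unfold ChevalleyDatum.borelSubgroup
    apply sup_le
    · conv_lhs => unfold ChevalleyDatum.posUnipotent
      rw [Subgroup.closure_le]
      rintro g ⟨r, t, hr, hg⟩
      have hr' := lt_n hF hr.1
      have hgG : g ∈ D.group K := Subgroup.subset_closure ⟨⟨r, hr.1⟩, t, by rw [hg, x_eq_xMat hr.1]⟩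
      refine ⟨⟨g, hgG⟩, ?_, rfl⟩
      rw [SetLike.mem_coe, Subgroup.mem_comap, Subgroup.mem_subgroupOf]
      apply Subgroup.mem_sup_left
      have hbr := (hbar r hr.1).1
      exact Subgroup.subset_closure ⟨bar r, φ t ^ lam r,
        (posA_iff hF (lt_n hF hbr)).mp (hpos r hr' ((posA_iff hF hr').mpr hr)),
        hσ ⟨g, hgG⟩ r t hr.1 hg⟩
    · conv_lhs => unfold ChevalleyDatum.diagonalSubgroup
      rw [Subgroup.closure_le]
      rintro g ⟨r, c, hr, hc, hg⟩
      obtain ⟨hb1, hb2, hb3⟩ := hbar r hr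
      have hgG : g ∈ D.group K := word_mem_group hF (D.hWord r c) (hWord_lt hF hr c) g hg
      refine ⟨⟨g, hgG⟩, ?_, rfl⟩
      rw [SetLike.mem_coe, Subgroup.mem_comap, Subgroup.mem_subgroupOf]
      apply Subgroup.mem_sup_right
      have e : (((σ ⟨g, hgG⟩ : ↥(D.group K)) : GL D.Idx K) : Matrix D.Idx D.Idx K) =
          D.hMat K (bar r) (φ c ^ lam r) := by
        have h0 := sig_word hF hσ (D.hWord r c) (hWord_lt hF hr c) ⟨g, hgG⟩ hg
        rw [h0, sigW_hWord φ hb2 hb3 (hneg r hr) c]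
        rfl
      exact Subgroup.subset_closure
        ⟨bar r, φ c ^ lam r, hb1, pow_ne_zero _ ((map_ne_zero φ).mpr hc), e⟩
  obtain ⟨x, hx, hxb⟩ := key hb
  obtain ⟨hg, e⟩ := h
  have ex : x = ⟨b, hg⟩ := Subtype.ext hxb
  rw [← e, ← ex]
  exact Subgroup.mem_subgroupOf.mp (Subgroup.mem_comap.mp hx)

/-- a cell whose representative is fixed is stable -/
theorem sg_cell (hC : CFacts A D X m w) (hσ : IsSig D bar lam φ σ)
    (hbar : ∀ r < D.nroots, bar r < D.nroots ∧ bar (D.neg r) = D.neg (bar r) ∧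
      lam (D.neg r) = lam r)
    (hneg : ∀ r < D.nroots, ∀ t : K, (-t) ^ lam r = -(t ^ lam r))
    (hpos : ∀ r < A.n, PosA A r → PosA A (bar r)) {wd : List ℕ}
    (hn : Sg σ (nw hC.af K (plain wd)) (nw hC.af K (plain wd))) {c c' : GL D.Idx K}
    (hc : c ∈ cell hC K wd) (h : Sg σ c c') : c' ∈ cell hC K wd := by
  have hF := hC.af
  have hBG : D.borelSubgroup K ≤ D.group K := borelSubgroup_le hF K
  unfold cell at hc ⊢
  rw [DoubleCoset.mem_doubleCoset] at hc ⊢
  obtain ⟨b₁, hb₁, b₂, hb₂, rfl⟩ := hc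
  obtain ⟨b₁', h1⟩ := Sg.total (σ := σ) (hBG hb₁)
  obtain ⟨b₂', h2⟩ := Sg.total (σ := σ) (hBG hb₂)
  have h3 := (h1.mul hn).mul h2
  rw [h.unique h3]
  exact ⟨b₁', sg_borel hF hσ hbar hneg hpos hb₁ h1, b₂', sg_borel hF hσ hbar hneg hpos hb₂ h2, rfl⟩

end chev

/-! ### Products of normal forms -/

section zs

variable (hC : CFacts A D X m w) (hR : RFacts A X) (hU : UFacts A w' N ord rnk bz) (hn : 0 < A.n)
  (hadd : ∀ r < D.nroots, ∀ t u : K, D.x K r t * D.x K r u = D.x K r (t + u))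
  (hinj : ∀ r < D.nroots, ∀ t : K, D.x K r t = 1 → t = 0)

theorem zs_append (L1 L2 : List (List ℕ)) (g : GL D.Idx K) :
    g ∈ ZS hC.af K (L1 ++ L2) ↔ ∃ a ∈ ZS hC.af K L1, ∃ b ∈ ZS hC.af K L2, g = a * b := by
  induction L1 generalizing g with
  | nil =>
    constructor
    · intro hg
      exact ⟨1, rfl, g, hg, (one_mul g).symm⟩
    · rintro ⟨a, ha, b, hb, rfl⟩
      have : a = 1 := ha
      rw [this, one_mul]
      exact hb
  | cons S L1 ih =>
    constructor
    · rintro ⟨f, hf, -, c, hc, rfl⟩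
      obtain ⟨a, ha, b, hb, rfl⟩ := (ih c).mp hc
      exact ⟨blk hC.af K S f * a, ⟨f, hf, trivial, a, ha, rfl⟩, b, hb, (mul_assoc _ _ _).symm⟩
    · rintro ⟨a, ⟨f, hf, -, c, hc, rfl⟩, b, hb, rfl⟩
      exact ⟨f, hf, trivial, c * b, (ih _).mpr ⟨c, hc, b, hb, rfl⟩, mul_assoc _ _ _⟩

include hadd hinj in
theorem zs_mul_cell (Ss : List (List ℕ)) (wd : List ℕ) (hred : RedT A X (Ss.flatten ++ wd))
    {z c : GL D.Idx K} (hz : z ∈ ZS hC.af K Ss) (hc : c ∈ cell hC K wd) :
    z * c ∈ cell hC K (Ss.flatten ++ wd) := by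
  induction Ss generalizing z with
  | nil =>
    have : z = 1 := hz
    rw [this, one_mul]
    exact hc
  | cons S Ss ih =>
    obtain ⟨f, -, -, z1, hz1, rfl⟩ := hz
    rw [List.flatten_cons, List.append_assoc] at hred ⊢
    rw [mul_assoc]
    exact blk_mem hC hadd hinj hred f (ih (redT_append hred) hz1)

include hadd hinj in
/-- uniqueness of the normal form along a list of blocks followed by an element of a cell -/
theorem zs_inj (Ss : List (List ℕ)) (wd : List ℕ) (hred : RedT A X (Ss.flatten ++ wd))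
    {z z' c c' : GL D.Idx K} (hz : z ∈ ZS hC.af K Ss) (hz' : z' ∈ ZS hC.af K Ss)
    (hc : c ∈ cell hC K wd) (hc' : c' ∈ cell hC K wd) (e : z * c = z' * c') :
    z = z' ∧ c = c' := by
  induction Ss generalizing z z' with
  | nil =>
    have h1 : z = 1 := hz
    have h2 : z' = 1 := hz'
    rw [h1, h2, one_mul, one_mul] at e
    exact ⟨h1.trans h2.symm, e⟩
  | cons S Ss ih =>
    obtain ⟨f, -, -, z1, hz1, rfl⟩ := hz
    obtain ⟨f', -, -, z1', hz1', rfl⟩ := hz'
    rw [List.flatten_cons, List.append_assoc] at hred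
    rw [mul_assoc, mul_assoc] at e
    have hred' := redT_append hred
    obtain ⟨h1, h2⟩ := blk_inj hC hadd hinj hred (zs_mul_cell hC hadd hinj Ss wd hred' hz1 hc)
      (zs_mul_cell hC hadd hinj Ss wd hred' hz1' hc') e
    obtain ⟨h3, h4⟩ := ih hred' hz1 hz1' h2
    exact ⟨by rw [blk_congr hC.af h1, h3], h4⟩

end zs

/-! ### Normal forms along a word with a list of parameters -/

/-- the normal form along a word with a list of parameters -/
noncomputable def zw (hF : AFacts A D) (K : Type*) [Field K] : List ℕ → List K → GL D.Idx K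
  | i :: wd, t :: ts => xg hF K (A.simple i) t * ng hF K i * zw hF K wd ts
  | _, _ => 1

theorem zw_nil (hF : AFacts A D) (ts : List K) : zw hF K [] ts = 1 := by
  cases ts <;> rfl

theorem zw_cons (hF : AFacts A D) (i : ℕ) (wd : List ℕ) (t : K) (ts : List K) :
    zw hF K (i :: wd) (t :: ts) = xg hF K (A.simple i) t * ng hF K i * zw hF K wd ts := rfl

theorem zw_append (hF : AFacts A D) (w1 w2 : List ℕ) (ts1 ts2 : List K)
    (h : ts1.length = w1.length) :
    zw hF K (w1 ++ w2) (ts1 ++ ts2) = zw hF K w1 ts1 * zw hF K w2 ts2 := by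
  induction w1 generalizing ts1 with
  | nil =>
    have e : ts1 = [] := List.length_eq_zero_iff.mp h
    subst e
    rw [List.nil_append, List.nil_append, zw_nil, one_mul]
  | cons i w1 ih =>
    cases ts1 with
    | nil => simp at h
    | cons t ts1 =>
      rw [List.cons_append, List.cons_append, zw_cons, zw_cons, ih ts1 (by simpa using h)]
      simp only [mul_assoc]

theorem flatten_sing (wd : List ℕ) : (wd.map fun i => [i]).flatten = wd := by
  induction wd with
  | nil => rfl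
  | cons i wd ih =>
    rw [List.map_cons, List.flatten_cons, ih]
    rfl

theorem mem_zs_sing (hF : AFacts A D) (wd : List ℕ) (g : GL D.Idx K) :
    g ∈ ZS hF K (wd.map fun i => [i]) ↔
      ∃ ts : List K, ts.length = wd.length ∧ g = zw hF K wd ts := by
  induction wd generalizing g with
  | nil =>
    constructor
    · intro hg
      exact ⟨[], rfl, hg⟩
    · rintro ⟨ts, -, rfl⟩
      rw [zw_nil]
      rfl
  | cons i wd ih =>
    constructor
    · rintro ⟨f, -, -, c, hc, rfl⟩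
      obtain ⟨ts, hts, rfl⟩ := (ih c).mp hc
      refine ⟨f i :: ts, by simp [hts], ?_⟩
      rw [zw_cons, blk_cons, blk_nil, mul_one]
    · rintro ⟨ts, hts, rfl⟩
      cases ts with
      | nil => simp at hts
      | cons t ts =>
        refine ⟨fun j => if j = i then t else 0, ?_, trivial, zw hF K wd ts,
          (ih _).mpr ⟨ts, by simpa using hts, rfl⟩, ?_⟩
        · intro j hj
          have hji : j ≠ i := fun h => hj (by rw [h]; exact List.mem_singleton_self i)
          simp [hji]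
        · rw [zw_cons, blk_cons, blk_nil, mul_one]
          simp

section zwcell

variable (hC : CFacts A D X m w)
  (hadd : ∀ r < D.nroots, ∀ t u : K, D.x K r t * D.x K r u = D.x K r (t + u))
  (hinj : ∀ r < D.nroots, ∀ t : K, D.x K r t = 1 → t = 0)

include hadd hinj in
theorem zw_mul_cell (wd wd' : List ℕ) (hred : RedT A X (wd ++ wd')) (ts : List K)
    (h : ts.length = wd.length) {c : GL D.Idx K} (hc : c ∈ cell hC K wd') :
    zw hC.af K wd ts * c ∈ cell hC K (wd ++ wd') := by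
  induction wd generalizing ts with
  | nil =>
    rw [zw_nil, one_mul]
    exact hc
  | cons i wd ih =>
    cases ts with
    | nil => simp at h
    | cons t ts =>
      rw [zw_cons, mul_assoc]
      exact cell_cons_mem hC hadd hinj hred t (ih hred.2.1 ts (by simpa using h))

include hadd hinj in
theorem zw_mem_cell (wd : List ℕ) (hred : RedT A X wd) (ts : List K)
    (h : ts.length = wd.length) : zw hC.af K wd ts ∈ cell hC K wd := by
  have h1 := zw_mul_cell hC hadd hinj wd [] (by rw [List.append_nil]; exact hred) ts h (c := 1)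
    (by rw [cell_nil]; exact Subgroup.one_mem _)
  rwa [mul_one, List.append_nil] at h1

include hadd hinj in
/-- uniqueness of the normal form along a word followed by an element of a cell -/
theorem zw_inj (wd wd' : List ℕ) (hred : RedT A X (wd ++ wd')) {ts ts' : List K}
    (h : ts.length = wd.length) (h' : ts'.length = wd.length) {c c' : GL D.Idx K}
    (hc : c ∈ cell hC K wd') (hc' : c' ∈ cell hC K wd')
    (e : zw hC.af K wd ts * c = zw hC.af K wd ts' * c') : ts = ts' ∧ c = c' := by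
  induction wd generalizing ts ts' with
  | nil =>
    have e1 : ts = [] := List.length_eq_zero_iff.mp h
    have e2 : ts' = [] := List.length_eq_zero_iff.mp h'
    subst e1
    subst e2
    rw [zw_nil, one_mul, one_mul] at e
    exact ⟨rfl, e⟩
  | cons i wd ih =>
    cases ts with
    | nil => simp at h
    | cons t ts =>
      cases ts' with
      | nil => simp at h'
      | cons t' ts' =>
        have e' : xg hC.af K (A.simple i) t * ng hC.af K i * (zw hC.af K wd ts * c) =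
            xg hC.af K (A.simple i) t' * ng hC.af K i * (zw hC.af K wd ts' * c') := by
          simpa only [zw_cons, mul_assoc] using e
        have l1 : ts.length = wd.length := by simpa using h
        have l2 : ts'.length = wd.length := by simpa using h'
        obtain ⟨h1, h2⟩ := cell_cons_inj hC hadd hinj hred
          (zw_mul_cell hC hadd hinj wd wd' hred.2.1 ts l1 hc)
          (zw_mul_cell hC hadd hinj wd wd' hred.2.1 ts' l2 hc') e'
        obtain ⟨h3, h4⟩ := ih hred.2.1 l1 l2 h2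
        exact ⟨by rw [h1, h3], h4⟩

end zwcell

/-! ### Fixed normal forms -/

/-- the fixed normal forms along a word -/
def FixSet (hF : AFacts A D) (σ : ↥(D.group K) →* ↥(D.group K)) (wd : List ℕ) :
    Set (GL D.Idx K) :=
  {g | ∃ ts : List K, ts.length = wd.length ∧ g = zw hF K wd ts ∧ Sg σ g g}

/-- the normal forms along a word are stable -/
def Stab (hF : AFacts A D) (σ : ↥(D.group K) →* ↥(D.group K)) (wd : List ℕ) : Prop :=
  ∀ ts : List K, ts.length = wd.length →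
    ∃ ts' : List K, ts'.length = wd.length ∧ Sg σ (zw hF K wd ts) (zw hF K wd ts')

section fix

variable {σ : ↥(D.group K) →* ↥(D.group K)}

theorem stab_nil (hF : AFacts A D) : Stab hF σ [] := by
  intro ts _
  refine ⟨[], rfl, ?_⟩
  rw [zw_nil, zw_nil]
  exact Sg.one

theorem stab_append (hF : AFacts A D) {w1 w2 : List ℕ} (h1 : Stab hF σ w1) (h2 : Stab hF σ w2) :
    Stab hF σ (w1 ++ w2) := by
  intro ts hts
  rw [List.length_append] at hts
  have e : ts = ts.take w1.length ++ ts.drop w1.length := (List.take_append_drop _ _).symm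
  have l1 : (ts.take w1.length).length = w1.length := by
    rw [List.length_take]
    omega
  have l2 : (ts.drop w1.length).length = w2.length := by
    rw [List.length_drop]
    omega
  obtain ⟨a, ha, sa⟩ := h1 _ l1
  obtain ⟨b, hb, sb⟩ := h2 _ l2
  refine ⟨a ++ b, by rw [List.length_append, List.length_append, ha, hb], ?_⟩
  rw [e, zw_append hF _ _ _ _ l1, zw_append hF _ _ _ _ ha]
  exact sa.mul sb

variable (hC : CFacts A D X m w)
  (hadd : ∀ r < D.nroots, ∀ t u : K, D.x K r t * D.x K r u = D.x K r (t + u))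
  (hinj : ∀ r < D.nroots, ∀ t : K, D.x K r t = 1 → t = 0)

include hadd hinj in
theorem fix_split (w1 w2 : List ℕ) (hred : RedT A X (w1 ++ w2)) (h1 : Stab hC.af σ w1)
    (h2 : Stab hC.af σ w2) {ts1 ts2 : List K} (l1 : ts1.length = w1.length)
    (l2 : ts2.length = w2.length)
    (hfix : Sg σ (zw hC.af K w1 ts1 * zw hC.af K w2 ts2)
      (zw hC.af K w1 ts1 * zw hC.af K w2 ts2)) :
    Sg σ (zw hC.af K w1 ts1) (zw hC.af K w1 ts1) ∧
      Sg σ (zw hC.af K w2 ts2) (zw hC.af K w2 ts2) := by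
  obtain ⟨a, ha, sa⟩ := h1 _ l1
  obtain ⟨b, hb, sb⟩ := h2 _ l2
  have e := hfix.unique (sa.mul sb)
  have hr2 := redT_append hred
  obtain ⟨e1, e2⟩ := zw_inj hC hadd hinj w1 w2 hred l1 ha
    (zw_mem_cell hC hadd hinj w2 hr2 _ l2) (zw_mem_cell hC hadd hinj w2 hr2 _ hb) e
  rw [← e1] at sa
  rw [← e2] at sb
  exact ⟨sa, sb⟩

include hadd hinj in
theorem card_fix_append (w1 w2 : List ℕ) (hred : RedT A X (w1 ++ w2)) (h1 : Stab hC.af σ w1)
    (h2 : Stab hC.af σ w2) :
    Nat.card (FixSet hC.af σ (w1 ++ w2)) =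
      Nat.card (FixSet hC.af σ w1) * Nat.card (FixSet hC.af σ w2) := by
  have hr2 := redT_append hred
  rw [← Nat.card_prod]
  symm
  apply Nat.card_congr
  refine Equiv.ofBijective
    (fun p : FixSet hC.af σ w1 × FixSet hC.af σ w2 => ⟨p.1.1 * p.2.1, ?_⟩) ⟨?_, ?_⟩
  · obtain ⟨ts1, l1, e1, s1⟩ := p.1.2
    obtain ⟨ts2, l2, e2, s2⟩ := p.2.2
    exact ⟨ts1 ++ ts2, by rw [List.length_append, List.length_append, l1, l2],
      by rw [zw_append hC.af _ _ _ _ l1, e1, e2], s1.mul s2⟩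
  · rintro ⟨⟨a, ts1, l1, rfl, s1⟩, ⟨c, ts2, l2, rfl, s2⟩⟩
      ⟨⟨a', ts1', l1', rfl, s1'⟩, ⟨c', ts2', l2', rfl, s2'⟩⟩ e
    have e' : zw hC.af K w1 ts1 * zw hC.af K w2 ts2 =
        zw hC.af K w1 ts1' * zw hC.af K w2 ts2' := congrArg Subtype.val e
    obtain ⟨h3, h4⟩ := zw_inj hC hadd hinj w1 w2 hred l1 l1'
      (zw_mem_cell hC hadd hinj w2 hr2 _ l2) (zw_mem_cell hC hadd hinj w2 hr2 _ l2') e'
    subst h3
    exact Prod.ext rfl (Subtype.ext h4)
  · rintro ⟨g, ts, hts, rfl, hfix⟩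
    rw [List.length_append] at hts
    have e : ts = ts.take w1.length ++ ts.drop w1.length := (List.take_append_drop _ _).symm
    have l1 : (ts.take w1.length).length = w1.length := by
      rw [List.length_take]
      omega
    have l2 : (ts.drop w1.length).length = w2.length := by
      rw [List.length_drop]
      omega
    have e2 : zw hC.af K (w1 ++ w2) ts =
        zw hC.af K w1 (ts.take w1.length) * zw hC.af K w2 (ts.drop w1.length) := by
      rw [← zw_append hC.af _ _ _ _ l1, List.take_append_drop]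
    rw [e2] at hfix
    obtain ⟨f1, f2⟩ := fix_split hC hadd hinj w1 w2 hred h1 h2 l1 l2 hfix
    exact ⟨(⟨_, _, l1, rfl, f1⟩, ⟨_, _, l2, rfl, f2⟩), Subtype.ext e2.symm⟩

include hadd hinj in
theorem fix_mem_append (Γ : Subgroup (GL D.Idx K)) (w1 w2 : List ℕ)
    (hred : RedT A X (w1 ++ w2)) (h1 : Stab hC.af σ w1) (h2 : Stab hC.af σ w2)
    (m1 : FixSet hC.af σ w1 ⊆ Γ) (m2 : FixSet hC.af σ w2 ⊆ Γ) :
    FixSet hC.af σ (w1 ++ w2) ⊆ Γ := by
  rintro g ⟨ts, hts, rfl, hfix⟩
  rw [List.length_append] at hts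
  have l1 : (ts.take w1.length).length = w1.length := by
    rw [List.length_take]
    omega
  have l2 : (ts.drop w1.length).length = w2.length := by
    rw [List.length_drop]
    omega
  have e2 : zw hC.af K (w1 ++ w2) ts =
      zw hC.af K w1 (ts.take w1.length) * zw hC.af K w2 (ts.drop w1.length) := by
    rw [← zw_append hC.af _ _ _ _ l1, List.take_append_drop]
  rw [e2] at hfix ⊢
  obtain ⟨f1, f2⟩ := fix_split hC hadd hinj w1 w2 hred h1 h2 l1 l2 hfix
  exact Γ.mul_mem (m1 ⟨_, l1, rfl, f1⟩) (m2 ⟨_, l2, rfl, f2⟩)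

variable (hR : RFacts A X) (hU : UFacts A w' N ord rnk bz) (hn : 0 < A.n)

include hR hU hn hadd hinj in
/-- the fixed points on `U` correspond to the fixed normal forms along a longest word -/
theorem card_U_fix [Fintype K] (W : List ℕ) (hred : RedT A X W) (hlen : W.length = N)
    (hn0 : Sg σ (nw hC.af K (plain W)) (nw hC.af K (plain W))) :
    Nat.card ↥(D.posUnipotent K ⊓ fixG σ) = Nat.card (FixSet hC.af σ W) := by
  have hfl := flatten_sing W
  apply Nat.card_congr
  refine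
    { toFun := fun u => ⟨(u : GL D.Idx K) * nw hC.af K (plain W), ?_⟩
      invFun := fun g => ⟨(g : GL D.Idx K) * (nw hC.af K (plain W))⁻¹, ?_⟩
      left_inv := fun u => Subtype.ext (mul_inv_cancel_right _ _)
      right_inv := fun g => Subtype.ext (inv_mul_cancel_right _ _) }
  · have h1 := mem_ZS_of_mem_U hC hR hU hn hadd hinj (W.map fun i => [i])
      (by
        intro S hS
        obtain ⟨i, -, rfl⟩ := List.mem_map.mp hS
        exact List.nodup_singleton i)
      (by rw [hfl]; exact hred) (by rw [hfl]; exact hlen) u.2.1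
    rw [hfl] at h1
    obtain ⟨ts, hts, e⟩ := (mem_zs_sing hC.af W _).mp h1
    exact ⟨ts, hts, e, (sg_fix_iff.mp u.2.2).mul hn0⟩
  · obtain ⟨ts, hts, e, hfix⟩ := g.2
    have h1 : (g : GL D.Idx K) ∈ ZS hC.af K (W.map fun i => [i]) :=
      (mem_zs_sing hC.af W _).mpr ⟨ts, hts, e⟩
    obtain ⟨u', hu', e'⟩ := ZS_U hC hR hU hn hadd (W.map fun i => [i])
      (by rw [hfl]; exact hred) h1
    rw [hfl] at hu' e'
    refine ⟨?_, sg_fix_iff.mpr (hfix.mul hn0.inv)⟩
    rw [e', mul_inv_cancel_right]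
    exact Uw_le hC.af _ hu'

include hR hU hn hadd hinj in
theorem U_fix_le [Fintype K] (Γ : Subgroup (GL D.Idx K)) (W : List ℕ) (hred : RedT A X W)
    (hlen : W.length = N)
    (hn0 : Sg σ (nw hC.af K (plain W)) (nw hC.af K (plain W)))
    (hnΓ : nw hC.af K (plain W) ∈ Γ) (hΓ : FixSet hC.af σ W ⊆ Γ) :
    D.posUnipotent K ⊓ fixG σ ≤ Γ := by
  rintro u ⟨hu, hfix⟩
  have hfl := flatten_sing W
  have h1 := mem_ZS_of_mem_U hC hR hU hn hadd hinj (W.map fun i => [i])
    (by
      intro S hS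
      obtain ⟨i, -, rfl⟩ := List.mem_map.mp hS
      exact List.nodup_singleton i)
    (by rw [hfl]; exact hred) (by rw [hfl]; exact hlen) hu
  rw [hfl] at h1
  obtain ⟨ts, hts, e⟩ := (mem_zs_sing hC.af W _).mp h1
  have h2 : u * nw hC.af K (plain W) ∈ Γ :=
    hΓ ⟨ts, hts, e, (sg_fix_iff.mp hfix).mul hn0⟩
  have h3 := Γ.mul_mem h2 (Γ.inv_mem hnΓ)
  rwa [mul_inv_cancel_right] at h3

end fix

end Cfsg.Agent.Lib.Helper19.TwRel
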