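import Cfsg.Agent.Lib.Helper19.GraphAut
import Cfsg.Agent.Lib.Helper18.FTabF4

set_option autoImplicit false
set_option maxRecDepth 100000

/-!
The data of the exceptional graph automorphism of type F4 in characteristic 2 and its checks.
Generated data.
-/

namespace Cfsg.Agent.Lib.Helper19.GraphAutF4

open Cfsg Cfsg.Lie Cfsg.Agent.Lib.Helper18.Fast Cfsg.Agent.Lib.Helper19.GraphAut
  Cfsg.Agent.Lib.Helper18

/-- short root vectors and the coroots of the short fundamental roots span the stable subspace -/
def gd : GData where
  inI := fun k => [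
    false, false, false, true, false, false, false, true, true, true, true, true, true, true,
    true, false, false, false, true, true, true, false, false, false, false, false, false, true,
    true, true, false, false, false, true, true, true, true, true, true, true, true, false,
    false, false, true, false, false, false, true, true, false, false].getD k false
  sw := fun k => [
    3, 7, 8, 0, 9, 11, 18, 1, 2, 4, 15, 5, 16, 21, 23, 10, 12, 19, 6, 17, 22, 13, 20, 14, 33, 27,
    34, 25, 30, 41, 28, 35, 37, 24, 26, 31, 42, 32, 43, 45, 46, 29, 36, 38, 47, 39, 40, 44, 51,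
    50, 49, 48].getD k 0
  bar := fun r => [
    3, 7, 8, 0, 9, 11, 18, 1, 2, 4, 15, 5, 16, 21, 23, 10, 12, 19, 6, 17, 22, 13, 20, 14, 33, 27,
    34, 25, 30, 41, 28, 35, 37, 24, 26, 31, 42, 32, 43, 45, 46, 29, 36, 38, 47, 39, 40, 44].getD r 0
  lam := fun r => [
    1, 1, 1, 2, 1, 1, 1, 2, 2, 2, 2, 2, 2, 2, 2, 1, 1, 1, 2, 2, 2, 1, 1, 1, 1, 1, 1, 2, 2, 2, 1,
    1, 1, 2, 2, 2, 2, 2, 2, 2, 2, 1, 1, 1, 2, 1, 1, 1].getD r 1

theorem agrees : Agrees FTabF4.fd chevF4 := FTabF4.fd_eq ▸ TabF4.agrees

theorem hsw : chkSw FTabF4.fd gd = true := by decide +kernel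

theorem hbar : chkBar FTabF4.fd gd 2 = true := by decide +kernel

theorem hI_0 : (List.range' 0 8).all (fun r => chkInv FTabF4.fd gd 2 r) = true := by
  decide +kernel

theorem hR_0 : (List.range' 0 8).all (fun r => chkRel FTabF4.fd gd 2 r) = true := by
  decide +kernel

theorem hI_8 : (List.range' 8 8).all (fun r => chkInv FTabF4.fd gd 2 r) = true := by
  decide +kernel

theorem hR_8 : (List.range' 8 8).all (fun r => chkRel FTabF4.fd gd 2 r) = true := by
  decide +kernel

theorem hI_16 : (List.range' 16 8).all (fun r => chkInv FTabF4.fd gd 2 r) = true := by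
  decide +kernel

theorem hR_16 : (List.range' 16 8).all (fun r => chkRel FTabF4.fd gd 2 r) = true := by
  decide +kernel

theorem hI_24 : (List.range' 24 8).all (fun r => chkInv FTabF4.fd gd 2 r) = true := by
  decide +kernel

theorem hR_24 : (List.range' 24 8).all (fun r => chkRel FTabF4.fd gd 2 r) = true := by
  decide +kernel

theorem hI_32 : (List.range' 32 8).all (fun r => chkInv FTabF4.fd gd 2 r) = true := by
  decide +kernel

theorem hR_32 : (List.range' 32 8).all (fun r => chkRel FTabF4.fd gd 2 r) = true := by
  decide +kernel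

theorem hI_40 : (List.range' 40 8).all (fun r => chkInv FTabF4.fd gd 2 r) = true := by
  decide +kernel

theorem hR_40 : (List.range' 40 8).all (fun r => chkRel FTabF4.fd gd 2 r) = true := by
  decide +kernel

theorem hI : ∀ r < FTabF4.fd.n, chkInv FTabF4.fd gd 2 r = true := by
  intro r hr
  have hr' : r < 48 := hr
  by_cases h0 : r < 8
  · have := hI_0
    rw [List.all_eq_true] at this
    exact this r (List.mem_range'_1.mpr ⟨by omega, by omega⟩)
  by_cases h8 : r < 16
  · have := hI_8
    rw [List.all_eq_true] at this
    exact this r (List.mem_range'_1.mpr ⟨by omega, by omega⟩)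
  by_cases h16 : r < 24
  · have := hI_16
    rw [List.all_eq_true] at this
    exact this r (List.mem_range'_1.mpr ⟨by omega, by omega⟩)
  by_cases h24 : r < 32
  · have := hI_24
    rw [List.all_eq_true] at this
    exact this r (List.mem_range'_1.mpr ⟨by omega, by omega⟩)
  by_cases h32 : r < 40
  · have := hI_32
    rw [List.all_eq_true] at this
    exact this r (List.mem_range'_1.mpr ⟨by omega, by omega⟩)
  by_cases h40 : r < 48
  · have := hI_40
    rw [List.all_eq_true] at this
    exact this r (List.mem_range'_1.mpr ⟨by omega, by omega⟩)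
  omega

theorem hR : ∀ r < FTabF4.fd.n, chkRel FTabF4.fd gd 2 r = true := by
  intro r hr
  have hr' : r < 48 := hr
  by_cases h0 : r < 8
  · have := hR_0
    rw [List.all_eq_true] at this
    exact this r (List.mem_range'_1.mpr ⟨by omega, by omega⟩)
  by_cases h8 : r < 16
  · have := hR_8
    rw [List.all_eq_true] at this
    exact this r (List.mem_range'_1.mpr ⟨by omega, by omega⟩)
  by_cases h16 : r < 24
  · have := hR_16
    rw [List.all_eq_true] at this
    exact this r (List.mem_range'_1.mpr ⟨by omega, by omega⟩)
  by_cases h24 : r < 32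
  · have := hR_24
    rw [List.all_eq_true] at this
    exact this r (List.mem_range'_1.mpr ⟨by omega, by omega⟩)
  by_cases h32 : r < 40
  · have := hR_32
    rw [List.all_eq_true] at this
    exact this r (List.mem_range'_1.mpr ⟨by omega, by omega⟩)
  by_cases h40 : r < 48
  · have := hR_40
    rw [List.all_eq_true] at this
    exact this r (List.mem_range'_1.mpr ⟨by omega, by omega⟩)
  omega

end Cfsg.Agent.Lib.Helper19.GraphAutF4
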