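import Mathlib
import Cfsg.Agent.Lib.Helper19.GraphRel

set_option autoImplicit false
set_option linter.unusedSectionVars false

/-!
Faithfulness of the action on the stable coordinate subspace for a group of matrices all of whose
non-trivial normal subgroups contain the squares (for instance the symmetric group of degree 6).
-/

namespace Cfsg.Agent.Lib.Helper19.GraphFaith

open Matrix Cfsg.Agent.Lib.Helper19.BlockRel

variable {ι : Type*} [Fintype ι] [DecidableEq ι] {K : Type*} [Field K]
variable {c : ι → Bool}

theorem faith_of_sq (G : Subgroup (GL ι K)) (hInvG : ∀ g ∈ G, Inv c (g : Matrix ι ι K))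
    (hsq : ∀ N : Subgroup ↥G, N.Normal → N ≠ ⊥ → ∀ g : ↥G, g * g ∈ N)
    (hnt : ∃ g ∈ G, blk c ((g * g : GL ι K) : Matrix ι ι K) ≠ 1) :
    ∀ g ∈ G, blk c (g : Matrix ι ι K) = 1 → g = 1 := by
  classical
  let ρ : ↥G →* Matrix {i // c i = true} {i // c i = true} K :=
    { toFun := fun g => blk c ((g : GL ι K) : Matrix ι ι K)
      map_one' := blk_one
      map_mul' := fun g h => blk_mul (hInvG h h.2) }
  have hker : ρ.toHomUnits.ker = ⊥ := by
    by_contra h
    obtain ⟨g, hgG, ha⟩ := hnt
    have hmem := hsq ρ.toHomUnits.ker inferInstance h ⟨g, hgG⟩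
    rw [MonoidHom.mem_ker] at hmem
    have h2 := congrArg Units.val hmem
    rw [MonoidHom.coe_toHomUnits] at h2
    exact ha h2
  intro y hyG hb
  have hmem : (⟨y, hyG⟩ : ↥G) ∈ ρ.toHomUnits.ker := by
    rw [MonoidHom.mem_ker]
    apply Units.ext
    rw [MonoidHom.coe_toHomUnits]
    exact hb
  rw [hker, Subgroup.mem_bot] at hmem
  exact congrArg Subtype.val hmem

/-- in a group isomorphic to the symmetric group of degree 6 every non-trivial normal subgroup
contains the squares -/
theorem sq_mem_of_perm {G : Type*} [Group G] (e : G ≃* Equiv.Perm (Fin 6)) (N : Subgroup G)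
    (hN : N.Normal) (hne : N ≠ ⊥) (g : G) : g * g ∈ N := by
  haveI : (N.map e.toMonoidHom).Normal := Subgroup.Normal.map hN _ e.surjective
  have hnt : Nontrivial ↥(N.map e.toMonoidHom) := by
    rw [Subgroup.nontrivial_iff_ne_bot]
    intro h
    apply hne
    rw [Subgroup.map_eq_bot_iff_of_injective N e.injective] at h
    exact h
  have hle := Equiv.Perm.alternatingGroup_le_of_normal (α := Fin 6) (by simp) hnt
  have h2 : e (g * g) ∈ alternatingGroup (Fin 6) := by
    rw [map_mul, Equiv.Perm.mem_alternatingGroup, map_mul]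
    exact Int.units_mul_self _
  obtain ⟨y, hy, hye⟩ := hle h2
  have : y = g * g := e.injective hye
  rwa [this] at hy

end Cfsg.Agent.Lib.Helper19.GraphFaith
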