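import Cfsg.Agent.Lib.Helper19.GraphAutB2
import Cfsg.Agent.Lib.Helper19.GraphAutF4
import Cfsg.Agent.Lib.Helper19.GraphFaith
import Cfsg.Agent.Lib.Helper36.ChevUAll
import Cfsg.Agent.S1054
import Cfsg.Agent.S1056
import Cfsg.Agent.S1058

set_option autoImplicit false

/-!
The exceptional graph automorphisms of the Chevalley groups of types `B₂` and `F₄` over a perfect
field of characteristic 2.
-/

namespace Cfsg.Agent.Lib.Helper19.GraphAutBF

open Cfsg Cfsg.Lie Matrix Cfsg.Agent.Lib.Helper18.Fast Cfsg.Agent.Lib.Helper19.GraphAut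
  Cfsg.Agent.Lib.Helper18 Cfsg.Agent.Lib.Helper19.BlockRel Cfsg.Agent.Lib.Helper36.ChevGen

variable {K : Type*} [Field K] [CharP K 2]

theorem ent_f4 : ent FTabF4.fd 33 33 14 = [(33, 2, -1)] := by decide +kernel

theorem ent_b2 : ent FTabB2.fd 5 5 2 = [(5, 2, -1)] := by decide +kernel

theorem neg_one_ne_zero' : (-1 : K) ≠ 0 := by simp

/-- type `F₄` -/
theorem f4_aut (hperf : ∀ x : K, ∃ y : K, y ^ 2 = x) :
    ∃ α : ↥(chevF4.group K) ≃* ↥(chevF4.group K), ∀ (g : ↥(chevF4.group K)) (r : ℕ) (t : K),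
      r < chevF4.nroots → ((g : GL chevF4.Idx K) : Matrix chevF4.Idx chevF4.Idx K) = chevF4.x K r t →
      (((α g : ↥(chevF4.group K)) : GL chevF4.Idx K) : Matrix chevF4.Idx chevF4.Idx K) =
        chevF4.x K (GraphAutF4.gd.bar r) (t ^ GraphAutF4.gd.lam r) := by
  have : Fact (Nat.Prime 2) := ⟨Nat.prime_two⟩
  have hD : chevF4 ∈ [chevG2, chevB2, chevD4, chevF4, chevE6, chevE7, chevE8] := by simp
  have hinvx := (Cfsg.Agent.Lib.Helper36.ChevUAll.facts (F := K) chevF4 hD).inv
  have hA := GraphAutF4.agrees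
  have hInvG := chev_inv (G := GraphAutF4.gd) hA 2 hinvx GraphAutF4.hI
  have hsimple := (Cfsg.Agent.S1054.result (F := K) chevF4 (by simp)).1
  have hnt : ∃ g ∈ chevF4.group K, blk (cI GraphAutF4.gd chevF4)
      ((g : GL chevF4.Idx K) : Matrix chevF4.Idx chevF4.Idx K) ≠ 1 := by
    refine ⟨xU chevF4 hinvx 33 1, mem_group chevF4 _ 33 1 rfl, ?_⟩
    intro h
    have h1 := congrFun (congrFun h ⟨Sum.inr ⟨33, by decide⟩, rfl⟩) ⟨Sum.inr ⟨14, by decide⟩, rfl⟩
    rw [Matrix.one_apply_ne (by
      intro e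
      have := congrArg Subtype.val e
      simp at this)] at h1
    have h4 : chevF4.x K 33 1 (Sum.inr ⟨33, by decide⟩) (Sum.inr ⟨14, by decide⟩) = -1 := by
      rw [x_lt chevF4 33 (by decide),
        Cfsg.Agent.Lib.Helper18.XMat.xMat_apply_aux hA ⟨33, by decide⟩ (1 : K)
          (Sum.inr ⟨33, by decide⟩) (Sum.inr ⟨14, by decide⟩) 33 14 rfl rfl]
      have := ent_f4
      unfold ent at this
      rw [this]
      simp
    exact neg_one_ne_zero' (h4.symm.trans h1)
  have hfaith := Cfsg.Agent.Lib.Helper19.GraphRel.faith_of_simple (chevF4.group K) hInvG hsimple hnt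
  exact chev_exists_aut (G := GraphAutF4.gd) hA 2 hinvx GraphAutF4.hsw GraphAutF4.hbar
    GraphAutF4.hI GraphAutF4.hR hperf
    (fun r _ t => by rw [CharTwo.neg_eq, CharTwo.neg_eq]) hfaith

theorem sq_b2 : Vec.coeffL (Vec.xapp FTabB2.fd 0 false (Vec.xapp FTabB2.fd 5 false
    (Vec.xapp FTabB2.fd 0 false (Vec.xapp FTabB2.fd 5 false [(2, 1)])))) 1 = -7 := by
  decide +kernel

/-- type `B₂` -/
theorem b2_aut (hperf : ∀ x : K, ∃ y : K, y ^ 2 = x) :
    ∃ α : ↥(chevB2.group K) ≃* ↥(chevB2.group K), ∀ (g : ↥(chevB2.group K)) (r : ℕ) (t : K),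
      r < chevB2.nroots → ((g : GL chevB2.Idx K) : Matrix chevB2.Idx chevB2.Idx K) = chevB2.x K r t →
      (((α g : ↥(chevB2.group K)) : GL chevB2.Idx K) : Matrix chevB2.Idx chevB2.Idx K) =
        chevB2.x K (GraphAutB2.gd.bar r) (t ^ GraphAutB2.gd.lam r) := by
  classical
  have : Fact (Nat.Prime 2) := ⟨Nat.prime_two⟩
  have hD : chevB2 ∈ [chevG2, chevB2, chevD4, chevF4, chevE6, chevE7, chevE8] := by simp
  have hinvx := (Cfsg.Agent.Lib.Helper36.ChevUAll.facts (F := K) chevB2 hD).inv
  have hA := GraphAutB2.agrees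
  have hInvG := chev_inv (G := GraphAutB2.gd) hA 2 hinvx GraphAutB2.hI
  have hfaith : ∀ g ∈ chevB2.group K, blk (cI GraphAutB2.gd chevB2)
      ((g : GL chevB2.Idx K) : Matrix chevB2.Idx chevB2.Idx K) = 1 → g = 1 := by
    by_cases hK : ∃ a : K, a ≠ 0 ∧ a ≠ 1
    · have hsimple := (Cfsg.Agent.S1056.result (F := K) hK).1
      have hnt : ∃ g ∈ chevB2.group K, blk (cI GraphAutB2.gd chevB2)
          ((g : GL chevB2.Idx K) : Matrix chevB2.Idx chevB2.Idx K) ≠ 1 := by
        refine ⟨xU chevB2 hinvx 5 1, mem_group chevB2 _ 5 1 rfl, ?_⟩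
        intro h
        have h1 := congrFun (congrFun h ⟨Sum.inr ⟨5, by decide⟩, rfl⟩)
          ⟨Sum.inr ⟨2, by decide⟩, rfl⟩
        rw [Matrix.one_apply_ne (by
          intro e
          have := congrArg Subtype.val e
          simp at this)] at h1
        have h4 : chevB2.x K 5 1 (Sum.inr ⟨5, by decide⟩) (Sum.inr ⟨2, by decide⟩) = -1 := by
          rw [x_lt chevB2 5 (by decide),
            Cfsg.Agent.Lib.Helper18.XMat.xMat_apply_aux hA ⟨5, by decide⟩ (1 : K)
              (Sum.inr ⟨5, by decide⟩) (Sum.inr ⟨2, by decide⟩) 5 2 rfl rfl]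
          have := ent_b2
          unfold ent at this
          rw [this]
          simp
        exact neg_one_ne_zero' (h4.symm.trans h1)
      exact Cfsg.Agent.Lib.Helper19.GraphRel.faith_of_simple (chevB2.group K) hInvG hsimple hnt
    · -- the field with two elements
      have h01 : ∀ a : K, a = 0 ∨ a = 1 := by
        intro a
        by_contra h
        push_neg at h
        exact hK ⟨a, h.1, h.2⟩
      have hinj : Function.Injective (fun a : K => decide (a = 0)) := by
        intro a b hab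
        simp only [decide_eq_decide] at hab
        rcases h01 a with ha | ha <;> rcases h01 b with hb | hb
        · rw [ha, hb]
        · exact absurd (hab.mp ha) (by rw [hb]; exact one_ne_zero)
        · exact absurd (hab.mpr hb) (by rw [ha]; exact one_ne_zero)
        · rw [ha, hb]
      haveI : Finite K := Finite.of_injective _ hinj
      haveI : Fintype K := Fintype.ofFinite K
      have hcard : Fintype.card K = 2 := by
        apply le_antisymm
        · have := Fintype.card_le_of_injective _ hinj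
          simpa using this
        · exact Fintype.one_lt_card
      obtain ⟨e⟩ := Cfsg.Agent.S1058.result (F := K) hcard
      have hsq : ∀ N : Subgroup ↥(chevB2.group K), N.Normal → N ≠ ⊥ →
          ∀ g : ↥(chevB2.group K), g * g ∈ N :=
        fun N hN hne g => Cfsg.Agent.Lib.Helper19.GraphFaith.sq_mem_of_perm e N hN hne g
      have hnt : ∃ g ∈ chevB2.group K, blk (cI GraphAutB2.gd chevB2)
          ((g * g : GL chevB2.Idx K) : Matrix chevB2.Idx chevB2.Idx K) ≠ 1 := by
        refine ⟨xU chevB2 hinvx 0 1 * xU chevB2 hinvx 5 1,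
          (chevB2.group K).mul_mem (mem_group chevB2 _ 0 1 rfl) (mem_group chevB2 _ 5 1 rfl), ?_⟩
        intro h
        have h1 := congrFun (congrFun h ⟨Sum.inr ⟨1, by decide⟩, rfl⟩)
          ⟨Sum.inr ⟨2, by decide⟩, rfl⟩
        rw [Matrix.one_apply_ne (by
          intro e
          have := congrArg Subtype.val e
          simp at this)] at h1
        have hx : ∀ r : ℕ, chevB2.x K r 1 = chevB2.x K r (((Vec.sg false : ℤ) : K)) := by
          intro r
          simp [Vec.sg]
        have h4 : (chevB2.x K 0 1 * chevB2.x K 5 1 * (chevB2.x K 0 1 * chevB2.x K 5 1))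
            (Sum.inr ⟨1, by decide⟩) (Sum.inr ⟨2, by decide⟩) = ((-7 : ℤ) : K) := by
          have hv : (chevB2.x K 0 1 * chevB2.x K 5 1 * (chevB2.x K 0 1 * chevB2.x K 5 1)).mulVec
              (Vec.vecOf chevB2 K [(2, 1)]) = Vec.vecOf chevB2 K
                (Vec.xapp FTabB2.fd 0 false (Vec.xapp FTabB2.fd 5 false
                  (Vec.xapp FTabB2.fd 0 false (Vec.xapp FTabB2.fd 5 false [(2, 1)])))) := by
            rw [← Matrix.mulVec_mulVec, ← Matrix.mulVec_mulVec, ← Matrix.mulVec_mulVec,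
              hx 5, hx 0, Vec.x_mulVec_vecOf hA (by decide), Vec.x_mulVec_vecOf hA (by decide),
              Vec.x_mulVec_vecOf hA (by decide), Vec.x_mulVec_vecOf hA (by decide)]
          have h5 := congrFun hv (Sum.inr ⟨1, by decide⟩)
          rw [Vec.vecOf_single, show (2 : ℕ) = Cfsg.Agent.Lib.Helper18.XMat.enc chevB2
            (Sum.inr ⟨2, by decide⟩) from rfl, Vec.sgl_enc, Matrix.mulVec_single_one] at h5
          rw [← sq_b2]
          exact h5
        have h6 : ((-7 : ℤ) : K) = 1 := by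
          have h2 : (2 : K) = 0 := CharTwo.two_eq_zero
          push_cast
          linear_combination (-4 : K) * h2
        have h7 : (1 : K) = 0 := by
          rw [← h6, ← h4]
          exact h1
        exact one_ne_zero h7
      exact Cfsg.Agent.Lib.Helper19.GraphFaith.faith_of_sq (chevB2.group K) hInvG hsq hnt
  exact chev_exists_aut (G := GraphAutB2.gd) hA 2 hinvx GraphAutB2.hsw GraphAutB2.hbar
    GraphAutB2.hI GraphAutB2.hR hperf
    (fun r _ t => by rw [CharTwo.neg_eq, CharTwo.neg_eq]) hfaith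

end Cfsg.Agent.Lib.Helper19.GraphAutBF
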