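import Cfsg.Agent.Lib.Helper19.TwSig
import Cfsg.Agent.Lib.Helper19.GraphAutBF
import Cfsg.Agent.S1112
import Cfsg.Agent.S1023

set_option autoImplicit false
set_option linter.unusedSimpArgs false
set_option linter.unusedVariables false

/-!
The twisting endomorphism of the Chevalley group of type F4 over the field with `2^(2m+1)`
elements (the exceptional graph automorphism composed with the `2^m`-th power map of the field),
and the fact that it fixes the elements of the twisted group.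
-/

namespace Cfsg.Agent.Lib.Helper19.TwSigF4

open Cfsg Cfsg.Lie Cfsg.Agent.Lib.Helper18 Cfsg.Agent.Lib.Helper18.BNPairC
  Cfsg.Agent.Lib.Helper18.Sub
  Cfsg.Agent.Lib.Helper36 Cfsg.Agent.Lib.Helper36.ChevEngine Cfsg.Agent.Lib.Helper36.ChevSound
  Cfsg.Agent.Lib.Helper19.TwCore Cfsg.Agent.Lib.Helper19.TwEngine Cfsg.Agent.Lib.Helper19.TwGlue
  Cfsg.Agent.Lib.Helper19.TwPerf Cfsg.Agent.Lib.Helper19.TwAb Cfsg.Agent.Lib.Helper19.TwSig

variable {K : Type*} [Field K]

def qtu2 : Param := [⟨1, 1, 2, 0⟩]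
def qtuv : Param := [⟨1, 1, 1, 0⟩, ⟨1, 0, 0, 1⟩]

theorem eq_tu2 (t u v : K) : evalParam t u v qtu2 = t * u ^ 2 := by
  simp only [qtu2, evalParam, monoEval]
  push_cast
  ring

theorem eq_tuv (t u v : K) : evalParam t u v qtuv = t * u + v := by
  simp only [qtuv, evalParam, monoEval]
  push_cast
  ring

def sLP : SWord := [(25, pt 1), (27, pu 1), (30, qtu2), (28, pv 1)]
def sRP : SWord := [(27, pu 1), (25, pt 1), (28, qtuv)]
set_option maxRecDepth 100000 in
theorem chkP : checkRelP 2 ChevTabF4.tab chevF4.rank chevF4.nroots sLP sRP = true := by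
  decide +kernel

/-- `x_b(t) x_a(T) x_{2a+b}(t T²) x_{a+b}(u) = x_a(T) x_b(t) x_{a+b}(t T + u)` -/
theorem relP (hp : ((2 : ℕ) : K) = 0) (t T u : K) :
    chevF4.wordMat K [(25, t), (27, T), (30, t * T ^ 2), (28, u)] =
      chevF4.wordMat K [(27, T), (25, t), (28, t * T + u)] := by
  have h := checkRelP_sound (F := K) 2 hp chevF4 ChevTabF4.tab ChevTabF4.tok sLP sRP chkP t T u
  simp only [sLP, sRP, evalWord_cons, evalWord_nil, evalParam_pt, evalParam_pu, evalParam_pv,
    eq_tu2, eq_tuv, Int.cast_one, one_mul] at h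
  exact h

def sLN : SWord := [(22, pt 1), (20, pu 1), (17, qtu2), (19, pv 1)]
def sRN : SWord := [(20, pu 1), (22, pt 1), (19, qtuv)]
set_option maxRecDepth 100000 in
theorem chkN : checkRelP 2 ChevTabF4.tab chevF4.rank chevF4.nroots sLN sRN = true := by
  decide +kernel

/-- the same relation for the negative roots -/
theorem relN (hp : ((2 : ℕ) : K) = 0) (t T u : K) :
    chevF4.wordMat K [(22, t), (20, T), (17, t * T ^ 2), (19, u)] =
      chevF4.wordMat K [(20, T), (22, t), (19, t * T + u)] := by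
  have h := checkRelP_sound (F := K) 2 hp chevF4 ChevTabF4.tab ChevTabF4.tok sLN sRN chkN t T u
  simp only [sLN, sRN, evalWord_cons, evalWord_nil, evalParam_pt, evalParam_pu, evalParam_pv,
    eq_tu2, eq_tuv, Int.cast_one, one_mul] at h
  exact h

/-- the data of the graph automorphism: compatibility with negation -/
theorem hbar : ∀ r < chevF4.nroots, GraphAutF4.gd.bar r < chevF4.nroots ∧
    GraphAutF4.gd.bar (chevF4.neg r) = chevF4.neg (GraphAutF4.gd.bar r) ∧
    GraphAutF4.gd.lam (chevF4.neg r) = GraphAutF4.gd.lam r := by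
  decide +kernel

/-- the data of the graph automorphism on the fundamental roots -/
theorem hls : ∀ i < 4, GraphAutF4.gd.bar (chevF4.simple i) =
    chevF4.simple ([3, 2, 1, 0].getD i 0) := by
  decide +kernel

/-- a step used twice: moving a central factor to the right -/
theorem quad_fin {M : Type*} [Monoid M] (a b c w d cW f : M) (hc : c * w = cW)
    (hcd : w * d = d * w) (key : a * (b * (c * d)) = b * (a * f)) :
    a * (b * (cW * d)) = b * (a * (f * w)) := by
  rw [← hc, mul_assoc c w d, hcd, ← mul_assoc c d w, ← mul_assoc b (c * d) w,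
    ← mul_assoc a (b * (c * d)) w, key]
  simp only [mul_assoc]

section finite

variable [Fintype K] {m : ℕ}

/-- the twisted group consists of fixed elements -/
theorem f4_fix (hK : Fintype.card K = 2 ^ (2 * m + 1)) {φ : K →+* K}
    (hφ : ∀ x : K, φ x = x ^ 2 ^ m) {σ : ↥(chevF4.group K) →* ↥(chevF4.group K)}
    (hσ : IsSig chevF4 GraphAutF4.gd.bar GraphAutF4.gd.lam φ σ) :
    twistedF4 K (2 ^ m) ≤ fixG σ := by
  have hF := CAll.cfF4.af
  have hadd : ∀ r < chevF4.nroots, ∀ t u : K,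
      chevF4.x K r t * chevF4.x K r u = chevF4.x K r (t + u) :=
    fun r hr t u => Cfsg.Agent.S1023.result chevF4 (by simp) r hr t u
  have h2 : ((2 : ℕ) : K) = 0 := natCast_eq_zero_of_card Nat.prime_two hK
  obtain ⟨e, he⟩ : ∃ e : ℕ, e = 2 ^ m := ⟨_, rfl⟩
  rw [← he] at hφ ⊢
  have he0 : e ≠ 0 := by
    rw [he]
    positivity
  have hcard : Fintype.card K = 2 * e * e := by
    rw [hK, he]
    ring
  have hfrob2 : ∀ x y : K, (x + y) ^ 2 = x ^ 2 + y ^ 2 :=
    frob_add (n := 2 * m + 1) (by omega) hK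
  have hfrob : ∀ x y : K, (x + y) ^ e = x ^ e + y ^ e := by
    rw [he]
    exact frob_pow_add hfrob2 m
  have hsq : ∀ x : K, ((x ^ e) ^ e) ^ 2 = x := by
    intro x
    rw [← pow_mul, ← pow_mul]
    have e1 : e * (e * 2) = Fintype.card K := by
      rw [hcard]
      ring
    rw [e1]
    exact FiniteField.pow_card x
  have hA : ∀ t : K, φ (t ^ e) ^ 2 = t := by
    intro t
    rw [hφ]
    exact hsq t
  have hB : ∀ t : K, φ t ^ 1 = t ^ e := by
    intro t
    rw [hφ, pow_one]
  have hC : ∀ t u : K, φ (t ^ (e + 1) + u) ^ 2 = t * (t ^ e) ^ 2 + u ^ (2 * e) := by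
    intro t u
    rw [hφ, hfrob, hfrob2]
    congr 1
    · calc ((t ^ (e + 1)) ^ e) ^ 2 = ((t ^ e) ^ e) ^ 2 * (t ^ e) ^ 2 := by ring
        _ = t * (t ^ e) ^ 2 := by rw [hsq]
    · ring
  have hD : ∀ u : K, φ (u ^ (2 * e)) ^ 1 = u := by
    intro u
    rw [hφ, pow_one]
    calc (u ^ (2 * e)) ^ e = ((u ^ e) ^ e) ^ 2 := by ring
      _ = u := hsq u
  have hr28 : (28 : ℕ) < chevF4.nroots := by decide
  have hr30 : (30 : ℕ) < chevF4.nroots := by decide
  have hr19 : (19 : ℕ) < chevF4.nroots := by decide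
  have hr17 : (17 : ℕ) < chevF4.nroots := by decide
  show chevF4.genSubgroup K (f4Words K e) ≤ fixG σ
  apply gen_le_fixG hF hσ
  intro wd hwd
  rcases hwd with ⟨t, rfl | rfl⟩ | ⟨t, u, rfl | rfl⟩
  · refine ⟨?_, ?_⟩
    · intro p hp
      simp only [f4PairWord, f4p1, f4p4, List.mem_cons, List.not_mem_nil, or_false] at hp
      rcases hp with rfl | rfl <;> (dsimp only; decide)
    · have e1 : sigW GraphAutF4.gd.bar GraphAutF4.gd.lam φ (f4PairWord e f4p1 f4p4 t) =
          [(24, φ (t ^ e) ^ 2), (33, φ t ^ 1)] := rfl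
      rw [e1, hA, hB]
      simp only [f4PairWord, f4p1, f4p4, Cfsg.Agent.Lib.Helper18.Sub.wordMat_cons,
        Cfsg.Agent.Lib.Helper18.Sub.wordMat_nil, mul_one]
      exact Cfsg.Agent.S1112.c24_33 h2 t (t ^ e)
  · refine ⟨?_, ?_⟩
    · intro p hp
      simp only [f4PairWord, f4m1, f4m4, List.mem_cons, List.not_mem_nil, or_false] at hp
      rcases hp with rfl | rfl <;> (dsimp only; decide)
    · have e1 : sigW GraphAutF4.gd.bar GraphAutF4.gd.lam φ (f4PairWord e f4m1 f4m4 t) =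
          [(23, φ (t ^ e) ^ 2), (14, φ t ^ 1)] := rfl
      rw [e1, hA, hB]
      simp only [f4PairWord, f4m1, f4m4, Cfsg.Agent.Lib.Helper18.Sub.wordMat_cons,
        Cfsg.Agent.Lib.Helper18.Sub.wordMat_nil, mul_one]
      exact Cfsg.Agent.S1112.c23_14 h2 t (t ^ e)
  · refine ⟨?_, ?_⟩
    · intro p hp
      simp only [b2ClassWord, f4a, f4b, f4ab, f4aab, List.mem_cons, List.not_mem_nil,
        or_false] at hp
      rcases hp with rfl | rfl | rfl | rfl <;> (dsimp only; decide)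
    · have e1 : sigW GraphAutF4.gd.bar GraphAutF4.gd.lam φ (b2ClassWord e f4a f4b f4ab f4aab t u) =
          [(25, φ (t ^ e) ^ 2), (27, φ t ^ 1), (30, φ (t ^ (e + 1) + u) ^ 2),
            (28, φ (u ^ (2 * e)) ^ 1)] := rfl
      rw [e1, hA, hB, hC, hD]
      have key := relP h2 t (t ^ e) u
      have e2 : t ^ (e + 1) = t * t ^ e := by ring
      simp only [b2ClassWord, f4a, f4b, f4ab, f4aab, Cfsg.Agent.Lib.Helper18.Sub.wordMat_cons,
        Cfsg.Agent.Lib.Helper18.Sub.wordMat_nil, mul_one, e2]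
        at key ⊢
      exact quad_fin (chevF4.x K 25 t) (chevF4.x K 27 (t ^ e)) (chevF4.x K 30 (t * (t ^ e) ^ 2))
        (chevF4.x K 30 (u ^ (2 * e))) (chevF4.x K 28 u)
        (chevF4.x K 30 (t * (t ^ e) ^ 2 + u ^ (2 * e))) (chevF4.x K 28 (t * t ^ e + u))
        (hadd 30 hr30 _ _) (Cfsg.Agent.S1112.c30_28 h2 _ _) key
  · refine ⟨?_, ?_⟩
    · intro p hp
      simp only [b2ClassWord, f4ma, f4mb, f4mab, f4maab, List.mem_cons, List.not_mem_nil,
        or_false] at hp
      rcases hp with rfl | rfl | rfl | rfl <;> (dsimp only; decide)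
    · have e1 : sigW GraphAutF4.gd.bar GraphAutF4.gd.lam φ
          (b2ClassWord e f4ma f4mb f4mab f4maab t u) =
          [(22, φ (t ^ e) ^ 2), (20, φ t ^ 1), (17, φ (t ^ (e + 1) + u) ^ 2),
            (19, φ (u ^ (2 * e)) ^ 1)] := rfl
      rw [e1, hA, hB, hC, hD]
      have key := relN h2 t (t ^ e) u
      have e2 : t ^ (e + 1) = t * t ^ e := by ring
      simp only [b2ClassWord, f4ma, f4mb, f4mab, f4maab, Cfsg.Agent.Lib.Helper18.Sub.wordMat_cons,
        Cfsg.Agent.Lib.Helper18.Sub.wordMat_nil, mul_one, e2]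
        at key ⊢
      exact quad_fin (chevF4.x K 22 t) (chevF4.x K 20 (t ^ e)) (chevF4.x K 17 (t * (t ^ e) ^ 2))
        (chevF4.x K 17 (u ^ (2 * e))) (chevF4.x K 19 u)
        (chevF4.x K 17 (t * (t ^ e) ^ 2 + u ^ (2 * e))) (chevF4.x K 19 (t * t ^ e + u))
        (hadd 17 hr17 _ _) (Cfsg.Agent.S1112.c17_19 h2 _ _) key

/-- the twisting endomorphism -/
theorem exists_sig (hK : Fintype.card K = 2 ^ (2 * m + 1)) :
    ∃ (φ : K →+* K) (σ : ↥(chevF4.group K) →* ↥(chevF4.group K)),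
      (∀ x : K, φ x = x ^ 2 ^ m) ∧ IsSig chevF4 GraphAutF4.gd.bar GraphAutF4.gd.lam φ σ := by
  have h2 : ((2 : ℕ) : K) = 0 := natCast_eq_zero_of_card Nat.prime_two hK
  haveI : CharP K 2 := by
    have h1 : ringChar K ∣ 2 := ringChar.dvd h2
    have h3 : ringChar K ≠ 1 := CharP.ringChar_ne_one
    have h4 : ringChar K = 2 := by
      rcases (Nat.dvd_prime Nat.prime_two).mp h1 with h | h
      · exact absurd h h3
      · exact h
    exact ringChar.of_eq h4
  have he0 : (2 ^ m : ℕ) ≠ 0 := by positivity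
  have hcard : Fintype.card K = 2 * 2 ^ m * 2 ^ m := by
    rw [hK]
    ring
  have hfrob2 : ∀ x y : K, (x + y) ^ 2 = x ^ 2 + y ^ 2 :=
    frob_add (n := 2 * m + 1) (by omega) hK
  have hfrob : ∀ x y : K, (x + y) ^ 2 ^ m = x ^ 2 ^ m + y ^ 2 ^ m := frob_pow_add hfrob2 m
  have hsq : ∀ x : K, ((x ^ 2 ^ m) ^ 2 ^ m) ^ 2 = x := by
    intro x
    rw [← pow_mul, ← pow_mul]
    have e1 : 2 ^ m * (2 ^ m * 2) = Fintype.card K := by
      rw [hcard]
      ring
    rw [e1]
    exact FiniteField.pow_card x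
  obtain ⟨α, hα⟩ := Cfsg.Agent.Lib.Helper19.GraphAutBF.f4_aut (K := K) (fun x => ⟨_, hsq x⟩)
  let φ : K →+* K :=
    { toFun := fun x => x ^ 2 ^ m
      map_one' := one_pow _
      map_mul' := fun x y => mul_pow x y _
      map_zero' := zero_pow he0
      map_add' := hfrob }
  exact ⟨φ, α.toMonoidHom.comp (fieldHom chevF4 φ), fun x => rfl, isSig_comp φ α hα⟩

end finite

end Cfsg.Agent.Lib.Helper19.TwSigF4
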