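import Mathlib
import Cfsg.Agent.Lib.Helper19.TwRel
import Cfsg.Agent.Lib.Helper19.TwSigF4
import Cfsg.Agent.Lib.Helper18.Tw4
import Cfsg.Agent.Lib.Helper18.ChainAll
import Cfsg.Agent.Lib.Helper18.UAll
import Cfsg.Agent.S1113
import Cfsg.Agent.S1112
import Cfsg.Agent.S1024

set_option autoImplicit false
set_option linter.unusedSimpArgs false
set_option linter.unusedSectionVars false
set_option linter.unusedVariables false

/-!
The twisted group of type F4 in characteristic 2: the fixed points of the twisting endomorphism on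
the normal forms along the two blocks `[0, 3]` (type `A₁ × A₁`) and `[1, 2, 1, 2]` (type `B₂`),
and along words made of these blocks.
-/

namespace Cfsg.Agent.Lib.Helper19.TwF4U

open Cfsg Cfsg.Lie Cfsg.Agent.Lib.Helper18 Cfsg.Agent.Lib.Helper18.BNPairC
  Cfsg.Agent.Lib.Helper18.Sub Cfsg.Agent.Lib.Helper18.WGroup Cfsg.Agent.Lib.Helper18.Long
  Cfsg.Agent.Lib.Helper18.Cells Cfsg.Agent.Lib.Helper18.Cells2 Cfsg.Agent.Lib.Helper18.Tw1
  Cfsg.Agent.Lib.Helper18.Tw2 Cfsg.Agent.Lib.Helper18.Tw3 Cfsg.Agent.Lib.Helper18.RootSys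
  Cfsg.Agent.Lib.Helper18.UOrd
  Cfsg.Agent.Lib.Helper36 Cfsg.Agent.Lib.Helper36.ChevEngine Cfsg.Agent.Lib.Helper36.ChevSound
  Cfsg.Agent.Lib.Helper19.TwCore Cfsg.Agent.Lib.Helper19.TwEngine Cfsg.Agent.Lib.Helper19.TwGlue
  Cfsg.Agent.Lib.Helper19.TwPerf Cfsg.Agent.Lib.Helper19.TwAb Cfsg.Agent.Lib.Helper19.TwSig
  Cfsg.Agent.Lib.Helper19.TwRel

variable {K : Type*} [Field K]

/-! ### Word identities in characteristic 2 -/

def q_u_tv : Param := [⟨1, 0, 1, 0⟩, ⟨1, 1, 0, 1⟩]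
def q_tv2 : Param := [⟨1, 1, 0, 2⟩]

theorem eq_u_tv (t u v : K) : evalParam t u v q_u_tv = u + t * v := by
  simp only [q_u_tv, evalParam, monoEval]
  push_cast
  ring

theorem eq_tv2 (t u v : K) : evalParam t u v q_tv2 = t * v ^ 2 := by
  simp only [q_tv2, evalParam, monoEval]
  push_cast
  ring

def sL4a : SWord := [(25, pt 1), (28, pu 1), (27, pv 1)]
def sR4a : SWord := [(27, pv 1), (25, pt 1), (28, q_u_tv), (30, q_tv2)]
set_option maxRecDepth 100000 in
theorem chk4a : checkRelP 2 ChevTabF4.tab chevF4.rank chevF4.nroots sL4a sR4a = true := by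
  decide +kernel

/-- `x_b(t) x_{a+b}(u) x_a(v) = x_a(v) x_b(t) x_{a+b}(u + t v) x_{2a+b}(t v²)` -/
theorem rel4a (hp : ((2 : ℕ) : K) = 0) (t u v : K) :
    chevF4.x K 25 t * (chevF4.x K 28 u * chevF4.x K 27 v) =
      chevF4.x K 27 v * (chevF4.x K 25 t * (chevF4.x K 28 (u + t * v) *
        chevF4.x K 30 (t * v ^ 2))) := by
  have h := checkRelP_sound (F := K) 2 hp chevF4 ChevTabF4.tab ChevTabF4.tok sL4a sR4a chk4a t u v
  simp only [sL4a, sR4a, evalWord_cons, evalWord_nil, evalParam_pt, evalParam_pu, evalParam_pv,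
    eq_u_tv, eq_tv2, Int.cast_one, one_mul, Cfsg.Agent.Lib.Helper18.Sub.wordMat_cons,
    Cfsg.Agent.Lib.Helper18.Sub.wordMat_nil, mul_one] at h
  exact h

def sL4b : SWord := [(25, pt 1), (28, pu 1), (30, pv 1)]
def sR4b : SWord := [(30, pv 1), (28, pu 1), (25, pt 1)]
set_option maxRecDepth 100000 in
theorem chk4b : checkRelP 2 ChevTabF4.tab chevF4.rank chevF4.nroots sL4b sR4b = true := by
  decide +kernel

/-- `x_b(t) x_{a+b}(u) x_{2a+b}(v) = x_{2a+b}(v) x_{a+b}(u) x_b(t)` -/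
theorem rel4b (hp : ((2 : ℕ) : K) = 0) (t u v : K) :
    chevF4.x K 25 t * (chevF4.x K 28 u * chevF4.x K 30 v) =
      chevF4.x K 30 v * (chevF4.x K 28 u * chevF4.x K 25 t) := by
  have h := checkRelP_sound (F := K) 2 hp chevF4 ChevTabF4.tab ChevTabF4.tok sL4b sR4b chk4b t u v
  simp only [sL4b, sR4b, evalWord_cons, evalWord_nil, evalParam_pt, evalParam_pu, evalParam_pv,
    Int.cast_one, one_mul, Cfsg.Agent.Lib.Helper18.Sub.wordMat_cons,
    Cfsg.Agent.Lib.Helper18.Sub.wordMat_nil, mul_one] at h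
  exact h

def sLc30_27 : SWord := [(30, pt 1), (27, pu 1)]
def sRc30_27 : SWord := [(27, pu 1), (30, pt 1)]
set_option maxRecDepth 100000 in
theorem chkc30_27 : checkRelP 2 ChevTabF4.tab chevF4.rank chevF4.nroots sLc30_27 sRc30_27 = true := by
  decide +kernel

theorem c30_27 (hp : ((2 : ℕ) : K) = 0) (a b : K) :
    chevF4.x K 30 a * chevF4.x K 27 b = chevF4.x K 27 b * chevF4.x K 30 a := by
  have h := checkRelP_sound (F := K) 2 hp chevF4 ChevTabF4.tab ChevTabF4.tok sLc30_27 sRc30_27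
    chkc30_27 a b 0
  simp only [sLc30_27, sRc30_27, evalWord_cons, evalWord_nil, evalParam_pt, evalParam_pu,
    Int.cast_one, one_mul, Cfsg.Agent.Lib.Helper18.Sub.wordMat_cons,
    Cfsg.Agent.Lib.Helper18.Sub.wordMat_nil, mul_one] at h
  exact h

/-! ### Identities in the group -/

theorem hF4 : AllRoots.AFacts FTabF4.fd chevF4 := CAll.cfF4.af

theorem hadd4 : ∀ r < chevF4.nroots, ∀ t u : K,
    chevF4.x K r t * chevF4.x K r u = chevF4.x K r (t + u) :=
  fun r hr t u => Cfsg.Agent.S1023.result chevF4 (by simp) r hr t u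

theorem hinj4 : ∀ r < chevF4.nroots, ∀ t : K, chevF4.x K r t = 1 → t = 0 :=
  fun r hr t h => (Cfsg.Agent.S1024.result (F := K) chevF4 (by simp) r hr t).mp h

theorem s0 : FTabF4.fd.simple 0 = 33 := by decide
theorem s1 : FTabF4.fd.simple 1 = 27 := by decide
theorem s2 : FTabF4.fd.simple 2 = 25 := by decide
theorem s3 : FTabF4.fd.simple 3 = 24 := by decide

theorem neg_eq (h2 : (2 : K) = 0) (x : K) : -x = x := by
  linear_combination (-x) * h2

/-- moving `n_i` across a root element, in characteristic 2 -/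
theorem nx (h2 : (2 : K) = 0) {i s s' : ℕ} (hi : i < FTabF4.fd.rank) (hs : s < FTabF4.fd.n)
    (hW : WTabF4.X.W i s = s') (t : K) (Y : GL chevF4.Idx K) :
    ng hF4 K i * (xg hF4 K s t * Y) = xg hF4 K s' t * (ng hF4 K i * Y) := by
  have h := ng_conj (F := K) hF4 CAll.cfF4.wf hi hs t
  have hE : ((WTabF4.X.E i s : ℤ) : K) * t = t := by
    rcases CAll.cfF4.wf.sgn i hi s hs with e | e
    · rw [e]
      simp
    · rw [e]
      simp [neg_eq h2]
  rw [hE, hW] at h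
  rw [← h]
  group

theorem nx' (h2 : (2 : K) = 0) {i s s' : ℕ} (hi : i < FTabF4.fd.rank) (hs : s < FTabF4.fd.n)
    (hW : WTabF4.X.W i s = s') (t : K) :
    ng hF4 K i * xg hF4 K s t = xg hF4 K s' t * ng hF4 K i := by
  have h := nx h2 hi hs hW t 1
  rwa [mul_one, mul_one] at h

theorem W1_25 : WTabF4.X.W 1 25 = 30 := by decide
theorem W1_28 : WTabF4.X.W 1 28 = 28 := by decide
theorem W1_30 : WTabF4.X.W 1 30 = 25 := by decide
theorem W2_27 : WTabF4.X.W 2 27 = 28 := by decide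
theorem W2_28 : WTabF4.X.W 2 28 = 27 := by decide
theorem W2_30 : WTabF4.X.W 2 30 = 30 := by decide
theorem W0_24 : WTabF4.X.W 0 24 = 24 := by decide

theorem xg_add {r : ℕ} (hr : r < chevF4.nroots) (t u : K) :
    xg hF4 K r t * xg hF4 K r u = xg hF4 K r (t + u) := by
  apply Units.ext
  rw [Units.val_mul, coe_xg hF4 hr, coe_xg hF4 hr, coe_xg hF4 hr]
  exact hadd4 r hr t u

/-- the normal form along `[1, 2, 1, 2]` as an element of `U` times `n` -/
theorem nfB (h2 : (2 : K) = 0) (t1 t2 t3 t4 : K) :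
    zw hF4 K [1, 2, 1, 2] [t1, t2, t3, t4] =
      xg hF4 K 27 t1 * (xg hF4 K 30 t2 * (xg hF4 K 28 t3 * (xg hF4 K 25 t4 *
        (ng hF4 K 1 * (ng hF4 K 2 * (ng hF4 K 1 * ng hF4 K 2)))))) := by
  simp only [zw_cons, zw_nil, s1, s2, mul_one, mul_assoc,
    nx h2 (by decide) (by decide) W1_25, nx h2 (by decide) (by decide) W1_28,
    nx h2 (by decide) (by decide) W1_30, nx h2 (by decide) (by decide) W2_27,
    nx h2 (by decide) (by decide) W2_28, nx h2 (by decide) (by decide) W2_30]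

/-- the normal form along `[2, 1, 2, 1]` as an element of `U` times `n` -/
theorem nfB' (h2 : (2 : K) = 0) (u1 u2 u3 u4 : K) :
    zw hF4 K [2, 1, 2, 1] [u1, u2, u3, u4] =
      xg hF4 K 25 u1 * (xg hF4 K 28 u2 * (xg hF4 K 30 u3 * (xg hF4 K 27 u4 *
        (ng hF4 K 2 * (ng hF4 K 1 * (ng hF4 K 2 * ng hF4 K 1)))))) := by
  simp only [zw_cons, zw_nil, s1, s2, mul_one, mul_assoc,
    nx h2 (by decide) (by decide) W1_25, nx h2 (by decide) (by decide) W1_28,
    nx h2 (by decide) (by decide) W1_30, nx h2 (by decide) (by decide) W2_27,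
    nx h2 (by decide) (by decide) W2_28, nx h2 (by decide) (by decide) W2_30]

theorem g4b (h2 : (2 : K) = 0) (x y z : K) :
    xg hF4 K 25 x * (xg hF4 K 28 y * xg hF4 K 30 z) =
      xg hF4 K 30 z * (xg hF4 K 28 y * xg hF4 K 25 x) := by
  have hp : ((2 : ℕ) : K) = 0 := by exact_mod_cast h2
  apply Units.ext
  simp only [Units.val_mul, coe_xg hF4 (by decide : (25 : ℕ) < chevF4.nroots),
    coe_xg hF4 (by decide : (28 : ℕ) < chevF4.nroots),
    coe_xg hF4 (by decide : (30 : ℕ) < chevF4.nroots)]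
  exact rel4b hp x y z

/-- reordering of a product of root elements of the class of type `B₂` -/
theorem reorder (h2 : (2 : K) = 0) (a b c d : K) (Y : GL chevF4.Idx K) :
    xg hF4 K 25 a * (xg hF4 K 28 b * (xg hF4 K 30 c * (xg hF4 K 27 d * Y))) =
      xg hF4 K 27 d * (xg hF4 K 30 (c + a * d ^ 2) * (xg hF4 K 28 (b + a * d) *
        (xg hF4 K 25 a * Y))) := by
  have hp : ((2 : ℕ) : K) = 0 := by exact_mod_cast h2
  have h25 : (25 : ℕ) < chevF4.nroots := by decide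
  have h27 : (27 : ℕ) < chevF4.nroots := by decide
  have h28 : (28 : ℕ) < chevF4.nroots := by decide
  have h30 : (30 : ℕ) < chevF4.nroots := by decide
  have e1 : xg hF4 K 30 c * xg hF4 K 27 d = xg hF4 K 27 d * xg hF4 K 30 c := by
    apply Units.ext
    simp only [Units.val_mul, coe_xg hF4 h27, coe_xg hF4 h30]
    exact c30_27 hp c d
  have e2 : xg hF4 K 25 a * (xg hF4 K 28 b * xg hF4 K 27 d) =
      xg hF4 K 27 d * (xg hF4 K 25 a * (xg hF4 K 28 (b + a * d) * xg hF4 K 30 (a * d ^ 2))) := by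
    apply Units.ext
    simp only [Units.val_mul, coe_xg hF4 h25, coe_xg hF4 h27, coe_xg hF4 h28, coe_xg hF4 h30]
    exact rel4a hp a b d
  have e3 := g4b h2
  calc xg hF4 K 25 a * (xg hF4 K 28 b * (xg hF4 K 30 c * (xg hF4 K 27 d * Y)))
      = xg hF4 K 25 a * (xg hF4 K 28 b * (xg hF4 K 30 c * xg hF4 K 27 d)) * Y := by
        simp only [mul_assoc]
    _ = xg hF4 K 25 a * (xg hF4 K 28 b * xg hF4 K 27 d) * xg hF4 K 30 c * Y := by
        rw [e1]
        simp only [mul_assoc]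
    _ = xg hF4 K 27 d * (xg hF4 K 25 a * (xg hF4 K 28 (b + a * d) *
          (xg hF4 K 30 (a * d ^ 2) * xg hF4 K 30 c))) * Y := by
        rw [e2]
        simp only [mul_assoc]
    _ = xg hF4 K 27 d * (xg hF4 K 25 a * (xg hF4 K 28 (b + a * d) *
          xg hF4 K 30 (c + a * d ^ 2))) * Y := by
        rw [xg_add h30, add_comm (a * d ^ 2) c]
    _ = xg hF4 K 27 d * (xg hF4 K 30 (c + a * d ^ 2) * (xg hF4 K 28 (b + a * d) *
          (xg hF4 K 25 a * Y))) := by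
        rw [e3]
        simp only [mul_assoc]

/-! ### The twisting endomorphism on the two blocks -/

theorem len2 {α : Type*} {l : List α} (h : l.length = 2) : ∃ a b, l = [a, b] :=
  List.length_eq_two.mp h

theorem len4 {α : Type*} {l : List α} (h : l.length = 4) : ∃ a b c d, l = [a, b, c, d] := by
  rcases l with _ | ⟨a, _ | ⟨b, _ | ⟨c, _ | ⟨d, _ | ⟨e, l⟩⟩⟩⟩⟩
  · simp at h
  · simp at h
  · simp at h
  · simp at h
  · exact ⟨a, b, c, d, rfl⟩
  · simp at h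

theorem hneg4 (h2 : (2 : K) = 0) : ∀ r < chevF4.nroots, ∀ t : K,
    (-t) ^ GraphAutF4.gd.lam r = -(t ^ GraphAutF4.gd.lam r) := by
  intro r _ t
  rw [neg_eq h2, neg_eq h2]

theorem hposC : ∀ r < 48, posC FTabF4.fd r = true → posC FTabF4.fd (GraphAutF4.gd.bar r) = true := by
  decide +kernel

theorem hpos4 : ∀ r < FTabF4.fd.n, PosA FTabF4.fd r → PosA FTabF4.fd (GraphAutF4.gd.bar r) := by
  intro r hr hp
  exact (posC_iff _).mp (hposC r hr ((posC_iff _).mpr hp))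

theorem b33 : GraphAutF4.gd.bar 33 = 24 := by decide
theorem b24 : GraphAutF4.gd.bar 24 = 33 := by decide
theorem b27 : GraphAutF4.gd.bar 27 = 25 := by decide
theorem b25 : GraphAutF4.gd.bar 25 = 27 := by decide
theorem l33 : GraphAutF4.gd.lam 33 = 2 := by decide
theorem l24 : GraphAutF4.gd.lam 24 = 1 := by decide
theorem l27 : GraphAutF4.gd.lam 27 = 2 := by decide
theorem l25 : GraphAutF4.gd.lam 25 = 1 := by decide

theorem blkA : BlkOK FTabF4.fd WTabF4.X [3, 2, 1, 0] [0, 3] :=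
  Tw4.blkOK_of_blkB (by decide +kernel)

theorem redA : RedT FTabF4.fd WTabF4.X [0, 3] := Tw4.redT_of_redB (by decide +kernel)
theorem redB4 : RedT FTabF4.fd WTabF4.X [1, 2, 1, 2] := Tw4.redT_of_redB (by decide +kernel)

theorem nwA : nw hF4 K (plain [0, 3]) = ng hF4 K 0 * ng hF4 K 3 := by
  rw [nw_plain_cons, nw_plain_cons]
  have : nw hF4 K (plain []) = 1 := rfl
  rw [this, mul_one]

theorem nwB : nw hF4 K (plain [1, 2, 1, 2]) =
    ng hF4 K 1 * (ng hF4 K 2 * (ng hF4 K 1 * ng hF4 K 2)) := by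
  rw [nw_plain_cons, nw_plain_cons, nw_plain_cons, nw_plain_cons]
  have : nw hF4 K (plain []) = 1 := rfl
  rw [this, mul_one]

theorem zw_inj4 {wd : List ℕ} (hred : RedT FTabF4.fd WTabF4.X wd) {ts ts' : List K}
    (h : ts.length = wd.length) (h' : ts'.length = wd.length)
    (e : zw hF4 K wd ts = zw hF4 K wd ts') : ts = ts' := by
  have h1 : (1 : GL chevF4.Idx K) ∈ cell CAll.cfF4 K [] := by
    rw [cell_nil]
    exact Subgroup.one_mem _
  exact (zw_inj CAll.cfF4 hadd4 hinj4 wd [] (by rw [List.append_nil]; exact hred) h h' h1 h1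
    (by rw [mul_one, mul_one]; exact e)).1

section sigma

variable {φ : K →+* K} {σ : ↥(chevF4.group K) →* ↥(chevF4.group K)}

theorem sgx (hσ : IsSig chevF4 GraphAutF4.gd.bar GraphAutF4.gd.lam φ σ) {r : ℕ}
    (hr : r < chevF4.nroots) (t : K) :
    Sg σ (xg hF4 K r t) (xg hF4 K (GraphAutF4.gd.bar r) (φ t ^ GraphAutF4.gd.lam r)) :=
  sg_xg hF4 hσ hr (TwSigF4.hbar r hr).1 t

theorem sgn (hσ : IsSig chevF4 GraphAutF4.gd.bar GraphAutF4.gd.lam φ σ) (h2 : (2 : K) = 0)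
    {i j : ℕ} (hi : i < 4) (hj : j < 4) (hij : [3, 2, 1, 0].getD i 0 = j) :
    Sg σ (ng hF4 K i) (ng hF4 K j) :=
  sg_ng hF4 hσ TwSigF4.hbar (hneg4 h2) hi hj (by rw [TwSigF4.hls i hi, hij])

/-- the twisting endomorphism on the normal forms along `[0, 3]` -/
theorem sgA (hσ : IsSig chevF4 GraphAutF4.gd.bar GraphAutF4.gd.lam φ σ) (h2 : (2 : K) = 0)
    (s t : K) : Sg σ (zw hF4 K [0, 3] [s, t]) (zw hF4 K [0, 3] [φ t, φ s ^ 2]) := by
  have h1 : Sg σ (zw hF4 K [0, 3] [s, t])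
      (xg hF4 K 24 (φ s ^ 2) * ng hF4 K 3 * (xg hF4 K 33 (φ t) * ng hF4 K 0)) := by
    have a1 := sgx hσ (by decide : 33 < chevF4.nroots) s
    have a2 := sgx hσ (by decide : 24 < chevF4.nroots) t
    rw [b33, l33] at a1
    rw [b24, l24, pow_one] at a2
    have n0 := sgn hσ h2 (i := 0) (j := 3) (by decide) (by decide) rfl
    have n3 := sgn hσ h2 (i := 3) (j := 0) (by decide) (by decide) rfl
    have h := (a1.mul n0).mul (a2.mul n3)
    simpa only [zw_cons, zw_nil, s0, s3, mul_one] using h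
  refine h1.congr ?_
  have hc := (comm_aE (K := K) CAll.cfF4 blkA (i := 3) (j := 0) (by simp) (by simp) (by decide)
    (fun _ => φ s ^ 2) (fun _ => φ t)).eq
  simp only [aE, s0, s3] at hc
  rw [hc]
  simp only [zw_cons, zw_nil, s0, s3, mul_one]

/-- the twisting endomorphism on the normal forms along `[1, 2, 1, 2]` -/
theorem sgB (hσ : IsSig chevF4 GraphAutF4.gd.bar GraphAutF4.gd.lam φ σ) (h2 : (2 : K) = 0)
    (hfix : nw hF4 K (plain [1, 2, 1, 2]) ∈ fixG σ) (t1 t2 t3 t4 : K) :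
    Sg σ (zw hF4 K [1, 2, 1, 2] [t1, t2, t3, t4])
      (zw hF4 K [1, 2, 1, 2] [φ t4, φ t3 ^ 2 + φ t1 ^ 2 * φ t4 ^ 2, φ t2 + φ t1 ^ 2 * φ t4,
        φ t1 ^ 2]) := by
  have n1 := sgn hσ h2 (i := 1) (j := 2) (by decide) (by decide) rfl
  have n2 := sgn hσ h2 (i := 2) (j := 1) (by decide) (by decide) rfl
  have h1 : Sg σ (zw hF4 K [1, 2, 1, 2] [t1, t2, t3, t4])
      (zw hF4 K [2, 1, 2, 1] [φ t1 ^ 2, φ t2, φ t3 ^ 2, φ t4]) := by
    have a1 := sgx hσ (by decide : 27 < chevF4.nroots) t1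
    have a2 := sgx hσ (by decide : 25 < chevF4.nroots) t2
    have a3 := sgx hσ (by decide : 27 < chevF4.nroots) t3
    have a4 := sgx hσ (by decide : 25 < chevF4.nroots) t4
    rw [b27, l27] at a1 a3
    rw [b25, l25, pow_one] at a2 a4
    have h := (a1.mul n1).mul ((a2.mul n2).mul ((a3.mul n1).mul (a4.mul n2)))
    simpa only [zw_cons, zw_nil, s1, s2, mul_one] using h
  refine h1.congr ?_
  have hn : ng hF4 K 2 * (ng hF4 K 1 * (ng hF4 K 2 * ng hF4 K 1)) =
      ng hF4 K 1 * (ng hF4 K 2 * (ng hF4 K 1 * ng hF4 K 2)) := by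
    have e1 := n1.mul (n2.mul (n1.mul n2))
    rw [nwB] at hfix
    exact e1.unique (sg_fix_iff.mp hfix)
  rw [nfB' h2, nfB h2, hn, reorder h2]

theorem stabA (hσ : IsSig chevF4 GraphAutF4.gd.bar GraphAutF4.gd.lam φ σ) (h2 : (2 : K) = 0) :
    Stab hF4 σ [0, 3] := by
  intro ts hts
  obtain ⟨s, t, rfl⟩ := len2 hts
  exact ⟨[φ t, φ s ^ 2], rfl, sgA hσ h2 s t⟩

theorem stabB (hσ : IsSig chevF4 GraphAutF4.gd.bar GraphAutF4.gd.lam φ σ) (h2 : (2 : K) = 0)
    (hfix : nw hF4 K (plain [1, 2, 1, 2]) ∈ fixG σ) : Stab hF4 σ [1, 2, 1, 2] := by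
  intro ts hts
  obtain ⟨t1, t2, t3, t4, rfl⟩ := len4 hts
  exact ⟨_, rfl, sgB hσ h2 hfix t1 t2 t3 t4⟩

/-! ### The fixed normal forms lie in the twisted group -/

theorem memA (h2 : (2 : K) = 0) (e : ℕ) (hnA : nw hF4 K (plain [0, 3]) ∈ twistedF4 K e) (t : K) :
    zw hF4 K [0, 3] [t ^ e, t] ∈ twistedF4 K e := by
  have e1 : zw hF4 K [0, 3] [t ^ e, t] =
      wU hF4 (f4PairWord e f4p1 f4p4 t) * nw hF4 K (plain [0, 3]) := by
    rw [nwA]
    simp only [zw_cons, zw_nil, s0, s3, mul_one, mul_assoc, nx h2 (by decide) (by decide) W0_24]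
    rw [← mul_assoc]
    congr 1
    apply Units.ext
    rw [Units.val_mul, coe_xg hF4 (by decide), coe_xg hF4 (by decide), coe_wU]
    simp [f4PairWord, f4p1, f4p4, Cfsg.Agent.Lib.Helper18.Sub.wordMat_cons,
      Cfsg.Agent.Lib.Helper18.Sub.wordMat_nil]
  rw [e1]
  exact Subgroup.mul_mem _ (wU_mem_gen hF4 _ (Or.inl ⟨t, Or.inl rfl⟩)) hnA

theorem memB (h2 : (2 : K) = 0) (e : ℕ) (hnB : nw hF4 K (plain [1, 2, 1, 2]) ∈ twistedF4 K e)
    (t u : K) :
    zw hF4 K [1, 2, 1, 2] [t ^ e, u ^ (2 * e), t ^ (e + 1) + u, t] ∈ twistedF4 K e := by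
  have e1 : zw hF4 K [1, 2, 1, 2] [t ^ e, u ^ (2 * e), t ^ (e + 1) + u, t] =
      wU hF4 (b2ClassWord e f4a f4b f4ab f4aab t u) * nw hF4 K (plain [1, 2, 1, 2]) := by
    rw [nfB h2, nwB]
    have e3 := (g4b h2 t (t ^ (e + 1) + u) (u ^ (2 * e))).symm
    calc xg hF4 K 27 (t ^ e) * (xg hF4 K 30 (u ^ (2 * e)) * (xg hF4 K 28 (t ^ (e + 1) + u) *
          (xg hF4 K 25 t * (ng hF4 K 1 * (ng hF4 K 2 * (ng hF4 K 1 * ng hF4 K 2))))))
        = xg hF4 K 27 (t ^ e) * (xg hF4 K 30 (u ^ (2 * e)) * (xg hF4 K 28 (t ^ (e + 1) + u) *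
          xg hF4 K 25 t)) * (ng hF4 K 1 * (ng hF4 K 2 * (ng hF4 K 1 * ng hF4 K 2))) := by
          simp only [mul_assoc]
      _ = xg hF4 K 27 (t ^ e) * (xg hF4 K 25 t * (xg hF4 K 28 (t ^ (e + 1) + u) *
          xg hF4 K 30 (u ^ (2 * e)))) * (ng hF4 K 1 * (ng hF4 K 2 * (ng hF4 K 1 * ng hF4 K 2))) := by
          rw [e3]
      _ = wU hF4 (b2ClassWord e f4a f4b f4ab f4aab t u) *
          (ng hF4 K 1 * (ng hF4 K 2 * (ng hF4 K 1 * ng hF4 K 2))) := by
          congr 1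
          apply Units.ext
          simp only [Units.val_mul, coe_xg hF4 (by decide : (25 : ℕ) < chevF4.nroots),
            coe_xg hF4 (by decide : (27 : ℕ) < chevF4.nroots),
            coe_xg hF4 (by decide : (28 : ℕ) < chevF4.nroots),
            coe_xg hF4 (by decide : (30 : ℕ) < chevF4.nroots), coe_wU, b2ClassWord, f4a, f4b,
            f4ab, f4aab, Cfsg.Agent.Lib.Helper18.Sub.wordMat_cons,
            Cfsg.Agent.Lib.Helper18.Sub.wordMat_nil, mul_one]
  rw [e1]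
  exact Subgroup.mul_mem _ (wU_mem_gen hF4 _ (Or.inr ⟨t, u, Or.inl rfl⟩)) hnB

end sigma

end Cfsg.Agent.Lib.Helper19.TwF4U
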