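import Mathlib
import Cfsg.Agent.Lib.Helper19.TwF4U

set_option autoImplicit false
set_option linter.unusedSimpArgs false
set_option linter.unusedSectionVars false
set_option linter.unusedVariables false

/-!
The twisted group of type F4 in characteristic 2: the fixed normal forms along words made of the
blocks `[0, 3]` and `[1, 2, 1, 2]`, and the order of the intersection of the twisted group with
the positive unipotent subgroup.
-/

namespace Cfsg.Agent.Lib.Helper19.TwF4V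

open Cfsg Cfsg.Lie Cfsg.Agent.Lib.Helper18 Cfsg.Agent.Lib.Helper18.BNPairC
  Cfsg.Agent.Lib.Helper18.Sub Cfsg.Agent.Lib.Helper18.WGroup Cfsg.Agent.Lib.Helper18.Long
  Cfsg.Agent.Lib.Helper18.Cells Cfsg.Agent.Lib.Helper18.Cells2 Cfsg.Agent.Lib.Helper18.Tw1
  Cfsg.Agent.Lib.Helper18.Tw2 Cfsg.Agent.Lib.Helper18.Tw3 Cfsg.Agent.Lib.Helper18.RootSys
  Cfsg.Agent.Lib.Helper18.UOrd
  Cfsg.Agent.Lib.Helper36 Cfsg.Agent.Lib.Helper36.ChevEngine Cfsg.Agent.Lib.Helper36.ChevSound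
  Cfsg.Agent.Lib.Helper19.TwCore Cfsg.Agent.Lib.Helper19.TwEngine
  Cfsg.Agent.Lib.Helper19.TwPerf Cfsg.Agent.Lib.Helper19.TwAb Cfsg.Agent.Lib.Helper19.TwSig
  Cfsg.Agent.Lib.Helper19.TwRel Cfsg.Agent.Lib.Helper19.TwF4U

variable {K : Type*} [Field K]

section sigma

variable {φ : K →+* K} {σ : ↥(chevF4.group K) →* ↥(chevF4.group K)}

/-- the fixed normal forms along `[0, 3]` -/
theorem fixA_eq (hσ : IsSig chevF4 GraphAutF4.gd.bar GraphAutF4.gd.lam φ σ) (h2 : (2 : K) = 0)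
    (e : ℕ) (hφ : ∀ x : K, φ x = x ^ e) (hG1 : twistedF4 K e ≤ fixG σ)
    (hnA : nw hF4 K (plain [0, 3]) ∈ twistedF4 K e) :
    FixSet hF4 σ [0, 3] = Set.range (fun t : K => zw hF4 K [0, 3] [t ^ e, t]) := by
  ext g
  constructor
  · rintro ⟨ts, hts, rfl, hfix⟩
    obtain ⟨s, t, rfl⟩ := len2 hts
    have e0 : zw hF4 K [0, 3] [s, t] = zw hF4 K [0, 3] [φ t, φ s ^ 2] :=
      hfix.unique (sgA hσ h2 s t)
    have e1 : [s, t] = [φ t, φ s ^ 2] :=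
      zw_inj4 redA (ts := [s, t]) (ts' := [φ t, φ s ^ 2]) rfl rfl e0
    simp only [List.cons.injEq, and_true, hφ] at e1
    refine ⟨t, ?_⟩
    show zw hF4 K [0, 3] [t ^ e, t] = zw hF4 K [0, 3] [s, t]
    rw [← e1.1]
  · rintro ⟨t, rfl⟩
    exact ⟨[t ^ e, t], rfl, rfl, sg_fix_iff.mp (hG1 (memA h2 e hnA t))⟩

theorem cardA (hσ : IsSig chevF4 GraphAutF4.gd.bar GraphAutF4.gd.lam φ σ) (h2 : (2 : K) = 0)
    (e : ℕ) (hφ : ∀ x : K, φ x = x ^ e) (hG1 : twistedF4 K e ≤ fixG σ)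
    (hnA : nw hF4 K (plain [0, 3]) ∈ twistedF4 K e) :
    Nat.card (FixSet hF4 σ [0, 3]) = Nat.card K := by
  rw [fixA_eq hσ h2 e hφ hG1 hnA]
  apply Nat.card_range_of_injective
  intro t t' h
  have h0 : zw hF4 K [0, 3] [t ^ e, t] = zw hF4 K [0, 3] [t' ^ e, t'] := h
  have h1 : [t ^ e, t] = [t' ^ e, t'] :=
    zw_inj4 redA (ts := [t ^ e, t]) (ts' := [t' ^ e, t']) rfl rfl h0
  simp only [List.cons.injEq, and_true] at h1
  exact h1.2

/-- the fixed normal forms along `[1, 2, 1, 2]` -/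
theorem fixB_eq (hσ : IsSig chevF4 GraphAutF4.gd.bar GraphAutF4.gd.lam φ σ) (h2 : (2 : K) = 0)
    (e : ℕ) (hφ : ∀ x : K, φ x = x ^ e) (hG1 : twistedF4 K e ≤ fixG σ)
    (hnB : nw hF4 K (plain [1, 2, 1, 2]) ∈ twistedF4 K e)
    (hfrob' : ∀ x y : K, (x + y) ^ (2 * e) = x ^ (2 * e) + y ^ (2 * e)) :
    FixSet hF4 σ [1, 2, 1, 2] = Set.range (fun p : K × K =>
      zw hF4 K [1, 2, 1, 2] [p.1 ^ e, p.2 ^ (2 * e), p.1 ^ (e + 1) + p.2, p.1]) := by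
  ext g
  constructor
  · rintro ⟨ts, hts, rfl, hfix⟩
    obtain ⟨t1, t2, t3, t4, rfl⟩ := len4 hts
    have e0 : zw hF4 K [1, 2, 1, 2] [t1, t2, t3, t4] = zw hF4 K [1, 2, 1, 2]
        [φ t4, φ t3 ^ 2 + φ t1 ^ 2 * φ t4 ^ 2, φ t2 + φ t1 ^ 2 * φ t4, φ t1 ^ 2] :=
      hfix.unique (sgB hσ h2 (hG1 hnB) t1 t2 t3 t4)
    have e1 : [t1, t2, t3, t4] =
        [φ t4, φ t3 ^ 2 + φ t1 ^ 2 * φ t4 ^ 2, φ t2 + φ t1 ^ 2 * φ t4, φ t1 ^ 2] :=
      zw_inj4 redB4 (ts := [t1, t2, t3, t4])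
        (ts' := [φ t4, φ t3 ^ 2 + φ t1 ^ 2 * φ t4 ^ 2, φ t2 + φ t1 ^ 2 * φ t4, φ t1 ^ 2])
        rfl rfl e0
    simp only [List.cons.injEq, and_true, hφ] at e1
    obtain ⟨a1, a2, a3, a4⟩ := e1
    refine ⟨(t4, t3 + t4 ^ (e + 1)), ?_⟩
    have b1 : t4 ^ e = t1 := a1.symm
    have b3 : t4 ^ (e + 1) + (t3 + t4 ^ (e + 1)) = t3 := by
      linear_combination t4 ^ (e + 1) * h2
    have b2 : (t3 + t4 ^ (e + 1)) ^ (2 * e) = t2 := by
      rw [hfrob', a2, a1]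
      ring
    show zw hF4 K [1, 2, 1, 2] [t4 ^ e, (t3 + t4 ^ (e + 1)) ^ (2 * e),
      t4 ^ (e + 1) + (t3 + t4 ^ (e + 1)), t4] = zw hF4 K [1, 2, 1, 2] [t1, t2, t3, t4]
    rw [b1, b2, b3]
  · rintro ⟨p, rfl⟩
    exact ⟨_, rfl, rfl, sg_fix_iff.mp (hG1 (memB h2 e hnB p.1 p.2))⟩

theorem cardB (hσ : IsSig chevF4 GraphAutF4.gd.bar GraphAutF4.gd.lam φ σ) (h2 : (2 : K) = 0)
    (e : ℕ) (hφ : ∀ x : K, φ x = x ^ e) (hG1 : twistedF4 K e ≤ fixG σ)
    (hnB : nw hF4 K (plain [1, 2, 1, 2]) ∈ twistedF4 K e)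
    (hfrob' : ∀ x y : K, (x + y) ^ (2 * e) = x ^ (2 * e) + y ^ (2 * e)) :
    Nat.card (FixSet hF4 σ [1, 2, 1, 2]) = Nat.card K ^ 2 := by
  rw [fixB_eq hσ h2 e hφ hG1 hnB hfrob', Nat.card_range_of_injective, Nat.card_prod, sq]
  rintro ⟨t, u⟩ ⟨t', u'⟩ h
  have h0 : zw hF4 K [1, 2, 1, 2] [t ^ e, u ^ (2 * e), t ^ (e + 1) + u, t] =
      zw hF4 K [1, 2, 1, 2] [t' ^ e, u' ^ (2 * e), t' ^ (e + 1) + u', t'] := h
  have h1 : [t ^ e, u ^ (2 * e), t ^ (e + 1) + u, t] =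
      [t' ^ e, u' ^ (2 * e), t' ^ (e + 1) + u', t'] :=
    zw_inj4 redB4 (ts := [t ^ e, u ^ (2 * e), t ^ (e + 1) + u, t])
      (ts' := [t' ^ e, u' ^ (2 * e), t' ^ (e + 1) + u', t']) rfl rfl h0
  simp only [List.cons.injEq, and_true] at h1
  obtain ⟨-, -, a3, a4⟩ := h1
  subst a4
  exact Prod.ext rfl (add_left_cancel a3)

/-! ### Words made of blocks -/

/-- the two blocks -/
def wOf (b : Bool) : List ℕ := if b then [0, 3] else [1, 2, 1, 2]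

/-- the word of a list of blocks -/
def flat (bl : List Bool) : List ℕ := (bl.map wOf).flatten

/-- the number of parameters of the fixed normal forms along a list of blocks -/
def cnt (bl : List Bool) : ℕ := (bl.map fun b => if b then 1 else 2).sum

theorem flat_cons (b : Bool) (bl : List Bool) : flat (b :: bl) = wOf b ++ flat bl := by
  simp [flat]

theorem cnt_cons (b : Bool) (bl : List Bool) :
    cnt (b :: bl) = (if b then 1 else 2) + cnt bl := by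
  simp [cnt]

theorem stab_wOf (hσ : IsSig chevF4 GraphAutF4.gd.bar GraphAutF4.gd.lam φ σ) (h2 : (2 : K) = 0)
    (hfix : nw hF4 K (plain [1, 2, 1, 2]) ∈ fixG σ) (b : Bool) : Stab hF4 σ (wOf b) := by
  cases b
  · exact stabB hσ h2 hfix
  · exact stabA hσ h2

theorem stab_flat (hσ : IsSig chevF4 GraphAutF4.gd.bar GraphAutF4.gd.lam φ σ) (h2 : (2 : K) = 0)
    (hfix : nw hF4 K (plain [1, 2, 1, 2]) ∈ fixG σ) (bl : List Bool) :
    Stab hF4 σ (flat bl) := by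
  induction bl with
  | nil => exact stab_nil hF4
  | cons b bl ih =>
    rw [flat_cons]
    exact stab_append hF4 (stab_wOf hσ h2 hfix b) ih

theorem card_fix_flat (hσ : IsSig chevF4 GraphAutF4.gd.bar GraphAutF4.gd.lam φ σ)
    (h2 : (2 : K) = 0) (e : ℕ) (hφ : ∀ x : K, φ x = x ^ e) (hG1 : twistedF4 K e ≤ fixG σ)
    (hnA : nw hF4 K (plain [0, 3]) ∈ twistedF4 K e)
    (hnB : nw hF4 K (plain [1, 2, 1, 2]) ∈ twistedF4 K e)
    (hfrob' : ∀ x y : K, (x + y) ^ (2 * e) = x ^ (2 * e) + y ^ (2 * e))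
    (bl : List Bool) (hred : RedT FTabF4.fd WTabF4.X (flat bl)) :
    Nat.card (FixSet hF4 σ (flat bl)) = Nat.card K ^ cnt bl := by
  induction bl with
  | nil =>
    have e1 : FixSet hF4 σ (flat []) = {1} := by
      ext g
      constructor
      · rintro ⟨ts, -, rfl, -⟩
        exact zw_nil hF4 ts
      · rintro rfl
        exact ⟨[], rfl, (zw_nil hF4 []).symm, Sg.one⟩
    rw [e1]
    simp [cnt]
  | cons b bl ih =>
    rw [flat_cons] at hred ⊢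
    have h3 := card_fix_append CAll.cfF4 hadd4 hinj4 _ _ hred (stab_wOf hσ h2 (hG1 hnB) b)
      (stab_flat hσ h2 (hG1 hnB) bl)
    have h4 := ih (redT_append hred)
    rw [cnt_cons]
    refine h3.trans ?_
    rw [h4]
    cases b
    · have h5 := cardB hσ h2 e hφ hG1 hnB hfrob'
      show Nat.card (FixSet hF4 σ [1, 2, 1, 2]) * _ = Nat.card K ^ (2 + cnt bl)
      rw [h5, ← pow_add]
    · have h5 := cardA hσ h2 e hφ hG1 hnA
      show Nat.card (FixSet hF4 σ [0, 3]) * _ = Nat.card K ^ (1 + cnt bl)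
      rw [h5, pow_add, pow_one]

theorem fix_flat_mem (hσ : IsSig chevF4 GraphAutF4.gd.bar GraphAutF4.gd.lam φ σ)
    (h2 : (2 : K) = 0) (e : ℕ) (hφ : ∀ x : K, φ x = x ^ e) (hG1 : twistedF4 K e ≤ fixG σ)
    (hnA : nw hF4 K (plain [0, 3]) ∈ twistedF4 K e)
    (hnB : nw hF4 K (plain [1, 2, 1, 2]) ∈ twistedF4 K e)
    (hfrob' : ∀ x y : K, (x + y) ^ (2 * e) = x ^ (2 * e) + y ^ (2 * e))
    (bl : List Bool) (hred : RedT FTabF4.fd WTabF4.X (flat bl)) :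
    FixSet hF4 σ (flat bl) ⊆ twistedF4 K e := by
  induction bl with
  | nil =>
    rintro g ⟨ts, -, rfl, -⟩
    have e1 : zw hF4 K (flat []) ts = 1 := zw_nil hF4 ts
    rw [e1]
    exact Subgroup.one_mem _
  | cons b bl ih =>
    rw [flat_cons] at hred ⊢
    refine fix_mem_append CAll.cfF4 hadd4 hinj4 _ _ _ hred (stab_wOf hσ h2 (hG1 hnB) b)
      (stab_flat hσ h2 (hG1 hnB) bl) ?_ (ih (redT_append hred))
    cases b
    · show FixSet hF4 σ [1, 2, 1, 2] ⊆ _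
      rw [fixB_eq hσ h2 e hφ hG1 hnB hfrob']
      rintro g ⟨p, rfl⟩
      exact memB h2 e hnB p.1 p.2
    · show FixSet hF4 σ [0, 3] ⊆ _
      rw [fixA_eq hσ h2 e hφ hG1 hnA]
      rintro g ⟨t, rfl⟩
      exact memA h2 e hnA t

theorem nw_flat_mem (Γ : Subgroup (GL chevF4.Idx K))
    (hnA : nw hF4 K (plain [0, 3]) ∈ Γ) (hnB : nw hF4 K (plain [1, 2, 1, 2]) ∈ Γ)
    (bl : List Bool) : nw hF4 K (plain (flat bl)) ∈ Γ := by
  induction bl with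
  | nil => exact Γ.one_mem
  | cons b bl ih =>
    rw [flat_cons, Cfsg.Agent.Lib.Helper18.Cells.plain_append, nw_append]
    refine Γ.mul_mem ?_ ih
    cases b
    · exact hnB
    · exact hnA

end sigma

/-! ### The order of `U¹` -/

/-- the blocks of a longest word -/
def bl0 : List Bool := [true, false, true, false, true, false, true, false]

theorem red0 : RedT FTabF4.fd WTabF4.X (flat bl0) := Tw4.redT_of_redB (by decide +kernel)

theorem len0 : (flat bl0).length = 24 := by decide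

theorem cnt0 : cnt bl0 = 12 := by decide

/-- the products of the `n_i` along the two blocks lie in the twisted group -/
theorem nw_blocks_mem [Fintype K] {m : ℕ} (hK : Fintype.card K = 2 ^ (2 * m + 1)) :
    nw hF4 K (plain [0, 3]) ∈ twistedF4 K (2 ^ m) ∧
      nw hF4 K (plain [1, 2, 1, 2]) ∈ twistedF4 K (2 ^ m) := by
  have h2 : ((2 : ℕ) : K) = 0 := natCast_eq_zero_of_card Nat.prime_two hK
  have he : (2 ^ m : ℕ) ≠ 0 := pow_ne_zero m (by norm_num)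
  have hzP : Cfsg.Agent.Lib.Helper19.TwGlue.castW K Cfsg.Agent.S1113.zP ∈
      Cfsg.Lie.f4Words K (2 ^ m) :=
    Or.inl ⟨1, Or.inl (by simp [Cfsg.Agent.Lib.Helper19.TwGlue.castW, Cfsg.Agent.S1113.zP,
      Cfsg.Lie.f4PairWord, Cfsg.Lie.f4p1, Cfsg.Lie.f4p4])⟩
  have hzPm : Cfsg.Agent.Lib.Helper19.TwGlue.castW K Cfsg.Agent.S1113.zPm ∈
      Cfsg.Lie.f4Words K (2 ^ m) :=
    Or.inl ⟨1, Or.inr (by simp [Cfsg.Agent.Lib.Helper19.TwGlue.castW, Cfsg.Agent.S1113.zPm,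
      Cfsg.Lie.f4PairWord, Cfsg.Lie.f4m1, Cfsg.Lie.f4m4])⟩
  have hzU : Cfsg.Agent.Lib.Helper19.TwGlue.castW K Cfsg.Agent.S1113.zU ∈
      Cfsg.Lie.f4Words K (2 ^ m) :=
    Or.inr ⟨0, 1, Or.inl (by simp [Cfsg.Agent.Lib.Helper19.TwGlue.castW, Cfsg.Agent.S1113.zU,
      Cfsg.Lie.b2ClassWord, Cfsg.Lie.f4a, Cfsg.Lie.f4b, Cfsg.Lie.f4ab, Cfsg.Lie.f4aab, he])⟩
  have hzV : Cfsg.Agent.Lib.Helper19.TwGlue.castW K Cfsg.Agent.S1113.zV ∈
      Cfsg.Lie.f4Words K (2 ^ m) :=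
    Or.inr ⟨0, 1, Or.inr (by simp [Cfsg.Agent.Lib.Helper19.TwGlue.castW, Cfsg.Agent.S1113.zV,
      Cfsg.Lie.b2ClassWord, Cfsg.Lie.f4ma, Cfsg.Lie.f4mb, Cfsg.Lie.f4mab, Cfsg.Lie.f4maab, he])⟩
  constructor
  · apply Cfsg.Agent.Lib.Helper19.TwGlue.nw_mem_gen hF4 2 h2
      Cfsg.Agent.Lib.Helper36.ChevTabF4.tab Cfsg.Agent.Lib.Helper36.ChevTabF4.tok _ _ (by decide)
      [Cfsg.Agent.S1113.zP, Cfsg.Agent.S1113.zPm, Cfsg.Agent.S1113.zP] ?_
      Cfsg.Agent.S1113.chk_pair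
    intro z hz
    simp only [List.mem_cons, List.not_mem_nil, or_false] at hz
    rcases hz with rfl | rfl | rfl
    · exact hzP
    · exact hzPm
    · exact hzP
  · apply Cfsg.Agent.Lib.Helper19.TwGlue.nw_mem_gen hF4 2 h2
      Cfsg.Agent.Lib.Helper36.ChevTabF4.tab Cfsg.Agent.Lib.Helper36.ChevTabF4.tok _ _ (by decide)
      [Cfsg.Agent.S1113.zU, Cfsg.Agent.S1113.zV, Cfsg.Agent.S1113.zU, Cfsg.Agent.S1113.zV,
        Cfsg.Agent.S1113.zU] ?_ Cfsg.Agent.S1113.chk_b2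
    intro z hz
    simp only [List.mem_cons, List.not_mem_nil, or_false] at hz
    rcases hz with rfl | rfl | rfl | rfl | rfl
    · exact hzU
    · exact hzV
    · exact hzU
    · exact hzV
    · exact hzU

/-- the intersection of the twisted group of type F4 with the positive unipotent subgroup is the
group of fixed points on it, and it has `q ^ 12` elements -/
theorem card_U_tw [Fintype K] {m : ℕ} (hK : Fintype.card K = 2 ^ (2 * m + 1)) :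
    Nat.card ↥(chevF4.posUnipotent K ⊓ twistedF4 K (2 ^ m)) = (2 ^ (2 * m + 1)) ^ 12 := by
  obtain ⟨φ, σ, hφ, hσ⟩ := TwSigF4.exists_sig hK
  have hG1 := TwSigF4.f4_fix hK hφ hσ
  have h2n : ((2 : ℕ) : K) = 0 := natCast_eq_zero_of_card Nat.prime_two hK
  have h2 : (2 : K) = 0 := by exact_mod_cast h2n
  have hfrob2 : ∀ x y : K, (x + y) ^ 2 = x ^ 2 + y ^ 2 :=
    frob_add (n := 2 * m + 1) (by omega) hK
  have hfrob' : ∀ x y : K, (x + y) ^ (2 * 2 ^ m) = x ^ (2 * 2 ^ m) + y ^ (2 * 2 ^ m) := by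
    have e1 : 2 * 2 ^ m = 2 ^ (m + 1) := by ring
    rw [e1]
    exact frob_pow_add hfrob2 (m + 1)
  obtain ⟨hnA, hnB⟩ := nw_blocks_mem hK
  have hnmem : nw hF4 K (plain (flat bl0)) ∈ twistedF4 K (2 ^ m) :=
    nw_flat_mem _ hnA hnB bl0
  have hn0 : Sg σ (nw hF4 K (plain (flat bl0))) (nw hF4 K (plain (flat bl0))) :=
    sg_fix_iff.mp (hG1 hnmem)
  have hle : chevF4.posUnipotent K ⊓ fixG σ ≤ twistedF4 K (2 ^ m) :=
    U_fix_le CAll.cfF4 hadd4 hinj4 ChainAll.rF4 UAll.uF4 (by decide) _ _ red0 len0 hn0 hnmem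
      (fix_flat_mem hσ h2 _ hφ hG1 hnA hnB hfrob' bl0 red0)
  have heq : chevF4.posUnipotent K ⊓ twistedF4 K (2 ^ m) = chevF4.posUnipotent K ⊓ fixG σ :=
    le_antisymm (inf_le_inf_left _ hG1) (le_inf inf_le_left hle)
  rw [heq, card_U_fix CAll.cfF4 hadd4 hinj4 ChainAll.rF4 UAll.uF4 (by decide) _ red0 len0 hn0]
  have h6 := card_fix_flat hσ h2 _ hφ hG1 hnA hnB hfrob' bl0 red0
  rw [cnt0, Nat.card_eq_fintype_card (α := K), hK] at h6
  exact h6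

end Cfsg.Agent.Lib.Helper19.TwF4V
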