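import Mathlib
import Cfsg.Agent.Lib.Helper19.TwRel
import Cfsg.Agent.Lib.Helper18.Tw7

set_option autoImplicit false
set_option linter.unusedSimpArgs false
set_option linter.unusedSectionVars false
set_option linter.unusedVariables false

/-!
Twisting endomorphisms defined on the Chevalley group only, in relational form: the action on the
unipotent subgroup, the torus and the Bruhat cells; the fixed elements of a cell and of the Borel
subgroup; Weyl group elements commuting with the permutation of the roots; the number of fixed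
elements as a sum over the words of the twisted Weyl group.
-/

namespace Cfsg.Agent.Lib.Helper19.TwRel2

open Cfsg Cfsg.Lie Cfsg.Agent.Lib.Helper18.Fast Cfsg.Agent.Lib.Helper18.Grade
  Cfsg.Agent.Lib.Helper18.Facts Cfsg.Agent.Lib.Helper18.AllRoots Cfsg.Agent.Lib.Helper18.Loop
  Cfsg.Agent.Lib.Helper18.Weyl Cfsg.Agent.Lib.Helper18.RootSys Cfsg.Agent.Lib.Helper18.Orbit
  Cfsg.Agent.Lib.Helper18.Units Cfsg.Agent.Lib.Helper18.Sub Cfsg.Agent.Lib.Helper18.Norm
  Cfsg.Agent.Lib.Helper18.HAll Cfsg.Agent.Lib.Helper18.Torus Cfsg.Agent.Lib.Helper18.Pos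
  Cfsg.Agent.Lib.Helper18.WGroup Cfsg.Agent.Lib.Helper18.BNChev Cfsg.Agent.Lib.Helper18.Mono
  Cfsg.Agent.Lib.Helper18.BNPairC Cfsg.Agent.Lib.Helper18.UOrd Cfsg.Agent.Lib.Helper18.Cox
  Cfsg.Agent.Lib.Helper18.Long Cfsg.Agent.Lib.Helper18.Core Cfsg.Agent.Lib.Helper18.Conj
  Cfsg.Agent.Lib.Helper18.RFact Cfsg.Agent.Lib.Helper18.BNCell Cfsg.Agent.Lib.Helper18.Vec
  Cfsg.Agent.Lib.Helper18.XMat Cfsg.Agent.Lib.Helper18.Cells Cfsg.Agent.Lib.Helper18.Cox2
  Cfsg.Agent.Lib.Helper18.Cells2 Cfsg.Agent.Lib.Helper18.BNAbs Cfsg.Agent.Lib.Helper18.Poly2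
  Cfsg.Agent.Lib.Helper18.Graph Cfsg.Agent.Lib.Helper18.Tw1
  Cfsg.Agent.Lib.Helper18.Par Cfsg.Agent.Lib.Helper18.Par2 Cfsg.Agent.Lib.Helper18.Tw2
  Cfsg.Agent.Lib.Helper18.Tw3 Cfsg.Agent.Lib.Helper19.TwSig Cfsg.Agent.Lib.Helper19.TwRel
  Cfsg.Agent.Lib.Helper18

variable {A : FData} {D : ChevalleyDatum} {K : Type*} [Field K] {X : WD} {m : ℕ → ℕ → ℤ}
  {w : ℕ → ℤ} {N : ℕ} {ord rnk : ℕ → ℕ} {bz : ℕ → ℕ → ℤ} {w' : ℕ → ℤ}

section chev

variable {bar lam : ℕ → ℕ} {φ : K →+* K} {σ : ↥(D.group K) →* ↥(D.group K)}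

theorem sg_U (hF : AFacts A D) (hσ : IsSig D bar lam φ σ)
    (hbar : ∀ r < D.nroots, bar r < D.nroots ∧ bar (D.neg r) = D.neg (bar r) ∧
      lam (D.neg r) = lam r)
    (hpos : ∀ r < A.n, PosA A r → PosA A (bar r)) {u u' : GL D.Idx K}
    (hu : u ∈ D.posUnipotent K) (h : Sg σ u u') : u' ∈ D.posUnipotent K := by
  have key : D.posUnipotent K ≤
      ((((D.posUnipotent K).subgroupOf (D.group K)).comap σ).map (D.group K).subtype) := by
    conv_lhs => unfold ChevalleyDatum.posUnipotent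
    rw [Subgroup.closure_le]
    rintro g ⟨r, t, hr, hg⟩
    have hr' := lt_n hF hr.1
    have hgG : g ∈ D.group K := Subgroup.subset_closure ⟨⟨r, hr.1⟩, t, by rw [hg, x_eq_xMat hr.1]⟩
    refine ⟨⟨g, hgG⟩, ?_, rfl⟩
    rw [SetLike.mem_coe, Subgroup.mem_comap, Subgroup.mem_subgroupOf]
    have hbr := (hbar r hr.1).1
    exact Subgroup.subset_closure ⟨bar r, φ t ^ lam r,
      (posA_iff hF (lt_n hF hbr)).mp (hpos r hr' ((posA_iff hF hr').mpr hr)),
      hσ ⟨g, hgG⟩ r t hr.1 hg⟩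
  obtain ⟨x, hx, hxb⟩ := key hu
  obtain ⟨hg, e⟩ := h
  have ex : x = ⟨u, hg⟩ := Subtype.ext hxb
  rw [← e, ← ex]
  exact Subgroup.mem_subgroupOf.mp (Subgroup.mem_comap.mp hx)

theorem sg_H (hF : AFacts A D) (hσ : IsSig D bar lam φ σ)
    (hbar : ∀ r < D.nroots, bar r < D.nroots ∧ bar (D.neg r) = D.neg (bar r) ∧
      lam (D.neg r) = lam r)
    (hneg : ∀ r < D.nroots, ∀ t : K, (-t) ^ lam r = -(t ^ lam r)) {h h' : GL D.Idx K}
    (hh : h ∈ D.diagonalSubgroup K) (hs : Sg σ h h') : h' ∈ D.diagonalSubgroup K := by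
  have key : D.diagonalSubgroup K ≤
      ((((D.diagonalSubgroup K).subgroupOf (D.group K)).comap σ).map (D.group K).subtype) := by
    conv_lhs => unfold ChevalleyDatum.diagonalSubgroup
    rw [Subgroup.closure_le]
    rintro g ⟨r, c, hr, hc, hg⟩
    obtain ⟨hb1, hb2, hb3⟩ := hbar r hr
    have hgG : g ∈ D.group K := word_mem_group hF (D.hWord r c) (hWord_lt hF hr c) g hg
    refine ⟨⟨g, hgG⟩, ?_, rfl⟩
    rw [SetLike.mem_coe, Subgroup.mem_comap, Subgroup.mem_subgroupOf]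
    have e : (((σ ⟨g, hgG⟩ : ↥(D.group K)) : GL D.Idx K) : Matrix D.Idx D.Idx K) =
        D.hMat K (bar r) (φ c ^ lam r) := by
      have h0 := sig_word hF hσ (D.hWord r c) (hWord_lt hF hr c) ⟨g, hgG⟩ hg
      rw [h0, sigW_hWord φ hb2 hb3 (hneg r hr) c]
      rfl
    exact Subgroup.subset_closure
      ⟨bar r, φ c ^ lam r, hb1, pow_ne_zero _ ((map_ne_zero φ).mpr hc), e⟩
  obtain ⟨x, hx, hxb⟩ := key hh
  obtain ⟨hg, e⟩ := hs
  have ex : x = ⟨h, hg⟩ := Subtype.ext hxb
  rw [← e, ← ex]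
  exact Subgroup.mem_subgroupOf.mp (Subgroup.mem_comap.mp hx)

theorem sg_nw (hF : AFacts A D) (hσ : IsSig D bar lam φ σ)
    (hbar : ∀ r < D.nroots, bar r < D.nroots ∧ bar (D.neg r) = D.neg (bar r) ∧
      lam (D.neg r) = lam r)
    (hneg : ∀ r < D.nroots, ∀ t : K, (-t) ^ lam r = -(t ^ lam r)) {l : List ℕ}
    (hl : ∀ i < A.rank, l.getD i 0 < A.rank ∧ bar (D.simple i) = D.simple (l.getD i 0))
    (wd : List ℕ) (hwd : ∀ i ∈ wd, i < A.rank) :
    Sg σ (nw hF K (plain wd)) (nw hF K (plain (wd.map fun i => l.getD i 0))) := by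
  induction wd with
  | nil => exact Sg.one
  | cons i wd ih =>
    have hi := hwd i List.mem_cons_self
    rw [List.map_cons, nw_plain_cons, nw_plain_cons]
    exact (sg_ng hF hσ hbar hneg hi (hl i hi).1 (hl i hi).2).mul
      (ih (fun j hj => hwd j (List.mem_cons_of_mem _ hj)))

/-- the image of a cell -/
theorem sg_cell_raw (hC : CFacts A D X m w) (hσ : IsSig D bar lam φ σ)
    (hbar : ∀ r < D.nroots, bar r < D.nroots ∧ bar (D.neg r) = D.neg (bar r) ∧
      lam (D.neg r) = lam r)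
    (hneg : ∀ r < D.nroots, ∀ t : K, (-t) ^ lam r = -(t ^ lam r))
    (hpos : ∀ r < A.n, PosA A r → PosA A (bar r)) {l : List ℕ}
    (hl : ∀ i < A.rank, l.getD i 0 < A.rank ∧ bar (D.simple i) = D.simple (l.getD i 0))
    {wd : List ℕ} (hwd : ∀ i ∈ wd, i < A.rank) {c c' : GL D.Idx K}
    (hc : c ∈ cell hC K wd) (h : Sg σ c c') :
    c' ∈ cell hC K (wd.map fun i => l.getD i 0) := by
  have hF := hC.af
  have hBG : D.borelSubgroup K ≤ D.group K := borelSubgroup_le hF K
  unfold cell at hc ⊢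
  rw [DoubleCoset.mem_doubleCoset] at hc ⊢
  obtain ⟨b₁, hb₁, b₂, hb₂, rfl⟩ := hc
  obtain ⟨b₁', h1⟩ := Sg.total (σ := σ) (hBG hb₁)
  obtain ⟨b₂', h2⟩ := Sg.total (σ := σ) (hBG hb₂)
  have h3 := (h1.mul (sg_nw hF hσ hbar hneg hl wd hwd)).mul h2
  rw [h.unique h3]
  exact ⟨b₁', sg_borel hF hσ hbar hneg hpos hb₁ h1, b₂', sg_borel hF hσ hbar hneg hpos hb₂ h2, rfl⟩

end chev

section fixcell

variable {bar lam : ℕ → ℕ} {φ : K →+* K} {σ : ↥(D.group K) →* ↥(D.group K)}

variable (hC : CFacts A D X m w)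
  (hadd : ∀ r < D.nroots, ∀ t u : K, D.x K r t * D.x K r u = D.x K r (t + u))
  (hinj : ∀ r < D.nroots, ∀ t : K, D.x K r t = 1 → t = 0)

include hadd hinj in
/-- existence of the normal form along a word -/
theorem zw_surj (wd wd' : List ℕ) (hred : RedT A X (wd ++ wd')) {g : GL D.Idx K}
    (hg : g ∈ cell hC K (wd ++ wd')) :
    ∃ ts : List K, ts.length = wd.length ∧ ∃ c ∈ cell hC K wd', g = zw hC.af K wd ts * c := by
  induction wd generalizing g with
  | nil => exact ⟨[], rfl, g, hg, by rw [zw_nil, one_mul]⟩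
  | cons i wd ih =>
    obtain ⟨t, g', hg', rfl⟩ := cell_cons_surj hC hadd hinj hred hg
    obtain ⟨ts, hts, c, hc, rfl⟩ := ih hred.2.1 hg'
    exact ⟨t :: ts, by simp [hts], c, hc, by rw [zw_cons]; simp only [mul_assoc]⟩

variable (hσ : IsSig D bar lam φ σ)
  (hbar : ∀ r < D.nroots, bar r < D.nroots ∧ bar (D.neg r) = D.neg (bar r) ∧
    lam (D.neg r) = lam r)
  (hneg : ∀ r < D.nroots, ∀ t : K, (-t) ^ lam r = -(t ^ lam r))
  (hpos : ∀ r < A.n, PosA A r → PosA A (bar r))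

include hadd hinj hσ hbar hneg hpos in
/-- a fixed element of the cell of a stable word is a fixed normal form times a fixed element of
the Borel subgroup -/
theorem fix_cell_decomp (wd : List ℕ) (hred : RedT A X wd) (hstab : Stab hC.af σ wd)
    {g : GL D.Idx K} (hfix : Sg σ g g) (hg : g ∈ cell hC K wd) :
    ∃ z ∈ FixSet hC.af σ wd, ∃ b : GL D.Idx K, Sg σ b b ∧ b ∈ D.borelSubgroup K ∧ g = z * b := by
  have hred' : RedT A X (wd ++ []) := by rw [List.append_nil]; exact hred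
  have hg' : g ∈ cell hC K (wd ++ []) := by rw [List.append_nil]; exact hg
  obtain ⟨ts, hts, c, hc, rfl⟩ := zw_surj hC hadd hinj wd [] hred' hg'
  obtain ⟨ts', hts', s1⟩ := hstab ts hts
  have hcB : c ∈ D.borelSubgroup K := by
    rw [cell_nil] at hc
    exact hc
  obtain ⟨c', s2⟩ := Sg.total (σ := σ) (borelSubgroup_le hC.af K hcB)
  have hc'B := sg_borel hC.af hσ hbar hneg hpos hcB s2
  have hc' : c' ∈ cell hC K [] := by
    rw [cell_nil]
    exact hc'B
  have e := hfix.unique (s1.mul s2)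
  obtain ⟨e1, e2⟩ := zw_inj hC hadd hinj wd [] hred' hts hts' hc hc' e
  rw [← e1] at s1
  rw [← e2] at s2
  exact ⟨_, ⟨ts, hts, rfl, s1⟩, c, s2, hcB, rfl⟩

include hadd hinj hσ hbar hneg hpos in
/-- the number of fixed elements in the cell of a stable word -/
theorem card_inter_cell' (wd : List ℕ) (hred : RedT A X wd) (hstab : Stab hC.af σ wd) :
    Nat.card {g : GL D.Idx K | Sg σ g g ∧ g ∈ cell hC K wd} =
      Nat.card (FixSet hC.af σ wd) *
        Nat.card {g : GL D.Idx K | Sg σ g g ∧ g ∈ D.borelSubgroup K} := by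
  have hred' : RedT A X (wd ++ []) := by rw [List.append_nil]; exact hred
  rw [← Nat.card_prod]
  symm
  apply Nat.card_congr
  refine Equiv.ofBijective
    (fun p : FixSet hC.af σ wd × {g : GL D.Idx K | Sg σ g g ∧ g ∈ D.borelSubgroup K} =>
      (⟨p.1.1 * p.2.1, ?_⟩ : {g : GL D.Idx K | Sg σ g g ∧ g ∈ cell hC K wd})) ⟨?_, ?_⟩
  · obtain ⟨ts, hts, e1, s1⟩ := p.1.2
    refine ⟨s1.mul p.2.2.1, ?_⟩
    rw [e1]
    have h1 := zw_mul_cell hC hadd hinj wd [] hred' ts hts (c := p.2.1)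
      (by rw [cell_nil]; exact p.2.2.2)
    rwa [List.append_nil] at h1
  · rintro ⟨⟨z, ts, hts, rfl, s1⟩, ⟨b, sb, hb⟩⟩ ⟨⟨z', ts', hts', rfl, s1'⟩, ⟨b', sb', hb'⟩⟩ e
    have e' : zw hC.af K wd ts * b = zw hC.af K wd ts' * b' := congrArg Subtype.val e
    have hc : b ∈ cell hC K [] := by rw [cell_nil]; exact hb
    have hc' : b' ∈ cell hC K [] := by rw [cell_nil]; exact hb'
    obtain ⟨h3, h4⟩ := zw_inj hC hadd hinj wd [] hred' hts hts' hc hc' e'
    subst h3
    subst h4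
    rfl
  · rintro ⟨g, hfix, hg⟩
    obtain ⟨z, hz, b, sb, hb, rfl⟩ :=
      fix_cell_decomp hC hadd hinj hσ hbar hneg hpos wd hred hstab hfix hg
    exact ⟨(⟨z, hz⟩, ⟨b, sb, hb⟩), rfl⟩

include hC hadd hσ hbar hneg hpos in
/-- a fixed element of the Borel subgroup is a product of fixed elements of `U` and `H` -/
theorem fix_B_decomp {b : GL D.Idx K} (hfix : Sg σ b b) (hb : b ∈ D.borelSubgroup K) :
    ∃ u h : GL D.Idx K, (u ∈ D.posUnipotent K ∧ Sg σ u u) ∧
      (h ∈ D.diagonalSubgroup K ∧ Sg σ h h) ∧ b = u * h := by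
  have hUH := posUnipotent_inf_diagonal (F := K) hC.af hC.pw
  have hHU : D.diagonalSubgroup K ≤
      Subgroup.normalizer (D.posUnipotent K : Set (GL D.Idx K)) := by
    have := (hC.rd hadd).H_le_normalizer_U
    rwa [rd_U] at this
  obtain ⟨u, hu, h, hh, rfl⟩ :=
    Cfsg.Agent.Lib.Helper18.BNAbs.RD.exists_mul_of_mem_sup' hHU hb
  obtain ⟨u', su⟩ := Sg.total (σ := σ) (posUnipotent_le D K hu)
  obtain ⟨h', sh⟩ := Sg.total (σ := σ) (diagonalSubgroup_le hC.af K hh)
  have hu' := sg_U hC.af hσ hbar hpos hu su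
  have hh' := sg_H hC.af hσ hbar hneg hh sh
  have e := hfix.unique (su.mul sh)
  have e2 : u'⁻¹ * u = h' * h⁻¹ := by
    rw [inv_mul_eq_iff_eq_mul, ← mul_assoc, ← e, mul_inv_cancel_right]
  have h3 : u'⁻¹ * u ∈ D.posUnipotent K ⊓ D.diagonalSubgroup K :=
    ⟨Subgroup.mul_mem _ (Subgroup.inv_mem _ hu') hu,
      by rw [e2]; exact Subgroup.mul_mem _ hh' (Subgroup.inv_mem _ hh)⟩
  rw [hUH, Subgroup.mem_bot, inv_mul_eq_one] at h3
  subst h3
  have h4 : h = h' := mul_left_cancel e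
  subst h4
  exact ⟨_, _, ⟨hu, su⟩, ⟨hh, sh⟩, rfl⟩

include hC hadd hσ hbar hneg hpos in
/-- the number of fixed elements of the Borel subgroup -/
theorem card_inter_B' :
    Nat.card {g : GL D.Idx K | Sg σ g g ∧ g ∈ D.borelSubgroup K} =
      Nat.card ↥(D.posUnipotent K ⊓ fixG σ) * Nat.card ↥(D.diagonalSubgroup K ⊓ fixG σ) := by
  have hUH := posUnipotent_inf_diagonal (F := K) hC.af hC.pw
  rw [← Nat.card_prod]
  symm
  apply Nat.card_congr
  refine Equiv.ofBijective
    (fun p : ↥(D.posUnipotent K ⊓ fixG σ) × ↥(D.diagonalSubgroup K ⊓ fixG σ) =>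
      (⟨p.1.1 * p.2.1, (sg_fix_iff.mp p.1.2.2).mul (sg_fix_iff.mp p.2.2.2),
        Subgroup.mul_mem _ (le_sup_left (b := D.diagonalSubgroup K) p.1.2.1)
          (le_sup_right (a := D.posUnipotent K) p.2.2.1)⟩ :
        {g : GL D.Idx K | Sg σ g g ∧ g ∈ D.borelSubgroup K})) ⟨?_, ?_⟩
  · rintro ⟨⟨u, hu, huΓ⟩, ⟨h, hh, hhΓ⟩⟩ ⟨⟨u', hu', huΓ'⟩, ⟨h', hh', hhΓ'⟩⟩ e
    have e1 : u * h = u' * h' := congrArg Subtype.val e
    have e2 : u'⁻¹ * u = h' * h⁻¹ := by
      rw [inv_mul_eq_iff_eq_mul, ← mul_assoc, ← e1, mul_inv_cancel_right]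
    have h3 : u'⁻¹ * u ∈ D.posUnipotent K ⊓ D.diagonalSubgroup K :=
      ⟨Subgroup.mul_mem _ (Subgroup.inv_mem _ hu') hu,
        by rw [e2]; exact Subgroup.mul_mem _ hh' (Subgroup.inv_mem _ hh)⟩
    rw [hUH, Subgroup.mem_bot, inv_mul_eq_one] at h3
    subst h3
    have h4 : h = h' := mul_left_cancel e1
    subst h4
    rfl
  · rintro ⟨g, hfix, hgB⟩
    obtain ⟨u, h, ⟨hu, su⟩, ⟨hh, sh⟩, rfl⟩ := fix_B_decomp hC hadd hσ hbar hneg hpos hfix hgB
    exact ⟨(⟨u, hu, sg_fix_iff.mpr su⟩, ⟨h, hh, sg_fix_iff.mpr sh⟩), rfl⟩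

end fixcell

/-! ### Weyl group elements commuting with the permutation of the roots -/

section rsgen

variable {ι : Type} [Fintype ι] [DecidableEq ι] {n : ℕ} (R : RS ι n)

theorem neg_lin {J' : Set ℕ} {σ : Equiv.Perm ι} (hσ : σ ∈ R.W J') {J : Set ℕ}
    (hα : ∀ j ∈ J, j < n → ¬ R.pos (σ (R.α j))) {γ : ι} (hγ : R.pos γ) (hJ : R.inJ J γ) :
    ¬ R.pos (σ γ) := by
  intro hp
  obtain ⟨k, hk, hne⟩ := R.nz (σ γ)
  have h1 : R.c (σ γ) k ≤ 0 := by
    rw [R.c_lin hσ γ k hk]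
    apply Finset.sum_nonpos
    intro j hj
    rw [Finset.mem_range] at hj
    by_cases hjJ : j ∈ J
    · exact mul_nonpos_of_nonneg_of_nonpos (hγ j hj) (R.nonpos_of_not_pos (hα j hjJ hj) k hk)
    · rw [hJ j hj hjJ, zero_mul]
  have h2 := hp k hk
  omega

theorem wprod_mem_J {J : Set ℕ} {wd : List ℕ} (h : ∀ i ∈ wd, i < n ∧ i ∈ J) :
    R.wprod wd ∈ R.W J := by
  induction wd with
  | nil => exact Subgroup.one_mem _
  | cons i wd ih =>
    rw [RS.wprod_cons]
    exact Subgroup.mul_mem _ (R.s_mem (h i List.mem_cons_self).2 (h i List.mem_cons_self).1)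
      (ih (fun j hj => h j (List.mem_cons_of_mem _ hj)))

theorem wprod_snoc (wd : List ℕ) (j : ℕ) : R.wprod (wd ++ [j]) = R.wprod wd * R.s j := by
  simp [RS.wprod]

/-- Removing a block of roots made negative shortens the element by the length of the block. -/
theorem ell_peel_rs {S : List ℕ} (hlt : ∀ i ∈ S, i < n)
    (hchain : ∀ T1 T2 : List ℕ, ∀ j : ℕ, S = T1 ++ j :: T2 → R.pos (R.wprod T1 (R.α j)))
    (σ : Equiv.Perm ι) (hσ : σ ∈ R.W Set.univ) (hneg : ∀ j ∈ S, ¬ R.pos (σ (R.α j))) :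
    R.ell' σ = R.ell' (σ * R.wprod S) + S.length := by
  have key : ∀ T2 T1 : List ℕ, S = T1 ++ T2 →
      R.ell' (σ * R.wprod T1) = R.ell' (σ * R.wprod T1 * R.wprod T2) + T2.length := by
    intro T2
    induction T2 with
    | nil =>
      intro T1 _
      have e0 : R.wprod [] = 1 := rfl
      rw [e0, mul_one, List.length_nil, add_zero]
    | cons j T2 ih =>
      intro T1 hST
      have hjS : j ∈ S := by
        rw [hST]
        simp
      have hj : j < n := hlt j hjS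
      have hT1 : ∀ i ∈ T1, i < n := fun i hi =>
        hlt i (by rw [hST]; exact List.mem_append_left _ hi)
      have hT1J : R.wprod T1 ∈ R.W {j | j ∈ S} :=
        wprod_mem_J R (fun i hi => ⟨hT1 i hi, by
          show i ∈ S
          rw [hST]
          exact List.mem_append_left _ hi⟩)
      have hpos : R.pos (R.wprod T1 (R.α j)) := hchain T1 T2 j hST
      have hinJ : R.inJ {j | j ∈ S} (R.wprod T1 (R.α j)) := by
        intro k hk hkJ
        rw [R.c_off hT1J _ k hk hkJ, R.c_α j hj k hk]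
        have hne : j ≠ k := by
          rintro rfl
          exact hkJ hjS
        rw [if_neg hne]
      have hσ1 : σ * R.wprod T1 ∈ R.W Set.univ := Subgroup.mul_mem _ hσ (R.wprod_mem hT1)
      have hn1 : ¬ R.pos ((σ * R.wprod T1) (R.α j)) := by
        rw [Equiv.Perm.mul_apply]
        exact neg_lin R hσ (J := {j | j ∈ S}) (fun a ha _ => hneg a ha) hpos hinJ
      have h1 := R.ell'_of_neg hσ1 hj (Set.mem_univ j) hn1
      have h2 := ih (T1 ++ [j]) (by rw [hST]; simp)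
      rw [wprod_snoc] at h2
      rw [h1, RS.wprod_cons, List.length_cons]
      simp only [mul_assoc] at h2 ⊢
      omega
  have h := key S [] rfl
  have e0 : R.wprod [] = 1 := rfl
  rw [e0, mul_one] at h
  exact h

end rsgen

section weyl

variable {l : List ℕ} {bar : ℕ → ℕ}

/-- Root system facts for a block: a word in the fundamental reflections of one orbit, each
letter of which is sent to a positive root by the letters before it, and whose Weyl group element
is invariant under the graph permutation. -/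
structure WBlk' (A : FData) (X : WD) (l : List ℕ) (S : List ℕ) : Prop where
  lt : ∀ i ∈ S, i < A.rank
  orbit : ∀ i ∈ S, ∀ j ∈ S, ∃ k, (fun a => l.getD a 0)^[k] i = j
  chain : ∀ T1 T2 : List ℕ, ∀ j : ℕ, S = T1 ++ j :: T2 → PosA A (wperm X T1 (A.simple j))
  inv : ∀ r < A.n, wperm X (S.map fun a => l.getD a 0) r = wperm X S r

/-- The permutation of the roots is compatible with words. -/
theorem rho_wperm' (hW : WFacts A X)
    (hTρ : ∀ i < A.rank, ∀ r < A.n, bar (X.W i r) = X.W (l.getD i 0) (bar r))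
    {wd : List ℕ} (hwd : ∀ i ∈ wd, i < A.rank) {r : ℕ} (hr : r < A.n) :
    bar (wperm X wd r) = wperm X (wd.map fun a => l.getD a 0) (bar r) := by
  induction wd with
  | nil => rfl
  | cons i wd ih =>
    have hwd' : ∀ j ∈ wd, j < A.rank := fun j hj => hwd j (List.mem_cons_of_mem _ hj)
    show bar (X.W i (wperm X wd r)) = X.W (l.getD i 0) (wperm X (wd.map fun a => l.getD a 0) (bar r))
    rw [hTρ i (hwd i List.mem_cons_self) _ (wperm_lt hW hwd' hr), ih hwd']

variable (hC : CFacts A D X m w) (hR : RFacts A X) (hU : UFacts A w' N ord rnk bz) (hn : 0 < A.n)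
  (hadd : ∀ r < D.nroots, ∀ t u : K, D.x K r t * D.x K r u = D.x K r (t + u))
  (hinj : ∀ r < D.nroots, ∀ t : K, D.x K r t = 1 → t = 0)

include hC hR hU hn hadd hinj in
/-- Elements of the Weyl group commuting with the permutation of the roots are products of
blocks. -/
theorem exists_word_of_comm' (hroot : ∀ r < A.n, bar r < A.n)
    (hl : ∀ i < A.rank, l.getD i 0 < A.rank ∧ bar (A.simple i) = A.simple (l.getD i 0))
    (hTρ : ∀ i < A.rank, ∀ r < A.n, bar (X.W i r) = X.W (l.getD i 0) (bar r))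
    (hposr : ∀ r < A.n, PosA A (bar r) → PosA A r)
    (Bs : List (List ℕ)) (hBs : ∀ S ∈ Bs, WBlk' A X l S) (hcov : ∀ i < A.rank, ∃ S ∈ Bs, i ∈ S)
    (Ws : List (List ℕ)) (hW0 : [] ∈ Ws) (hWlt : ∀ wd ∈ Ws, ∀ i ∈ wd, i < A.rank)
    (hcl : ∀ wd ∈ Ws, ∀ S ∈ Bs, ∃ wd' ∈ Ws, ∀ r < A.n,
      wperm X (wd ++ S.reverse) r = wperm X wd' r)
    {wd : List ℕ} (hwd : ∀ i ∈ wd, i < A.rank)
    (hinv : ∀ r < A.n, wperm X (wd.map fun a => l.getD a 0) r = wperm X wd r) :
    ∃ wd' ∈ Ws, (rs hC hR hU hn).wprod wd = (rs hC hR hU hn).wprod wd' := by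
  have hF := hC.af
  let R := rs hC hR hU hn
  let ρF : Fin A.n → Fin A.n := fun r => ⟨bar r.val, hroot r.val r.isLt⟩
  have hl_lt : ∀ k i, i < A.rank → (fun a => l.getD a 0)^[k] i < A.rank := by
    intro k
    induction k with
    | zero => intro i hi; exact hi
    | succ k ih =>
      intro i hi
      rw [Function.iterate_succ_apply]
      exact ih _ (hl i hi).1
  have key : ∀ n : ℕ, ∀ σ ∈ R.W Set.univ, R.ell' σ = n →
      (∀ r : Fin A.n, σ (ρF r) = ρF (σ r)) → ∃ wd' ∈ Ws, σ = R.wprod wd' := by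
    intro n
    induction n using Nat.strong_induction_on with
    | _ n ih =>
      intro σ hσ hn' hcomm
      by_cases hall : ∀ i < A.rank, R.pos (σ (R.α i))
      · have h1 : ∀ r, R.pos r → R.pos (σ r) := by
          intro r hr
          exact R.pos_lin hσ (J := Set.univ) (fun j _ hj => hall j hj) hr
            (fun k _ hk => absurd (Set.mem_univ k) hk)
        have h2 := Cells2.triv hC hR hU hn hadd hinj σ hσ h1
        exact ⟨[], hW0, by rw [h2]; rfl⟩
      · obtain ⟨i, hi, hneg⟩ : ∃ i, ∃ _ : i < A.rank, ¬ R.pos (σ (R.α i)) := by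
          by_contra hc
          exact hall (fun i hi => by
            by_contra h
            exact hc ⟨i, hi, h⟩)
        obtain ⟨S, hSB, hiS⟩ := hcov i hi
        have hS := hBs S hSB
        -- the permutation preserves the set of fundamental roots made negative
        have hstep : ∀ a < A.rank, ¬ R.pos (σ (R.α a)) →
            ¬ R.pos (σ (R.α (l.getD a 0))) := by
          intro a ha hna hpa
          have e : R.α (l.getD a 0) = ρF (R.α a) := by
            apply Fin.ext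
            show (R.α (l.getD a 0)).val = bar (R.α a).val
            rw [rs_α hC hR hU hn (hl a ha).1, rs_α hC hR hU hn ha, (hl a ha).2]
          rw [e, hcomm] at hpa
          exact hna (hposr _ (σ (R.α a)).isLt hpa)
        have hiter : ∀ k, ¬ R.pos (σ (R.α ((fun a => l.getD a 0)^[k] i))) := by
          intro k
          induction k with
          | zero => exact hneg
          | succ k ihk =>
            rw [Function.iterate_succ_apply']
            exact hstep _ (hl_lt k i hi) ihk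
        have hnegS : ∀ j ∈ S, ¬ R.pos (σ (R.α j)) := by
          intro j hj
          obtain ⟨k, rfl⟩ := hS.orbit i hiS j hj
          exact hiter k
        have hchain : ∀ T1 T2 : List ℕ, ∀ j : ℕ, S = T1 ++ j :: T2 →
            R.pos (R.wprod T1 (R.α j)) := by
          intro T1 T2 j hST
          have hT1 : ∀ i ∈ T1, i < A.rank := fun i hi =>
            hS.lt i (by rw [hST]; exact List.mem_append_left _ hi)
          have hj : j < A.rank := hS.lt j (by rw [hST]; simp)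
          show PosA A (R.wprod T1 (R.α j)).val
          rw [wprod_val hC hR hU hn hT1, rs_α hC hR hU hn hj]
          exact hS.chain T1 T2 j hST
        have hpeel : R.ell' σ = R.ell' (σ * R.wprod S) + S.length :=
          ell_peel_rs R hS.lt hchain σ hσ hnegS
        have hSlen : 0 < S.length := List.length_pos_of_mem hiS
        have hσ' : σ * R.wprod S ∈ R.W Set.univ :=
          Subgroup.mul_mem _ hσ (R.wprod_mem hS.lt)
        have hcomm' : ∀ r : Fin A.n, (σ * R.wprod S) (ρF r) = ρF ((σ * R.wprod S) r) := by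
          intro r
          rw [Equiv.Perm.mul_apply, Equiv.Perm.mul_apply, ← hcomm]
          congr 1
          apply Fin.ext
          show (R.wprod S (ρF r)).val = bar (R.wprod S r).val
          rw [wprod_val hC hR hU hn hS.lt, wprod_val hC hR hU hn hS.lt,
            rho_wperm' hC.wf hTρ hS.lt r.isLt]
          exact (hS.inv _ (hroot r.val r.isLt)).symm
        obtain ⟨wd2, hwd2, e2⟩ := ih (R.ell' (σ * R.wprod S)) (by omega) (σ * R.wprod S) hσ' rfl
          hcomm'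
        obtain ⟨wd3, hwd3, e3⟩ := hcl wd2 hwd2 S hSB
        refine ⟨wd3, hwd3, ?_⟩
        have e4 : σ = R.wprod wd2 * (R.wprod S)⁻¹ := by
          rw [← e2, mul_inv_cancel_right]
        rw [e4, Tw5.wprod_inv' hC hR hU hn hS.lt, ← Tw5.wprod_append' hC hR hU hn]
        apply Tw5.wprod_eq_of_wperm hC hR hU hn _ (hWlt wd3 hwd3) e3
        intro a ha
        rcases List.mem_append.mp ha with h | h
        · exact hWlt wd2 hwd2 a h
        · exact hS.lt a (List.mem_reverse.mp h)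
  refine key _ (R.wprod wd) (R.wprod_mem hwd) rfl ?_
  intro r
  apply Fin.ext
  show (R.wprod wd (ρF r)).val = bar (R.wprod wd r).val
  rw [wprod_val hC hR hU hn hwd, wprod_val hC hR hU hn hwd, rho_wperm' hC.wf hTρ hwd r.isLt]
  exact (hinv _ (hroot r.val r.isLt)).symm

end weyl

/-! ### The number of fixed elements -/

section count

variable {l : List ℕ} {bar lam : ℕ → ℕ} {φ : K →+* K} {σ : ↥(D.group K) →* ↥(D.group K)}

variable (hC : CFacts A D X m w) (hR : RFacts A X) (hU : UFacts A w' N ord rnk bz) (hn : 0 < A.n)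
  (hadd : ∀ r < D.nroots, ∀ t u : K, D.x K r t * D.x K r u = D.x K r (t + u))
  (hinj : ∀ r < D.nroots, ∀ t : K, D.x K r t = 1 → t = 0)
  (hσ : IsSig D bar lam φ σ)
  (hbar : ∀ r < D.nroots, bar r < D.nroots ∧ bar (D.neg r) = D.neg (bar r) ∧
    lam (D.neg r) = lam r)
  (hneg : ∀ r < D.nroots, ∀ t : K, (-t) ^ lam r = -(t ^ lam r))
  (hpos : ∀ r < A.n, PosA A r → PosA A (bar r))
  (hroot : ∀ r < A.n, bar r < A.n)
  (hl : ∀ i < A.rank, l.getD i 0 < A.rank ∧ bar (A.simple i) = A.simple (l.getD i 0))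
  (hl' : ∀ i < A.rank, l.getD i 0 < A.rank ∧ bar (D.simple i) = D.simple (l.getD i 0))
  (hTρ : ∀ i < A.rank, ∀ r < A.n, bar (X.W i r) = X.W (l.getD i 0) (bar r))
  (hposr : ∀ r < A.n, PosA A (bar r) → PosA A r)
  (Bs : List (List ℕ)) (hBs : ∀ S ∈ Bs, WBlk' A X l S) (hcov : ∀ i < A.rank, ∃ S ∈ Bs, i ∈ S)
  (Ws : List (List ℕ)) (hW0 : [] ∈ Ws) (hWlt : ∀ wd ∈ Ws, ∀ i ∈ wd, i < A.rank)
  (hcl : ∀ wd ∈ Ws, ∀ S ∈ Bs, ∃ wd' ∈ Ws, ∀ i < A.rank,
    wperm X (wd ++ S.reverse) (A.simple i) = wperm X wd' (A.simple i))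

include hR hU hn hadd hinj hσ hbar hneg hpos hroot hl hl' hTρ hposr hBs hcov hW0 hWlt hcl in
/-- every fixed element lies in the cell of one of the words -/
theorem exists_fix_cell {g : GL D.Idx K} (hfix : Sg σ g g) : ∃ wd ∈ Ws, g ∈ cell hC K wd := by
  obtain ⟨wd, hwd, hc⟩ := exists_cell hC hadd hinj hfix.mem
  have hwd' : ∀ i ∈ wd.map (fun i => l.getD i 0), i < A.rank := by
    intro i hi
    obtain ⟨j, hj, rfl⟩ := List.mem_map.mp hi
    exact (hl j (hwd j hj)).1
  have hc' := sg_cell_raw hC hσ hbar hneg hpos hl' hwd hc hfix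
  have hw := wprod_eq_of_meet hC hR hU hn hadd hinj hwd' hwd hc' hc
  have hinv : ∀ r < A.n, wperm X (wd.map fun a => l.getD a 0) r = wperm X wd r := by
    intro r hr
    have := congrArg (fun τ : Equiv.Perm (Fin A.n) => (τ ⟨r, hr⟩).val) hw
    beta_reduce at this
    rwa [wprod_val hC hR hU hn hwd', wprod_val hC hR hU hn hwd] at this
  obtain ⟨wd', hwd'mem, e⟩ := exists_word_of_comm' hC hR hU hn hadd hinj hroot hl hTρ hposr Bs
    hBs hcov Ws hW0 hWlt
    (by
      intro wd1 h1 S hS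
      obtain ⟨wd2, h2, e⟩ := hcl wd1 h1 S hS
      refine ⟨wd2, h2, ?_⟩
      have hlt1 : ∀ i ∈ wd1 ++ S.reverse, i < A.rank := by
        intro i hi
        rcases List.mem_append.mp hi with hi | hi
        · exact hWlt wd1 h1 i hi
        · exact (hBs S hS).lt i (List.mem_reverse.mp hi)
      have hw2 := Tw7.wprod_eq_of_simple hC hR hU hn hadd hinj hlt1 (hWlt wd2 h2) e
      intro r hr
      have := congrArg (fun τ : Equiv.Perm (Fin A.n) => (τ ⟨r, hr⟩).val) hw2
      beta_reduce at this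
      rwa [wprod_val hC hR hU hn hlt1, wprod_val hC hR hU hn (hWlt wd2 h2)] at this)
    hwd hinv
  refine ⟨wd', hwd'mem, ?_⟩
  rw [cell_eq_of_wprod hC hR hU hn hadd hinj hwd (hWlt wd' hwd'mem) e]
  exact hc

include hR hU hn hadd hinj hσ hbar hneg hpos hroot hl hl' hTρ hposr hBs hcov hW0 hWlt hcl in
/-- The number of fixed elements as a sum over the words of the twisted Weyl group. -/
theorem card_fix [Fintype K] (hWred : ∀ wd ∈ Ws, RedT A X wd)
    (hWstab : ∀ wd ∈ Ws, Stab hC.af σ wd)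
    (hdis : (Ws.map fun wd => (List.range A.rank).map
      fun i => wperm X wd (A.simple i)).Nodup) :
    Nat.card {g : GL D.Idx K | Sg σ g g} =
      (Ws.map fun wd => Nat.card (FixSet hC.af σ wd)).sum *
        Nat.card {g : GL D.Idx K | Sg σ g g ∧ g ∈ D.borelSubgroup K} := by
  classical
  have hex : ∀ g : GL D.Idx K, Sg σ g g → ∃ wd ∈ Ws, g ∈ cell hC K wd := fun g hg =>
    exists_fix_cell hC hR hU hn hadd hinj hσ hbar hneg hpos hroot hl hl' hTρ hposr Bs hBs hcov
      Ws hW0 hWlt hcl hg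
  have huniq : ∀ wd ∈ Ws, ∀ wd' ∈ Ws, ∀ g : GL D.Idx K, g ∈ cell hC K wd →
      g ∈ cell hC K wd' → wd = wd' := by
    intro wd hwd wd' hwd' g h1 h2
    have hw := wprod_eq_of_meet hC hR hU hn hadd hinj (hWlt wd hwd) (hWlt wd' hwd') h1 h2
    apply List.inj_on_of_nodup_map hdis hwd hwd'
    apply List.map_congr_left
    intro i hi
    have hi' : i < A.rank := List.mem_range.mp hi
    have hs : A.simple i < A.n := hC.af.sfacts.simple_lt i hi'
    have := congrArg (fun τ : Equiv.Perm (Fin A.n) => (τ ⟨A.simple i, hs⟩).val) hw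
    beta_reduce at this
    rwa [wprod_val hC hR hU hn (hWlt wd hwd), wprod_val hC hR hU hn (hWlt wd' hwd')] at this
  have hnd : Ws.Nodup := List.Nodup.of_map _ hdis
  have e : {g : GL D.Idx K | Sg σ g g} ≃
      Σ wd : ↥Ws.toFinset, {g : GL D.Idx K | Sg σ g g ∧ g ∈ cell hC K wd.1} :=
    { toFun := fun g => ⟨⟨Classical.choose (hex g.1 g.2),
          List.mem_toFinset.mpr (Classical.choose_spec (hex g.1 g.2)).1⟩,
        ⟨g.1, g.2, (Classical.choose_spec (hex g.1 g.2)).2⟩⟩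
      invFun := fun p => ⟨p.2.1, p.2.2.1⟩
      left_inv := fun g => rfl
      right_inv := by
        rintro ⟨⟨wd, hwd⟩, ⟨g, hg, hc⟩⟩
        have hwd' : wd ∈ Ws := List.mem_toFinset.mp hwd
        have h1 := Classical.choose_spec (hex g hg)
        have h2 : Classical.choose (hex g hg) = wd := huniq _ h1.1 wd hwd' g h1.2 hc
        exact Tw7.sigma_cell_ext
          (fun wd : ↥Ws.toFinset => {g : GL D.Idx K | Sg σ g g ∧ g ∈ cell hC K wd.1})
          (Subtype.ext h2) g _ _ }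
  rw [Nat.card_congr e, Nat.card_sigma,
    Finset.sum_coe_sort Ws.toFinset
      (fun wd => Nat.card {g : GL D.Idx K | Sg σ g g ∧ g ∈ cell hC K wd}),
    List.sum_toFinset _ hnd, ← List.sum_map_mul_right]
  congr 1
  apply List.map_congr_left
  intro wd hwd
  exact card_inter_cell' hC hadd hinj hσ hbar hneg hpos wd (hWred wd hwd) (hWstab wd hwd)

end count

end Cfsg.Agent.Lib.Helper19.TwRel2
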