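import Mathlib
import Cfsg.Agent.Lib.Helper19.TwRel2
import Cfsg.Agent.Lib.Helper19.TwF4V
import Cfsg.Agent.S1110

set_option autoImplicit false
set_option linter.unusedSimpArgs false
set_option linter.unusedSectionVars false
set_option linter.unusedVariables false

/-!
The twisted group of type F4 in characteristic 2 is the group of fixed points of the twisting
endomorphism, and its order.
-/

namespace Cfsg.Agent.Lib.Helper19.TwF4O

open Cfsg Cfsg.Lie Cfsg.Agent.Lib.Helper18 Cfsg.Agent.Lib.Helper18.BNPairC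
  Cfsg.Agent.Lib.Helper18.Sub Cfsg.Agent.Lib.Helper18.WGroup Cfsg.Agent.Lib.Helper18.Long
  Cfsg.Agent.Lib.Helper18.Cells Cfsg.Agent.Lib.Helper18.Cells2 Cfsg.Agent.Lib.Helper18.Tw1
  Cfsg.Agent.Lib.Helper18.Tw2 Cfsg.Agent.Lib.Helper18.Tw3 Cfsg.Agent.Lib.Helper18.RootSys
  Cfsg.Agent.Lib.Helper18.UOrd Cfsg.Agent.Lib.Helper18.Fast Cfsg.Agent.Lib.Helper18.AllRoots
  Cfsg.Agent.Lib.Helper18.Weyl
  Cfsg.Agent.Lib.Helper19.TwCore
  Cfsg.Agent.Lib.Helper19.TwPerf Cfsg.Agent.Lib.Helper19.TwAb Cfsg.Agent.Lib.Helper19.TwSig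
  Cfsg.Agent.Lib.Helper19.TwRel Cfsg.Agent.Lib.Helper19.TwRel2 Cfsg.Agent.Lib.Helper19.TwF4U
  Cfsg.Agent.Lib.Helper19.TwF4V

/-! ### Table facts -/

/-- the permutation of the fundamental roots -/
def l4 : List ℕ := [3, 2, 1, 0]

theorem hroot4 : ∀ r < FTabF4.fd.n, GraphAutF4.gd.bar r < FTabF4.fd.n := by decide +kernel

theorem hlA : ∀ i < FTabF4.fd.rank, l4.getD i 0 < FTabF4.fd.rank ∧
    GraphAutF4.gd.bar (FTabF4.fd.simple i) = FTabF4.fd.simple (l4.getD i 0) := by decide +kernel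

theorem hlD : ∀ i < FTabF4.fd.rank, l4.getD i 0 < FTabF4.fd.rank ∧
    GraphAutF4.gd.bar (chevF4.simple i) = chevF4.simple (l4.getD i 0) := by decide +kernel

theorem hTρ4 : ∀ i < FTabF4.fd.rank, ∀ r < FTabF4.fd.n,
    GraphAutF4.gd.bar (WTabF4.X.W i r) = WTabF4.X.W (l4.getD i 0) (GraphAutF4.gd.bar r) := by
  decide +kernel

theorem hposrC : ∀ r < 48, posC FTabF4.fd (GraphAutF4.gd.bar r) = true → posC FTabF4.fd r = true := by
  decide +kernel

theorem hposr4 : ∀ r < FTabF4.fd.n, PosA FTabF4.fd (GraphAutF4.gd.bar r) → PosA FTabF4.fd r := by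
  intro r hr hp
  exact (posC_iff _).mp (hposrC r hr ((posC_iff _).mpr hp))

/-- Boolean form of the chain condition of a block -/
def chainB (A : FData) (X : WD) : List ℕ → List ℕ → Bool
  | _, [] => true
  | pre, j :: T => posC A (wperm X pre (A.simple j)) && chainB A X (pre ++ [j]) T

theorem chain_of_chainB {A : FData} {X : WD} (S : List ℕ) :
    ∀ pre : List ℕ, chainB A X pre S = true → ∀ T1 T2 : List ℕ, ∀ j : ℕ, S = T1 ++ j :: T2 →
      PosA A (wperm X (pre ++ T1) (A.simple j)) := by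
  induction S with
  | nil =>
    intro pre _ T1 T2 j h
    simp at h
  | cons j0 S ih =>
    intro pre h T1 T2 j hS
    unfold chainB at h
    rw [Bool.and_eq_true] at h
    cases T1 with
    | nil =>
      rw [List.nil_append, List.cons.injEq] at hS
      rw [List.append_nil, ← hS.1]
      exact (posC_iff _).mp h.1
    | cons a T1 =>
      rw [List.cons_append, List.cons.injEq] at hS
      have h1 := ih (pre ++ [j0]) h.2 T1 T2 j hS.2
      rw [List.append_assoc, List.singleton_append, hS.1] at h1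
      exact h1

theorem blkA' : WBlk' FTabF4.fd WTabF4.X l4 [0, 3] where
  lt := by decide
  orbit := by
    intro i hi j hj
    simp only [List.mem_cons, List.not_mem_nil, or_false] at hi hj
    rcases hi with rfl | rfl <;> rcases hj with rfl | rfl
    · exact ⟨0, rfl⟩
    · exact ⟨1, rfl⟩
    · exact ⟨1, rfl⟩
    · exact ⟨0, rfl⟩
  chain := by
    intro T1 T2 j h
    have := chain_of_chainB (A := FTabF4.fd) (X := WTabF4.X) [0, 3] [] (by decide +kernel) T1 T2 j h
    rwa [List.nil_append] at this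
  inv := by decide +kernel

theorem blkB' : WBlk' FTabF4.fd WTabF4.X l4 [1, 2, 1, 2] where
  lt := by decide
  orbit := by
    intro i hi j hj
    simp only [List.mem_cons, List.not_mem_nil, or_false] at hi hj
    have hi' : i = 1 ∨ i = 2 := by tauto
    have hj' : j = 1 ∨ j = 2 := by tauto
    rcases hi' with rfl | rfl <;> rcases hj' with rfl | rfl
    · exact ⟨0, rfl⟩
    · exact ⟨1, rfl⟩
    · exact ⟨1, rfl⟩
    · exact ⟨0, rfl⟩
  chain := by
    intro T1 T2 j h
    have := chain_of_chainB (A := FTabF4.fd) (X := WTabF4.X) [1, 2, 1, 2] [] (by decide +kernel)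
      T1 T2 j h
    rwa [List.nil_append] at this
  inv := by decide +kernel

/-- the two blocks -/
def Bs4 : List (List ℕ) := [[0, 3], [1, 2, 1, 2]]

theorem hBs4 : ∀ S ∈ Bs4, WBlk' FTabF4.fd WTabF4.X l4 S := by
  intro S hS
  simp only [Bs4, List.mem_cons, List.not_mem_nil, or_false] at hS
  rcases hS with rfl | rfl
  · exact blkA'
  · exact blkB'

theorem hcov4 : ∀ i < FTabF4.fd.rank, ∃ S ∈ Bs4, i ∈ S := by decide

/-- the sixteen lists of blocks -/
def bls : List (List Bool) :=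
  [[], [true], [false], [true, false], [false, true], [true, false, true], [false, true, false],
    [true, false, true, false], [false, true, false, true], [true, false, true, false, true],
    [false, true, false, true, false], [true, false, true, false, true, false],
    [false, true, false, true, false, true], [true, false, true, false, true, false, true],
    [false, true, false, true, false, true, false],
    [true, false, true, false, true, false, true, false]]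

/-- the sixteen words -/
def Ws16 : List (List ℕ) := bls.map flat

theorem hW0 : [] ∈ Ws16 := by decide

theorem hWlt : ∀ wd ∈ Ws16, ∀ i ∈ wd, i < FTabF4.fd.rank := by decide

theorem hredB : bls.all (fun bl => Tw4.redB FTabF4.fd WTabF4.X (flat bl)) = true := by
  decide +kernel

theorem hWred {bl : List Bool} (h : bl ∈ bls) : RedT FTabF4.fd WTabF4.X (flat bl) :=
  Tw4.redT_of_redB (List.all_eq_true.mp hredB bl h)

theorem hcl4 : ∀ wd ∈ Ws16, ∀ S ∈ Bs4, ∃ wd' ∈ Ws16, ∀ i < FTabF4.fd.rank,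
    wperm WTabF4.X (wd ++ S.reverse) (FTabF4.fd.simple i) =
      wperm WTabF4.X wd' (FTabF4.fd.simple i) := by
  decide +kernel

theorem hdis4 : (Ws16.map fun wd => (List.range FTabF4.fd.rank).map
    fun i => wperm WTabF4.X wd (FTabF4.fd.simple i)).Nodup := by
  decide +kernel

theorem cnts : bls.map cnt = [0, 1, 2, 3, 3, 4, 5, 6, 6, 7, 8, 9, 9, 10, 11, 12] := by decide

variable {K : Type*} [Field K]

/-! ### The fixed elements of the torus -/

theorem card_H_fix_le [Fintype K] {φ : K →+* K} {σ : ↥(chevF4.group K) →* ↥(chevF4.group K)}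
    (hσ : IsSig chevF4 GraphAutF4.gd.bar GraphAutF4.gd.lam φ σ) :
    Nat.card ↥(chevF4.diagonalSubgroup K ⊓ fixG σ) ≤ Nat.card (Kˣ × Kˣ) := by
  have hC := CAll.cfF4
  have hF := hC.af
  have hd := HOrderTab.hokF4
  rw [← FTabF4.fd_eq] at hd
  have hex : ∀ g : ↥(chevF4.diagonalSubgroup K ⊓ fixG σ),
      ∃ cu : Fin FTabF4.fd.rank → Kˣ, HOrder.torHom chevF4 FTabF4.fd K cu = g.1 := by
    intro g
    have h1 : g.1 ∈ chevF4.diagonalSubgroup K := g.2.1
    have h2 : g.1 ∈ (HOrder.torHom chevF4 FTabF4.fd K).range := by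
      rw [HOrder.torHom_range hF]
      exact h1
    exact MonoidHom.mem_range.mp h2
  choose cu hcu using hex
  have hfix : ∀ g, HOrder.torHom chevF4 FTabF4.fd K (cu g) ∈ TwSig.fixG σ := by
    intro g
    rw [hcu g]
    exact g.2.2
  have h24 : ∀ g, Torus.chi FTabF4.fd (HOrder.extP FTabF4.fd.rank (cu g)) 24 =
      φ (Torus.chi FTabF4.fd (HOrder.extP FTabF4.fd.rank (cu g)) 33) ^ GraphAutF4.gd.lam 33 := by
    intro g
    have := Cfsg.Agent.S1110.sig_chi hF hσ Cfsg.Agent.S1110.x_inj (cu g) (hfix g) (r := 33)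
      (by decide) (by decide)
    rwa [b33] at this
  have h25 : ∀ g, Torus.chi FTabF4.fd (HOrder.extP FTabF4.fd.rank (cu g)) 25 =
      φ (Torus.chi FTabF4.fd (HOrder.extP FTabF4.fd.rank (cu g)) 27) ^ GraphAutF4.gd.lam 27 := by
    intro g
    have := Cfsg.Agent.S1110.sig_chi hF hσ Cfsg.Agent.S1110.x_inj (cu g) (hfix g) (r := 27)
      (by decide) (by decide)
    rwa [b27] at this
  apply Nat.card_le_card_of_injective
    (fun g => (HOrder.psi (HOrder.cartanZ FTabF4.fd) (cu g) ⟨0, by decide⟩,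
      HOrder.psi (HOrder.cartanZ FTabF4.fd) (cu g) ⟨1, by decide⟩))
  intro g g' hgg
  simp only [Prod.mk.injEq] at hgg
  obtain ⟨h0, h1⟩ := hgg
  have c33 : Torus.chi FTabF4.fd (HOrder.extP FTabF4.fd.rank (cu g)) 33 =
      Torus.chi FTabF4.fd (HOrder.extP FTabF4.fd.rank (cu g')) 33 := by
    rw [HOrder.chi_extP (cu g) (by decide : 33 < FTabF4.fd.n),
      HOrder.chi_extP (cu g') (by decide : 33 < FTabF4.fd.n)]
    exact congrArg Units.val h0
  have c27 : Torus.chi FTabF4.fd (HOrder.extP FTabF4.fd.rank (cu g)) 27 =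
      Torus.chi FTabF4.fd (HOrder.extP FTabF4.fd.rank (cu g')) 27 := by
    rw [HOrder.chi_extP (cu g) (by decide : 27 < FTabF4.fd.n),
      HOrder.chi_extP (cu g') (by decide : 27 < FTabF4.fd.n)]
    exact congrArg Units.val h1
  apply Subtype.ext
  rw [← hcu g, ← hcu g']
  apply Cfsg.Agent.S1110.tor_eq_of_chi hF hd
  intro j hj
  have hj4 : j < 4 := hj
  interval_cases j
  · rw [s0]
    exact c33
  · rw [s1]
    exact c27
  · rw [s2, h25, h25, c27]
  · rw [s3, h24, h24, c33]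

/-! ### The twisted group is the group of fixed points; its order -/

theorem sum_pow (q : ℕ) : (bls.map fun bl => q ^ cnt bl).sum =
    (1 + q) * (1 + q ^ 2) * (1 + q ^ 3) * (1 + q ^ 6) := by
  have e : (bls.map fun bl => q ^ cnt bl) = (bls.map cnt).map (fun k => q ^ k) := by
    rw [List.map_map]
    rfl
  rw [e, cnts]
  simp only [List.map_cons, List.map_nil, List.sum_cons, List.sum_nil]
  ring

/-- the twisted group of type F4 is the group of fixed points of the twisting endomorphism, and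
its order -/
theorem tw_eq_fix [Fintype K] {m : ℕ} (hK : Fintype.card K = 2 ^ (2 * m + 1)) {φ : K →+* K}
    {σ : ↥(chevF4.group K) →* ↥(chevF4.group K)} (hφ : ∀ x : K, φ x = x ^ 2 ^ m)
    (hσ : IsSig chevF4 GraphAutF4.gd.bar GraphAutF4.gd.lam φ σ) :
    twistedF4 K (2 ^ m) = fixG σ ∧
      Nat.card ↥(twistedF4 K (2 ^ m)) =
        (1 + 2 ^ (2 * m + 1)) * (1 + (2 ^ (2 * m + 1)) ^ 2) * (1 + (2 ^ (2 * m + 1)) ^ 3) *
          (1 + (2 ^ (2 * m + 1)) ^ 6) * ((2 ^ (2 * m + 1)) ^ 12 * (2 ^ (2 * m + 1) - 1) ^ 2) := by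
  have hG1 := TwSigF4.f4_fix hK hφ hσ
  have h2n : ((2 : ℕ) : K) = 0 := natCast_eq_zero_of_card Nat.prime_two hK
  have h2 : (2 : K) = 0 := by exact_mod_cast h2n
  have hfrob2 : ∀ x y : K, (x + y) ^ 2 = x ^ 2 + y ^ 2 :=
    frob_add (n := 2 * m + 1) (by omega) hK
  have hfrob' : ∀ x y : K, (x + y) ^ (2 * 2 ^ m) = x ^ (2 * 2 ^ m) + y ^ (2 * 2 ^ m) := by
    have e1 : 2 * 2 ^ m = 2 ^ (m + 1) := by ring
    rw [e1]
    exact frob_pow_add hfrob2 (m + 1)
  obtain ⟨hnA, hnB⟩ := nw_blocks_mem (m := m) hK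
  -- the unipotent part
  have hnmem : nw hF4 K (plain (flat bl0)) ∈ twistedF4 K (2 ^ m) :=
    nw_flat_mem _ hnA hnB bl0
  have hn0 : Sg σ (nw hF4 K (plain (flat bl0))) (nw hF4 K (plain (flat bl0))) :=
    sg_fix_iff.mp (hG1 hnmem)
  have hUle : chevF4.posUnipotent K ⊓ fixG σ ≤ twistedF4 K (2 ^ m) :=
    U_fix_le CAll.cfF4 hadd4 hinj4 ChainAll.rF4 UAll.uF4 (by decide) _ _ red0 len0 hn0 hnmem
      (fix_flat_mem hσ h2 _ hφ hG1 hnA hnB hfrob' bl0 red0)
  have hUcard : Nat.card ↥(chevF4.posUnipotent K ⊓ fixG σ) = (2 ^ (2 * m + 1)) ^ 12 := by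
    have heq : chevF4.posUnipotent K ⊓ twistedF4 K (2 ^ m) = chevF4.posUnipotent K ⊓ fixG σ :=
      le_antisymm (inf_le_inf_left _ hG1) (le_inf inf_le_left hUle)
    rw [← heq]
    exact card_U_tw hK
  -- the torus part
  have hHcard' : Nat.card (Kˣ × Kˣ) = (2 ^ (2 * m + 1) - 1) ^ 2 := by
    classical
    rw [Nat.card_prod, Nat.card_eq_fintype_card, Fintype.card_units, hK]
    ring
  have hHtw := Cfsg.Agent.S1110.result hK
  have hHeq : chevF4.diagonalSubgroup K ⊓ twistedF4 K (2 ^ m) =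
      chevF4.diagonalSubgroup K ⊓ fixG σ :=
    Subgroup.eq_of_le_of_card_ge (inf_le_inf_left _ hG1) (by
      rw [hHtw, ← hHcard']
      exact card_H_fix_le hσ)
  have hHcard : Nat.card ↥(chevF4.diagonalSubgroup K ⊓ fixG σ) = (2 ^ (2 * m + 1) - 1) ^ 2 := by
    rw [← hHeq]
    exact hHtw
  -- the cells
  have hneg := hneg4 (K := K) h2
  have hstab : ∀ wd ∈ Ws16, Stab CAll.cfF4.af σ wd := by
    intro wd hwd
    obtain ⟨bl, hbl, rfl⟩ := List.mem_map.mp hwd
    exact stab_flat hσ h2 (hG1 hnB) bl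
  have hred : ∀ wd ∈ Ws16, RedT FTabF4.fd WTabF4.X wd := by
    intro wd hwd
    obtain ⟨bl, hbl, rfl⟩ := List.mem_map.mp hwd
    exact hWred hbl
  have hfixle : fixG σ ≤ twistedF4 K (2 ^ m) := by
    intro g hg
    have hfix := sg_fix_iff.mp hg
    obtain ⟨wd, hwd, hc⟩ := exists_fix_cell CAll.cfF4 ChainAll.rF4 UAll.uF4 (by decide) hadd4
      hinj4 hσ TwSigF4.hbar hneg hpos4 hroot4 hlA hlD hTρ4 hposr4 Bs4 hBs4 hcov4 Ws16 hW0 hWlt
      hcl4 hfix
    obtain ⟨z, hz, b, sb, hb, rfl⟩ := fix_cell_decomp CAll.cfF4 hadd4 hinj4 hσ TwSigF4.hbar hneg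
      hpos4 wd (hred wd hwd) (hstab wd hwd) hfix hc
    obtain ⟨u, h, ⟨hu, su⟩, ⟨hh, sh⟩, rfl⟩ :=
      fix_B_decomp CAll.cfF4 hadd4 hσ TwSigF4.hbar hneg hpos4 sb hb
    obtain ⟨bl, hbl, rfl⟩ := List.mem_map.mp hwd
    have hz' : z ∈ twistedF4 K (2 ^ m) :=
      fix_flat_mem hσ h2 _ hφ hG1 hnA hnB hfrob' bl (hWred hbl) hz
    have hu' : u ∈ twistedF4 K (2 ^ m) := hUle ⟨hu, sg_fix_iff.mpr su⟩
    have hh' : h ∈ twistedF4 K (2 ^ m) := by
      have h5 : h ∈ chevF4.diagonalSubgroup K ⊓ twistedF4 K (2 ^ m) := by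
        rw [hHeq]
        exact ⟨hh, sg_fix_iff.mpr sh⟩
      exact h5.2
    exact Subgroup.mul_mem _ hz' (Subgroup.mul_mem _ hu' hh')
  have hGeq : twistedF4 K (2 ^ m) = fixG σ := le_antisymm hG1 hfixle
  refine ⟨hGeq, ?_⟩
  -- the count
  have hcount := card_fix CAll.cfF4 ChainAll.rF4 UAll.uF4 (by decide) hadd4 hinj4 hσ TwSigF4.hbar
    hneg hpos4 hroot4 hlA hlD hTρ4 hposr4 Bs4 hBs4 hcov4 Ws16 hW0 hWlt hcl4 hred hstab hdis4
  rw [card_inter_B' CAll.cfF4 hadd4 hσ TwSigF4.hbar hneg hpos4, hUcard, hHcard] at hcount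
  have hsum : (Ws16.map fun wd => Nat.card (FixSet CAll.cfF4.af σ wd)).sum =
      (bls.map fun bl => (2 ^ (2 * m + 1)) ^ cnt bl).sum := by
    unfold Ws16
    rw [List.map_map]
    congr 1
    apply List.map_congr_left
    intro bl hbl
    show Nat.card (FixSet hF4 σ (flat bl)) = _
    rw [card_fix_flat hσ h2 _ hφ hG1 hnA hnB hfrob' bl (hWred hbl),
      Nat.card_eq_fintype_card (α := K), hK]
  rw [hsum, sum_pow] at hcount
  rw [← hcount, hGeq]
  exact Nat.card_congr (Equiv.subtypeEquivRight (fun g => sg_fix_iff))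

/-- the order of the twisted group of type F4 -/
theorem card_tw [Fintype K] {m : ℕ} (hK : Fintype.card K = 2 ^ (2 * m + 1)) :
    Nat.card ↥(twistedF4 K (2 ^ m)) =
      (2 ^ (2 * m + 1)) ^ 12 * (2 ^ (2 * m + 1) - 1) * ((2 ^ (2 * m + 1)) ^ 3 + 1) *
        ((2 ^ (2 * m + 1)) ^ 4 - 1) * ((2 ^ (2 * m + 1)) ^ 6 + 1) := by
  obtain ⟨φ, σ, hφ, hσ⟩ := TwSigF4.exists_sig hK
  rw [(tw_eq_fix hK hφ hσ).2]
  obtain ⟨r, hr⟩ : ∃ r : ℕ, 2 ^ (2 * m + 1) = r + 1 :=
    ⟨2 ^ (2 * m + 1) - 1, by have := Nat.one_le_two_pow (n := 2 * m + 1); omega⟩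
  rw [hr]
  have h4 : (r + 1) ^ 4 - 1 = r * (r + 2) * ((r + 1) ^ 2 + 1) := by
    have : (r + 1) ^ 4 = r * (r + 2) * ((r + 1) ^ 2 + 1) + 1 := by ring
    omega
  rw [h4, Nat.add_sub_cancel]
  ring

end Cfsg.Agent.Lib.Helper19.TwF4O
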