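import Mathlib
import Cfsg.Agent.Lib.Helper19.TwF4O
import Cfsg.Agent.Lib.Helper18.TwBN2

set_option autoImplicit false
set_option linter.unusedSimpArgs false
set_option linter.unusedSectionVars false
set_option linter.unusedVariables false

/-!
The `(B, N)`-pair of the twisted group of type F4 in characteristic 2, with `B¹ = B ∩ G¹` and
`N¹ = N ∩ G¹`.
-/

namespace Cfsg.Agent.Lib.Helper19.TwF4B

open Cfsg Cfsg.Lie Cfsg.Agent.Lib.Helper18 Cfsg.Agent.Lib.Helper18.BNPairC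
  Cfsg.Agent.Lib.Helper18.Sub Cfsg.Agent.Lib.Helper18.WGroup Cfsg.Agent.Lib.Helper18.Long
  Cfsg.Agent.Lib.Helper18.Cells Cfsg.Agent.Lib.Helper18.Cells2 Cfsg.Agent.Lib.Helper18.Tw1
  Cfsg.Agent.Lib.Helper18.Tw2 Cfsg.Agent.Lib.Helper18.Tw3 Cfsg.Agent.Lib.Helper18.RootSys
  Cfsg.Agent.Lib.Helper18.UOrd Cfsg.Agent.Lib.Helper18.Fast Cfsg.Agent.Lib.Helper18.AllRoots
  Cfsg.Agent.Lib.Helper18.Weyl Cfsg.Agent.Lib.Helper18.Core Cfsg.Agent.Lib.Helper18.Mono
  Cfsg.Agent.Lib.Helper18.Norm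
  Cfsg.Agent.Lib.Helper19.TwCore
  Cfsg.Agent.Lib.Helper19.TwPerf Cfsg.Agent.Lib.Helper19.TwAb Cfsg.Agent.Lib.Helper19.TwSig
  Cfsg.Agent.Lib.Helper19.TwRel Cfsg.Agent.Lib.Helper19.TwRel2 Cfsg.Agent.Lib.Helper19.TwF4U
  Cfsg.Agent.Lib.Helper19.TwF4V Cfsg.Agent.Lib.Helper19.TwF4O

/-! ### Table facts -/

/-- the sub-words of the first block stable under the permutation of the roots -/
theorem subA : ∀ T ∈ [0, 3].sublists,
    (∀ r < FTabF4.fd.n, wperm WTabF4.X (T.map fun i => l4.getD i 0) r = wperm WTabF4.X T r) →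
    (∀ r < FTabF4.fd.n, wperm WTabF4.X T r = wperm WTabF4.X [] r) ∨
      (∀ r < FTabF4.fd.n, wperm WTabF4.X T r = wperm WTabF4.X [0, 3] r) := by
  decide +kernel

/-- the sub-words of the second block stable under the permutation of the roots -/
theorem subB : ∀ T ∈ [1, 2, 1, 2].sublists,
    (∀ r < FTabF4.fd.n, wperm WTabF4.X (T.map fun i => l4.getD i 0) r = wperm WTabF4.X T r) →
    (∀ r < FTabF4.fd.n, wperm WTabF4.X T r = wperm WTabF4.X [] r) ∨
      (∀ r < FTabF4.fd.n, wperm WTabF4.X T r = wperm WTabF4.X [1, 2, 1, 2] r) := by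
  decide +kernel

theorem sqA : ∀ r < FTabF4.fd.n, wperm WTabF4.X ([0, 3] ++ [0, 3]) r = r := by decide +kernel

theorem sqB : ∀ r < FTabF4.fd.n, wperm WTabF4.X ([1, 2, 1, 2] ++ [1, 2, 1, 2]) r = r := by
  decide +kernel

theorem neAB : wperm WTabF4.X [0, 3] 33 ≠ wperm WTabF4.X [1, 2, 1, 2] 33 := by decide +kernel

variable {K : Type*} [Field K]

/-! ### Ambient facts -/

/-- words with the same root permutation: the products of the `n_i` differ by an element of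
`H` -/
theorem nw_H_of_wperm {T S : List ℕ} (hT : ∀ i ∈ T, i < FTabF4.fd.rank)
    (hS : ∀ i ∈ S, i < FTabF4.fd.rank)
    (h : ∀ r < FTabF4.fd.n, wperm WTabF4.X T r = wperm WTabF4.X S r) :
    nw hF4 K (plain T) * (nw hF4 K (plain S))⁻¹ ∈ chevF4.diagonalSubgroup K := by
  rw [← nw_cmp hF4]
  apply mem_H_of_id CAll.cfF4 ChainAll.rF4 UAll.uF4 (by decide) hadd4 hinj4 (cmp_lt hS hT)
  intro r hr
  rw [cmp_fst, wperm_append,
    h _ (wperm_lt CAll.cfF4.wf (fun i hi => hS i (List.mem_reverse.mp hi)) hr)]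
  exact wperm_reverse' CAll.cfF4.wf hS hr

theorem dc_of_H {n1 n2 n g : GL chevF4.Idx K} (h : n1 * n2⁻¹ ∈ chevF4.diagonalSubgroup K)
    (hg : g ∈ DoubleCoset.doubleCoset (n1 * n) (chevF4.borelSubgroup K : Set (GL chevF4.Idx K))
      (chevF4.borelSubgroup K)) :
    g ∈ DoubleCoset.doubleCoset (n2 * n) (chevF4.borelSubgroup K : Set (GL chevF4.Idx K))
      (chevF4.borelSubgroup K) := by
  rw [DoubleCoset.mem_doubleCoset] at hg ⊢
  obtain ⟨b1, hb1, b2, hb2, rfl⟩ := hg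
  exact ⟨b1 * (n1 * n2⁻¹), Subgroup.mul_mem _ hb1 (le_sup_right (a := chevF4.posUnipotent K) h),
    b2, hb2, by group⟩

theorem sqH {W : List ℕ} (hW : ∀ i ∈ W, i < FTabF4.fd.rank)
    (h : ∀ r < FTabF4.fd.n, wperm WTabF4.X (W ++ W) r = r) :
    nw hF4 K (plain W) * nw hF4 K (plain W) ∈ chevF4.diagonalSubgroup K := by
  have hlt : ∀ p ∈ plain (W ++ W), p.1 < FTabF4.fd.rank := plain_lt (by
    intro i hi
    rcases List.mem_append.mp hi with h | h <;> exact hW i h)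
  have h1 := mem_H_of_id (F := K) CAll.cfF4 ChainAll.rF4 UAll.uF4 (by decide) hadd4 hinj4 hlt (by
    rw [plain_fst]
    exact h)
  rwa [Cfsg.Agent.Lib.Helper18.Cells.plain_append, nw_append] at h1

theorem neAB' (h : (nw hF4 K (plain [0, 3]))⁻¹ * nw hF4 K (plain [1, 2, 1, 2]) ∈
    chevF4.borelSubgroup K) : False := by
  have h1 : nw hF4 K (plain [1, 2, 1, 2]) ∈ cell CAll.cfF4 K [1, 2, 1, 2] := by
    unfold cell
    rw [DoubleCoset.mem_doubleCoset]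
    exact ⟨1, Subgroup.one_mem _, 1, Subgroup.one_mem _, by group⟩
  have h2 : nw hF4 K (plain [1, 2, 1, 2]) ∈ cell CAll.cfF4 K [0, 3] := by
    unfold cell
    rw [DoubleCoset.mem_doubleCoset]
    exact ⟨1, Subgroup.one_mem _, _, h, by group⟩
  have hw := wprod_eq_of_meet CAll.cfF4 ChainAll.rF4 UAll.uF4 (by decide) hadd4 hinj4
    (by decide : ∀ i ∈ [0, 3], i < FTabF4.fd.rank)
    (by decide : ∀ i ∈ [1, 2, 1, 2], i < FTabF4.fd.rank) h2 h1
  have h3 := congrArg (fun τ : Equiv.Perm (Fin FTabF4.fd.n) => (τ ⟨33, by decide⟩).val) hw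
  beta_reduce at h3
  rw [wprod_val CAll.cfF4 ChainAll.rF4 UAll.uF4 (by decide) (by decide),
    wprod_val CAll.cfF4 ChainAll.rF4 UAll.uF4 (by decide) (by decide)] at h3
  exact neAB h3

theorem zw_zero (W : List ℕ) :
    zw hF4 K W (List.replicate W.length 0) = nw hF4 K (plain W) := by
  induction W with
  | nil => rfl
  | cons i W ih =>
    rw [List.length_cons, List.replicate_succ, zw_cons, ih, xg_zero hadd4 hF4, one_mul,
      nw_plain_cons]

/-- the last axiom: `s B s ≠ B` -/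
theorem ne_aux {W : List ℕ} (hred : RedT FTabF4.fd WTabF4.X W)
    (ts : List K) (hts : ts.length = W.length) (hne : ts ≠ List.replicate W.length 0)
    (Γ : Subgroup (GL chevF4.Idx K)) (hzΓ : zw hF4 K W ts ∈ Γ) (hnΓ : nw hF4 K (plain W) ∈ Γ)
    (hsq : nw hF4 K (plain W) * nw hF4 K (plain W) ∈ chevF4.diagonalSubgroup K) :
    ∃ b ∈ chevF4.borelSubgroup K ⊓ Γ,
      nw hF4 K (plain W) * b * nw hF4 K (plain W) ∉ chevF4.borelSubgroup K := by
  have hfl := flatten_sing W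
  have h1 : zw hF4 K W ts ∈ ZS hF4 K (W.map fun i => [i]) :=
    (mem_zs_sing hF4 W _).mpr ⟨ts, hts, rfl⟩
  obtain ⟨u', hu', e'⟩ := ZS_U CAll.cfF4 ChainAll.rF4 UAll.uF4 (by decide) hadd4
    (W.map fun i => [i]) (by rw [hfl]; exact hred) h1
  rw [hfl] at hu' e'
  have hu'Γ : u' ∈ Γ := by
    have e2 : u' = zw hF4 K W ts * (nw hF4 K (plain W))⁻¹ := by
      rw [e']
      group
    rw [e2]
    exact Γ.mul_mem hzΓ (Γ.inv_mem hnΓ)
  refine ⟨u', ⟨le_sup_left (b := chevF4.diagonalSubgroup K) (Uw_le hF4 _ hu'), hu'Γ⟩, ?_⟩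
  intro hB
  rw [mul_assoc, ← e'] at hB
  have hc'B : (nw hF4 K (plain W) * nw hF4 K (plain W))⁻¹ *
      (nw hF4 K (plain W) * zw hF4 K W ts) ∈ chevF4.borelSubgroup K :=
    Subgroup.mul_mem _ (Subgroup.inv_mem _ (le_sup_right (a := chevF4.posUnipotent K) hsq)) hB
  have e : zw hF4 K W ts * 1 = zw hF4 K W (List.replicate W.length 0) *
      ((nw hF4 K (plain W) * nw hF4 K (plain W))⁻¹ * (nw hF4 K (plain W) * zw hF4 K W ts)) := by
    rw [zw_zero]
    group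
  have hred' : RedT FTabF4.fd WTabF4.X (W ++ []) := by
    rw [List.append_nil]
    exact hred
  have h3 := zw_inj CAll.cfF4 hadd4 hinj4 W [] hred' hts (List.length_replicate)
    (by rw [cell_nil]; exact Subgroup.one_mem _) (by rw [cell_nil]; exact hc'B) e
  exact hne h3.1

/-! ### The twisted group -/

section tw

variable [Fintype K] {m : ℕ} {φ : K →+* K} {σ : ↥(chevF4.group K) →* ↥(chevF4.group K)}

/-- every element of the twisted group lies in the cell of one of the sixteen words -/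
theorem hex (hK : Fintype.card K = 2 ^ (2 * m + 1)) (hφ : ∀ x : K, φ x = x ^ 2 ^ m)
    (hσ : IsSig chevF4 GraphAutF4.gd.bar GraphAutF4.gd.lam φ σ) {g : GL chevF4.Idx K}
    (hg : g ∈ twistedF4 K (2 ^ m)) : ∃ bl ∈ bls, g ∈ cell CAll.cfF4 K (flat bl) := by
  have hG1 := TwSigF4.f4_fix hK hφ hσ
  have h2n : ((2 : ℕ) : K) = 0 := natCast_eq_zero_of_card Nat.prime_two hK
  have h2 : (2 : K) = 0 := by exact_mod_cast h2n
  have hneg := hneg4 (K := K) h2
  have hfix := sg_fix_iff.mp (hG1 hg)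
  obtain ⟨wd, hwd, hc⟩ := exists_fix_cell CAll.cfF4 ChainAll.rF4 UAll.uF4 (by decide) hadd4
    hinj4 hσ TwSigF4.hbar hneg hpos4 hroot4 hlA hlD hTρ4 hposr4 Bs4 hBs4 hcov4 Ws16 hW0 hWlt
    hcl4 hfix
  obtain ⟨bl, hbl, rfl⟩ := List.mem_map.mp hwd
  exact ⟨bl, hbl, hc⟩

/-- the normal form of the elements of the twisted group in a cell -/
theorem nf (hK : Fintype.card K = 2 ^ (2 * m + 1)) (hφ : ∀ x : K, φ x = x ^ 2 ^ m)
    (hσ : IsSig chevF4 GraphAutF4.gd.bar GraphAutF4.gd.lam φ σ) {bl : List Bool} (hbl : bl ∈ bls)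
    {g : GL chevF4.Idx K} (hg : g ∈ twistedF4 K (2 ^ m))
    (hc : g ∈ cell CAll.cfF4 K (flat bl)) :
    ∃ u ∈ chevF4.borelSubgroup K, u ∈ twistedF4 K (2 ^ m) ∧ ∃ b ∈ chevF4.borelSubgroup K,
      b ∈ twistedF4 K (2 ^ m) ∧ g = u * nw hF4 K (plain (flat bl)) * b := by
  have hG1 := TwSigF4.f4_fix hK hφ hσ
  have hGeq := (tw_eq_fix hK hφ hσ).1
  have h2n : ((2 : ℕ) : K) = 0 := natCast_eq_zero_of_card Nat.prime_two hK
  have h2 : (2 : K) = 0 := by exact_mod_cast h2n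
  have hneg := hneg4 (K := K) h2
  have hfrob2 : ∀ x y : K, (x + y) ^ 2 = x ^ 2 + y ^ 2 :=
    frob_add (n := 2 * m + 1) (by omega) hK
  have hfrob' : ∀ x y : K, (x + y) ^ (2 * 2 ^ m) = x ^ (2 * 2 ^ m) + y ^ (2 * 2 ^ m) := by
    have e1 : 2 * 2 ^ m = 2 ^ (m + 1) := by ring
    rw [e1]
    exact frob_pow_add hfrob2 (m + 1)
  obtain ⟨hnA, hnB⟩ := nw_blocks_mem (m := m) hK
  have hfix := sg_fix_iff.mp (hG1 hg)
  obtain ⟨z, hz, b, sb, hb, rfl⟩ := fix_cell_decomp CAll.cfF4 hadd4 hinj4 hσ TwSigF4.hbar hneg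
    hpos4 (flat bl) (hWred hbl) (stab_flat hσ h2 (hG1 hnB) bl) hfix hc
  have hzΓ : z ∈ twistedF4 K (2 ^ m) :=
    fix_flat_mem hσ h2 _ hφ hG1 hnA hnB hfrob' bl (hWred hbl) hz
  obtain ⟨ts, hts, rfl, -⟩ := hz
  have hfl := flatten_sing (flat bl)
  have h1 : zw hF4 K (flat bl) ts ∈ ZS hF4 K ((flat bl).map fun i => [i]) :=
    (mem_zs_sing hF4 (flat bl) _).mpr ⟨ts, hts, rfl⟩
  obtain ⟨u', hu', e'⟩ := ZS_U CAll.cfF4 ChainAll.rF4 UAll.uF4 (by decide) hadd4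
    ((flat bl).map fun i => [i]) (by rw [hfl]; exact hWred hbl) h1
  rw [hfl] at hu' e'
  have hnw : nw hF4 K (plain (flat bl)) ∈ twistedF4 K (2 ^ m) := nw_flat_mem _ hnA hnB bl
  have hu'Γ : u' ∈ twistedF4 K (2 ^ m) := by
    have e2 : u' = zw hF4 K (flat bl) ts * (nw hF4 K (plain (flat bl)))⁻¹ := by
      rw [e']
      group
    rw [e2]
    exact Subgroup.mul_mem _ hzΓ (Subgroup.inv_mem _ hnw)
  refine ⟨u', le_sup_left (b := chevF4.diagonalSubgroup K) (Uw_le hF4 _ hu'), hu'Γ, b, hb, ?_, ?_⟩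
  · rw [hGeq]
    exact sg_fix_iff.mpr sb
  · rw [e']

/-- The elements of the twisted group in an ambient double coset of one of its elements lie in
its double coset with respect to `B ⊓ G¹`. -/
theorem stepC' (hK : Fintype.card K = 2 ^ (2 * m + 1)) (hφ : ∀ x : K, φ x = x ^ 2 ^ m)
    (hσ : IsSig chevF4 GraphAutF4.gd.bar GraphAutF4.gd.lam φ σ) {n' g : GL chevF4.Idx K}
    (hn' : n' ∈ twistedF4 K (2 ^ m)) (hg : g ∈ twistedF4 K (2 ^ m))
    (hgc : g ∈ DoubleCoset.doubleCoset n' (chevF4.borelSubgroup K : Set (GL chevF4.Idx K))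
      (chevF4.borelSubgroup K)) :
    ∃ b1 ∈ chevF4.borelSubgroup K ⊓ twistedF4 K (2 ^ m),
      ∃ b2 ∈ chevF4.borelSubgroup K ⊓ twistedF4 K (2 ^ m), g = b1 * n' * b2 := by
  obtain ⟨bl, hbl, hc⟩ := hex hK hφ hσ hn'
  have hgc2 : g ∈ cell CAll.cfF4 K (flat bl) := by
    have hc' := hc
    unfold cell at hc' ⊢
    rw [DoubleCoset.mem_doubleCoset] at hc' hgc ⊢
    obtain ⟨c1, hc1, c2, hc2, e1⟩ := hc'
    obtain ⟨b1, hb1, b2, hb2, e2⟩ := hgc
    refine ⟨b1 * c1, Subgroup.mul_mem _ hb1 hc1, c2 * b2, Subgroup.mul_mem _ hc2 hb2, ?_⟩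
    rw [e2, e1]
    group
  obtain ⟨u, hu, huΓ, b, hb, hbΓ, e⟩ := nf hK hφ hσ hbl hg hgc2
  obtain ⟨u0, hu0, hu0Γ, b0, hb0, hb0Γ, e0⟩ := nf hK hφ hσ hbl hn' hc
  refine ⟨u * u0⁻¹, ⟨Subgroup.mul_mem _ hu (Subgroup.inv_mem _ hu0),
    Subgroup.mul_mem _ huΓ (Subgroup.inv_mem _ hu0Γ)⟩, b0⁻¹ * b,
    ⟨Subgroup.mul_mem _ (Subgroup.inv_mem _ hb0) hb,
      Subgroup.mul_mem _ (Subgroup.inv_mem _ hb0Γ) hbΓ⟩, ?_⟩
  rw [e, e0]
  group

/-- A double coset meeting the fixed points is stable under the permutation of the roots. -/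
theorem wperm_of_fixed' (hσ : IsSig chevF4 GraphAutF4.gd.bar GraphAutF4.gd.lam φ σ)
    (h2 : (2 : K) = 0) {T : List ℕ} (hT : ∀ i ∈ T, i < FTabF4.fd.rank) {n g : GL chevF4.Idx K}
    (hnN : n ∈ chevF4.monomialSubgroup K) (hnf : Sg σ n n) (hgf : Sg σ g g)
    (hgc : g ∈ DoubleCoset.doubleCoset (nw hF4 K (plain T) * n)
      (chevF4.borelSubgroup K : Set (GL chevF4.Idx K)) (chevF4.borelSubgroup K)) :
    ∀ r < FTabF4.fd.n, wperm WTabF4.X (T.map fun i => l4.getD i 0) r = wperm WTabF4.X T r := by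
  have hneg := hneg4 (K := K) h2
  have hT' : ∀ i ∈ T.map (fun i => l4.getD i 0), i < FTabF4.fd.rank := by
    intro i hi
    obtain ⟨j, hj, rfl⟩ := List.mem_map.mp hi
    exact (hlA j (hT j hj)).1
  have hgc' := hgc
  rw [DoubleCoset.mem_doubleCoset] at hgc'
  obtain ⟨b1, hb1, b2, hb2, e⟩ := hgc'
  have hBG := borelSubgroup_le hF4 K
  obtain ⟨b1', s1⟩ := Sg.total (σ := σ) (hBG hb1)
  obtain ⟨b2', s2⟩ := Sg.total (σ := σ) (hBG hb2)
  have s3 := (s1.mul ((sg_nw hF4 hσ TwSigF4.hbar hneg hlD T hT).mul hnf)).mul s2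
  rw [← e] at s3
  have e2 := hgf.unique s3
  have hN1 : nw hF4 K (plain T) * n ∈ chevF4.monomialSubgroup K :=
    Subgroup.mul_mem _ (nw_mem_monomial CAll.cfF4 (plain_lt hT)) hnN
  have hN2 : nw hF4 K (plain (T.map fun i => l4.getD i 0)) * n ∈ chevF4.monomialSubgroup K :=
    Subgroup.mul_mem _ (nw_mem_monomial CAll.cfF4 (plain_lt hT')) hnN
  have h3 := dc_unique CAll.cfF4 hadd4 hinj4 hN1 hN2 hgc (DoubleCoset.mem_doubleCoset.mpr
    ⟨_, sg_borel hF4 hσ TwSigF4.hbar hneg hpos4 hb1 s1, _,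
      sg_borel hF4 hσ TwSigF4.hbar hneg hpos4 hb2 s2, e2⟩)
  have h4 : nw hF4 K (plain (T.map fun i => l4.getD i 0)) * (nw hF4 K (plain T))⁻¹ ∈
      chevF4.diagonalSubgroup K := by
    have e3 : nw hF4 K (plain (T.map fun i => l4.getD i 0)) * (nw hF4 K (plain T))⁻¹ =
        nw hF4 K (plain (T.map fun i => l4.getD i 0)) * n * (nw hF4 K (plain T) * n)⁻¹ := by
      group
    rw [e3]
    exact h3
  have h5 : nw hF4 K (plain (T.map fun i => l4.getD i 0)) ∈ cell CAll.cfF4 K T := by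
    unfold cell
    rw [DoubleCoset.mem_doubleCoset]
    refine ⟨_, le_sup_right (a := chevF4.posUnipotent K) h4, 1, Subgroup.one_mem _, ?_⟩
    group
  have h6 : nw hF4 K (plain (T.map fun i => l4.getD i 0)) ∈
      cell CAll.cfF4 K (T.map fun i => l4.getD i 0) := by
    unfold cell
    rw [DoubleCoset.mem_doubleCoset]
    exact ⟨1, Subgroup.one_mem _, 1, Subgroup.one_mem _, by group⟩
  have hw := wprod_eq_of_meet CAll.cfF4 ChainAll.rF4 UAll.uF4 (by decide) hadd4 hinj4 hT' hT h6 h5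
  intro r hr
  have := congrArg (fun τ : Equiv.Perm (Fin FTabF4.fd.n) => (τ ⟨r, hr⟩).val) hw
  beta_reduce at this
  rwa [wprod_val CAll.cfF4 ChainAll.rF4 UAll.uF4 (by decide) hT',
    wprod_val CAll.cfF4 ChainAll.rF4 UAll.uF4 (by decide) hT] at this

/-- the double coset axiom for one block -/
theorem mul_aux (hK : Fintype.card K = 2 ^ (2 * m + 1)) (hφ : ∀ x : K, φ x = x ^ 2 ^ m)
    (hσ : IsSig chevF4 GraphAutF4.gd.bar GraphAutF4.gd.lam φ σ) {W : List ℕ}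
    (hWlt4 : ∀ i ∈ W, i < FTabF4.fd.rank) (hWΓ : nw hF4 K (plain W) ∈ twistedF4 K (2 ^ m))
    (hsub : ∀ T ∈ W.sublists,
      (∀ r < FTabF4.fd.n, wperm WTabF4.X (T.map fun i => l4.getD i 0) r = wperm WTabF4.X T r) →
      (∀ r < FTabF4.fd.n, wperm WTabF4.X T r = wperm WTabF4.X [] r) ∨
        (∀ r < FTabF4.fd.n, wperm WTabF4.X T r = wperm WTabF4.X W r))
    {n b : GL chevF4.Idx K} (hn' : n ∈ chevF4.monomialSubgroup K ⊓ twistedF4 K (2 ^ m))
    (hb : b ∈ chevF4.borelSubgroup K ⊓ twistedF4 K (2 ^ m)) :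
    (∃ b1 ∈ chevF4.borelSubgroup K ⊓ twistedF4 K (2 ^ m),
      ∃ b2 ∈ chevF4.borelSubgroup K ⊓ twistedF4 K (2 ^ m),
        nw hF4 K (plain W) * b * n = b1 * (nw hF4 K (plain W) * n) * b2) ∨
    (∃ b1 ∈ chevF4.borelSubgroup K ⊓ twistedF4 K (2 ^ m),
      ∃ b2 ∈ chevF4.borelSubgroup K ⊓ twistedF4 K (2 ^ m),
        nw hF4 K (plain W) * b * n = b1 * n * b2) := by
  have hG1 := TwSigF4.f4_fix hK hφ hσ
  have h2n : ((2 : ℕ) : K) = 0 := natCast_eq_zero_of_card Nat.prime_two hK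
  have h2 : (2 : K) = 0 := by exact_mod_cast h2n
  have hgΓ : nw hF4 K (plain W) * b * n ∈ twistedF4 K (2 ^ m) :=
    Subgroup.mul_mem _ (Subgroup.mul_mem _ hWΓ hb.2) hn'.2
  obtain ⟨T, hT, hgc⟩ := TwBN2.stepA CAll.cfF4 hadd4 W hWlt4 hn'.1 hb.1
  have hTlt : ∀ i ∈ T, i < FTabF4.fd.rank := fun i hi => hWlt4 i (hT.subset hi)
  have hw := wperm_of_fixed' hσ h2 hTlt hn'.1 (sg_fix_iff.mp (hG1 hn'.2))
    (sg_fix_iff.mp (hG1 hgΓ)) hgc
  rcases hsub T (List.mem_sublists.mpr hT) hw with h0 | hS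
  · right
    have hH := nw_H_of_wperm (K := K) hTlt (by simp) h0
    have hgc' := dc_of_H hH hgc
    have h1 : nw hF4 K (plain []) = 1 := rfl
    rw [h1, one_mul] at hgc'
    exact stepC' hK hφ hσ hn'.2 hgΓ hgc'
  · left
    have hH := nw_H_of_wperm (K := K) hTlt hWlt4 hS
    have hgc' := dc_of_H hH hgc
    exact stepC' hK hφ hσ (Subgroup.mul_mem _ hWΓ hn'.2) hgΓ hgc'

end tw

/-- The `(B, N)`-pair of the twisted group of type F4. -/
theorem bn [Fintype K] {m : ℕ} (hK : Fintype.card K = 2 ^ (2 * m + 1)) :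
    ∃ P : Cfsg.BNPair ↥(twistedF4 K (2 ^ m)),
      P.B = (chevF4.borelSubgroup K ⊓ twistedF4 K (2 ^ m)).subgroupOf (twistedF4 K (2 ^ m)) ∧
      P.N = (chevF4.monomialSubgroup K ⊓ twistedF4 K (2 ^ m)).subgroupOf (twistedF4 K (2 ^ m)) ∧
      P.S = {s : ↥(twistedF4 K (2 ^ m)) | (s : GL chevF4.Idx K) ∈
        ({nw hF4 K (plain [0, 3]), nw hF4 K (plain [1, 2, 1, 2])} : Set (GL chevF4.Idx K))} := by
  obtain ⟨φ, σ, hφ, hσ⟩ := TwSigF4.exists_sig hK
  have hG1 := TwSigF4.f4_fix hK hφ hσ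
  have h2n : ((2 : ℕ) : K) = 0 := natCast_eq_zero_of_card Nat.prime_two hK
  have h2 : (2 : K) = 0 := by exact_mod_cast h2n
  obtain ⟨hnA, hnB⟩ := nw_blocks_mem (m := m) hK
  have hltA : ∀ i ∈ [0, 3], i < FTabF4.fd.rank := by decide
  have hltB : ∀ i ∈ [1, 2, 1, 2], i < FTabF4.fd.rank := by decide
  have hsqA : nw hF4 K (plain [0, 3]) * nw hF4 K (plain [0, 3]) ∈ chevF4.diagonalSubgroup K :=
    sqH hltA sqA
  have hsqB : nw hF4 K (plain [1, 2, 1, 2]) * nw hF4 K (plain [1, 2, 1, 2]) ∈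
      chevF4.diagonalSubgroup K := sqH hltB sqB
  apply TwBN.bnPair_of_internal
  · intro g hg
    obtain ⟨bl, hbl, hc⟩ := hex hK hφ hσ hg
    obtain ⟨u, hu, huΓ, b, hb, hbΓ, e⟩ := nf hK hφ hσ hbl hg hc
    rw [e]
    have hlt := hWlt (flat bl) (List.mem_map.mpr ⟨bl, hbl, rfl⟩)
    exact Subgroup.mul_mem _ (Subgroup.mul_mem _ (Subgroup.mem_sup_left ⟨hu, huΓ⟩)
      (Subgroup.mem_sup_right ⟨nw_mem_monomial CAll.cfF4 (plain_lt hlt),
        nw_flat_mem _ hnA hnB bl⟩)) (Subgroup.mem_sup_left ⟨hb, hbΓ⟩)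
  · intro n hn' t ht
    rw [borel_inf_monomial hF4 CAll.cfF4.pw] at ht
    have hnn := monomial_le_normalizer hF4 K hn'.1
    exact le_sup_right (a := chevF4.posUnipotent K)
      ((Subgroup.mem_set_normalizer_iff.mp hnn t).mp ht)
  · intro s hs
    simp only [Set.mem_insert_iff, Set.mem_singleton_iff] at hs
    rcases hs with rfl | rfl
    · exact ⟨nw_mem_monomial CAll.cfF4 (plain_lt hltA), hnA⟩
    · exact ⟨nw_mem_monomial CAll.cfF4 (plain_lt hltB), hnB⟩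
  · intro s hs
    simp only [Set.mem_insert_iff, Set.mem_singleton_iff] at hs
    rcases hs with rfl | rfl
    · exact le_sup_right (a := chevF4.posUnipotent K) hsqA
    · exact le_sup_right (a := chevF4.posUnipotent K) hsqB
  · intro s hs s' hs' h
    simp only [Set.mem_insert_iff, Set.mem_singleton_iff] at hs hs'
    rcases hs with rfl | rfl <;> rcases hs' with rfl | rfl
    · rfl
    · exact (neAB' h).elim
    · exfalso
      apply neAB' (K := K)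
      have h3 := Subgroup.inv_mem _ h
      rwa [mul_inv_rev, inv_inv] at h3
    · rfl
  · intro n hn'
    obtain ⟨bl, hbl, hc⟩ := hex hK hφ hσ hn'.2
    have hlt := hWlt (flat bl) (List.mem_map.mpr ⟨bl, hbl, rfl⟩)
    have haN : nw hF4 K (plain (flat bl)) ∈ chevF4.monomialSubgroup K :=
      nw_mem_monomial CAll.cfF4 (plain_lt hlt)
    refine ⟨nw hF4 K (plain (flat bl)), nw_flat_mem _
      (Subgroup.subset_closure (Set.mem_insert _ _))
      (Subgroup.subset_closure (Set.mem_insert_of_mem _ (Set.mem_singleton _))) bl, ?_⟩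
    have h3 := dc_unique CAll.cfF4 hadd4 hinj4 haN hn'.1 hc (DoubleCoset.mem_doubleCoset.mpr
      ⟨1, Subgroup.one_mem _, 1, Subgroup.one_mem _, by group⟩)
    have hnn := monomial_le_normalizer hF4 K (Subgroup.inv_mem _ haN)
    have h4 := (Subgroup.mem_set_normalizer_iff.mp hnn _).mp h3
    have e : (nw hF4 K (plain (flat bl)))⁻¹ * n =
        (nw hF4 K (plain (flat bl)))⁻¹ * (n * (nw hF4 K (plain (flat bl)))⁻¹) *
          (nw hF4 K (plain (flat bl)))⁻¹⁻¹ := by group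
    rw [e]
    exact le_sup_right (a := chevF4.posUnipotent K) h4
  · intro s hs n hn' b hb
    simp only [Set.mem_insert_iff, Set.mem_singleton_iff] at hs
    rcases hs with rfl | rfl
    · exact mul_aux hK hφ hσ hltA hnA subA hn' hb
    · exact mul_aux hK hφ hσ hltB hnB subB hn' hb
  · intro s hs
    simp only [Set.mem_insert_iff, Set.mem_singleton_iff] at hs
    rcases hs with rfl | rfl
    · refine ne_aux (K := K) redA [1 ^ 2 ^ m, 1] rfl ?_ _ (memA h2 (2 ^ m) hnA 1) hnA hsqA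
      intro h
      simp at h
    · refine ne_aux (K := K) redB4 [1 ^ 2 ^ m, 0 ^ (2 * 2 ^ m), 1 ^ (2 ^ m + 1) + 0, 1] rfl ?_ _
        (memB h2 (2 ^ m) hnB 1 0) hnB hsqB
      intro h
      simp at h

end Cfsg.Agent.Lib.Helper19.TwF4B
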