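import Mathlib
import Cfsg.Agent.Lib.Helper19.TwF4B
import Cfsg.Agent.Lib.Helper19.BTGen

set_option autoImplicit false
set_option linter.unusedSectionVars false
set_option linter.unusedVariables false

/-!
Statements (as `Prop` definitions) of the pieces about the twisted group of type F4 used to show
that an element commuting with an involution has order divisible only by the primes of
`q (q ^ 4 - 1)`, together with the set-up: the group `Gam K m`, its subgroup `BG K m`, the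
sixteen representatives `nG K m i`.
-/

namespace Cfsg.Agent.Lib.Helper19.BTStmt

open Cfsg Cfsg.Lie Cfsg.Agent.Lib.Helper18 Cfsg.Agent.Lib.Helper18.Long
  Cfsg.Agent.Lib.Helper19.TwF4U Cfsg.Agent.Lib.Helper19.TwF4V Cfsg.Agent.Lib.Helper19.TwF4O
  Cfsg.Agent.Lib.Helper19.BTGen

open scoped Classical

universe u

/-- the sixteen representatives, as matrices: `N16 K i = nw hF4 K (plain (flat bl))` for the
`i`-th list of blocks `bl` of `TwF4O.bls` -/
noncomputable def N16 (K : Type u) [Field K] (i : Fin 16) : GL chevF4.Idx K :=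
  nw hF4 K (plain (flat (bls.getD i.val [])))

/-- the twisted group of type F4 as a type -/
abbrev Gam (K : Type u) [Field K] (m : ℕ) : Type u := ↥(twistedF4 K (2 ^ m))

/-- the subgroup `B¹ = B ∩ G¹` of the twisted group -/
def BG (K : Type u) [Field K] (m : ℕ) : Subgroup (Gam K m) :=
  (chevF4.borelSubgroup K ⊓ twistedF4 K (2 ^ m)).subgroupOf (twistedF4 K (2 ^ m))

/-- the sixteen representatives as elements of the twisted group -/
noncomputable def nG (K : Type u) [Field K] (m : ℕ) (i : Fin 16) : Gam K m :=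
  if h : N16 K i ∈ twistedF4 K (2 ^ m) then ⟨N16 K i, h⟩ else 1

/-- the partner of a cell for the block `A = [0, 3]` (index 1) -/
def tA : Fin 16 → Fin 16 := ![1, 0, 4, 5, 2, 3, 8, 9, 6, 7, 12, 13, 10, 11, 15, 14]

/-- the partner of a cell for the block `B = [1, 2, 1, 2]` (index 2) -/
def tB : Fin 16 → Fin 16 := ![2, 3, 0, 1, 6, 7, 4, 5, 10, 11, 8, 9, 14, 15, 12, 13]

/-- the words that get longer on multiplication by `A` on the right -/
def UA : Finset (Fin 16) := {0, 2, 3, 6, 7, 10, 11, 14}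

/-- the words that get longer on multiplication by `B` on the right -/
def UB : Finset (Fin 16) := {0, 1, 4, 5, 8, 9, 12, 13}

theorem N16_mem {K : Type u} [Field K] [Fintype K] {m : ℕ}
    (hK : Fintype.card K = 2 ^ (2 * m + 1)) (i : Fin 16) : N16 K i ∈ twistedF4 K (2 ^ m) := by
  obtain ⟨hnA, hnB⟩ := nw_blocks_mem (m := m) hK
  exact nw_flat_mem _ hnA hnB _

theorem nG_coe {K : Type u} [Field K] [Fintype K] {m : ℕ}
    (hK : Fintype.card K = 2 ^ (2 * m + 1)) (i : Fin 16) :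
    ((nG K m i : Gam K m) : GL chevF4.Idx K) = N16 K i := by
  unfold nG
  rw [dif_pos (N16_mem hK i)]

theorem mem_BG_iff {K : Type u} [Field K] {m : ℕ} (x : Gam K m) :
    x ∈ BG K m ↔ (x : GL chevF4.Idx K) ∈ chevF4.borelSubgroup K := by
  unfold BG
  rw [Subgroup.mem_subgroupOf, Subgroup.mem_inf]
  exact ⟨fun h => h.1, fun h => ⟨h, x.2⟩⟩

/-- [COVER] Bruhat decomposition of the twisted group (`TwF4B.hex`, `TwF4B.nf`). -/
def CoverG : Prop :=
  ∀ (K : Type u) [Field K] [Fintype K] (m : ℕ), Fintype.card K = 2 ^ (2 * m + 1) →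
    Cover (BG K m) (nG K m)

/-- [DISJ] the sixteen double cosets are distinct (`Cells2.wprod_eq_of_meet`, `TwF4O.hdis4`). -/
def DisjG : Prop :=
  ∀ (K : Type u) [Field K] [Fintype K] (m : ℕ), Fintype.card K = 2 ^ (2 * m + 1) →
    Disj (BG K m) (nG K m)

/-- [E0] the first representative is the identity. -/
def E0 : Prop :=
  ∀ (K : Type u) [Field K] [Fintype K] (m : ℕ), Fintype.card K = 2 ^ (2 * m + 1) →
    nG K m 0 ∈ BG K m

/-- [STRA] strong exchange for the block `A`. -/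
def StrongA : Prop :=
  ∀ (K : Type u) [Field K] [Fintype K] (m : ℕ), Fintype.card K = 2 ^ (2 * m + 1) →
    Strong (BG K m) (nG K m) (nG K m 1) tA UA

/-- [STRB] strong exchange for the block `B`. -/
def StrongB : Prop :=
  ∀ (K : Type u) [Field K] [Fintype K] (m : ℕ), Fintype.card K = 2 ^ (2 * m + 1) →
    Strong (BG K m) (nG K m) (nG K m 2) tB UB

/-- [R1A] the rank one conditions for the block `A`. -/
def R1A : Prop :=
  ∀ (K : Type u) [Field K] [Fintype K] (m : ℕ), Fintype.card K = 2 ^ (2 * m + 1) →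
    nG K m 1 * nG K m 1 ∈ BG K m ∧ nG K m 1 ∉ BG K m ∧
      ∀ b ∈ BG K m, nG K m 1 * b * nG K m 1 ∈ BG K m ∨
        ∃ c ∈ BG K m, ∃ c' ∈ BG K m, nG K m 1 * b * nG K m 1 = c * nG K m 1 * c'

/-- [R1B] the rank one conditions for the block `B`. -/
def R1B : Prop :=
  ∀ (K : Type u) [Field K] [Fintype K] (m : ℕ), Fintype.card K = 2 ^ (2 * m + 1) →
    nG K m 2 * nG K m 2 ∈ BG K m ∧ nG K m 2 ∉ BG K m ∧
      ∀ b ∈ BG K m, nG K m 2 * b * nG K m 2 ∈ BG K m ∨
        ∃ c ∈ BG K m, ∃ c' ∈ BG K m, nG K m 2 * b * nG K m 2 = c * nG K m 2 * c'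

/-- [TOP] an involution of `B¹` is not conjugate under `B¹` into the opposite Borel subgroup. -/
def TopG : Prop :=
  ∀ (K : Type u) [Field K] [Fintype K] (m : ℕ), Fintype.card K = 2 ^ (2 * m + 1) →
    ∀ a ∈ BG K m, orderOf a = 2 → ∀ b ∈ BG K m,
      (nG K m 15)⁻¹ * (b⁻¹ * a * b) * nG K m 15 ∉ BG K m

/-- [CARDB] the order of `B¹`. -/
def CardB : Prop :=
  ∀ (K : Type u) [Field K] [Fintype K] (m : ℕ), Fintype.card K = 2 ^ (2 * m + 1) →
    Nat.card (BG K m) = (2 ^ (2 * m + 1)) ^ 12 * (2 ^ (2 * m + 1) - 1) ^ 2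

/-- [CARDCA] the number of elements of the double coset of the block `A`. -/
def CardCA : Prop :=
  ∀ (K : Type u) [Field K] [Fintype K] (m : ℕ), Fintype.card K = 2 ^ (2 * m + 1) →
    Nat.card {g : Gam K m // ∃ b ∈ BG K m, ∃ b' ∈ BG K m, g = b * nG K m 1 * b'} =
      2 ^ (2 * m + 1) * Nat.card (BG K m)

/-- [CARDCB] the number of elements of the double coset of the block `B`. -/
def CardCB : Prop :=
  ∀ (K : Type u) [Field K] [Fintype K] (m : ℕ), Fintype.card K = 2 ^ (2 * m + 1) →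
    Nat.card {g : Gam K m // ∃ b ∈ BG K m, ∃ b' ∈ BG K m, g = b * nG K m 2 * b'} =
      (2 ^ (2 * m + 1)) ^ 2 * Nat.card (BG K m)

/-- [SYLU] a Sylow 2-subgroup inside `B¹`. -/
def SylU : Prop :=
  ∀ (K : Type u) [Field K] [Fintype K] (m : ℕ), Fintype.card K = 2 ^ (2 * m + 1) →
    ∃ U : Subgroup (Gam K m), U ≤ BG K m ∧ ∃ k : ℕ, Nat.card U = 2 ^ k ∧ ¬ 2 ∣ U.index

/-- the statement S2369 -/
def Result : Prop :=
  ∀ (K : Type u) [Field K] [Fintype K] (m : ℕ), 1 ≤ m → Fintype.card K = 2 ^ (2 * m + 1) →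
    ∀ a b : ↥(twistedF4 K (2 ^ m)), orderOf a = 2 → Commute a b →
      (orderOf b).primeFactors ⊆
        (2 ^ (2 * m + 1) * ((2 ^ (2 * m + 1)) ^ 4 - 1)).primeFactors

end Cfsg.Agent.Lib.Helper19.BTStmt
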