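import Mathlib
import Cfsg.Agent.Lib.Helper19.BTStmt

set_option autoImplicit false
set_option linter.unusedVariables false

/-!
Assembly: in the twisted group of type F4 over the field with `q = 2 ^ (2 m + 1)` elements, an
element commuting with an involution has order divisible only by primes dividing `q (q ^ 4 - 1)`.
-/

namespace Cfsg.Agent.Lib.Helper19.BTAsm

open Cfsg Cfsg.Lie Cfsg.Agent.Lib.Helper19.BTGen Cfsg.Agent.Lib.Helper19.BTStmt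

universe u

theorem conj_order {G : Type u} [Group G] (g x : G) : orderOf (g * x * g⁻¹) = orderOf x := by
  rw [← MulAut.conj_apply]
  exact MulEquiv.orderOf_eq _ _

theorem conj_comm {G : Type u} [Group G] (g x y : G) (h : Commute x y) :
    Commute (g * x * g⁻¹) (g * y * g⁻¹) := by
  show g * x * g⁻¹ * (g * y * g⁻¹) = g * y * g⁻¹ * (g * x * g⁻¹)
  calc g * x * g⁻¹ * (g * y * g⁻¹) = g * (x * y) * g⁻¹ := by group
    _ = g * (y * x) * g⁻¹ := by rw [h.eq]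
    _ = g * y * g⁻¹ * (g * x * g⁻¹) := by group

theorem main (hUp : UpFix.{u}) (hCC : CellCount.{u}) (hFD : FreeDvd.{u}) (hR1 : RankOne.{u})
    (hPC : ParCard.{u}) (hSC : SylConj.{u}) (hPP : PrimePow.{u}) (hAr : Arith)
    (hCov : CoverG.{u}) (hDis : DisjG.{u}) (hE0 : E0.{u}) (hSA : StrongA.{u}) (hSB : StrongB.{u})
    (hRA : R1A.{u}) (hRB : R1B.{u}) (hTop : TopG.{u}) (hCB : CardB.{u}) (hCA : CardCA.{u})
    (hCBB : CardCB.{u}) (hSyl : SylU.{u}) : Result.{u} := by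
  intro K _ _ m hm hK a b ha hab p hp
  have hp' := Nat.mem_primeFactors.mp hp
  have hpp := hp'.1
  have hq2 : 2 ≤ 2 ^ (2 * m + 1) := by
    calc 2 = 2 ^ 1 := by norm_num
      _ ≤ 2 ^ (2 * m + 1) := Nat.pow_le_pow_right (by norm_num) (by omega)
  have hq4 : 2 ^ 4 ≤ (2 ^ (2 * m + 1)) ^ 4 := Nat.pow_le_pow_left hq2 4
  rw [Nat.mem_primeFactors]
  refine ⟨hpp, ?_, Nat.mul_ne_zero (by omega) (by omega)⟩
  by_contra hnd
  obtain ⟨h1, h2, h3⟩ := hAr (2 ^ (2 * m + 1)) p hpp hq2 hnd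
  obtain ⟨k, hk⟩ := hPP (Gam K m) b p hp
  obtain ⟨U, hUB, k', hUc, hUo⟩ := hSyl K m hK
  obtain ⟨g, hg⟩ := hSC (Gam K m) U k' hUc hUo a ha
  have ha'B : g * a * g⁻¹ ∈ BG K m := hUB hg
  have ha'2 : orderOf (g * a * g⁻¹) = 2 := by rw [conj_order, ha]
  have hc'p : orderOf (g * b ^ k * g⁻¹) = p := by rw [conj_order, hk]
  have hcomm : Commute (g * a * g⁻¹) (g * b ^ k * g⁻¹) := conj_comm g a (b ^ k) (hab.pow_right k)
  obtain ⟨hA1, hA2, hA3⟩ := hRA K m hK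
  obtain ⟨hB1, hB2, hB3⟩ := hRB K m hK
  obtain ⟨PA, hPA⟩ := hR1 (Gam K m) (BG K m) (nG K m 1) hA1 hA3
  obtain ⟨PB, hPB⟩ := hR1 (Gam K m) (BG K m) (nG K m 2) hB1 hB3
  have cov := hCov K m hK
  have dis := hDis K m hK
  have e1 := hUp (Gam K m) (BG K m) PA (Fin 16) (nG K m) (nG K m 1) tA UA (g * a * g⁻¹) cov dis
    hPA (hSA K m hK) (by decide) (by decide) ha'B
  have e2 := hUp (Gam K m) (BG K m) PB (Fin 16) (nG K m) (nG K m 2) tB UB (g * a * g⁻¹) cov dis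
    hPB (hSB K m hK) (by decide) (by decide) ha'B
  have e3 := hCC (Gam K m) (BG K m) (Fin 16) (nG K m) UA UB 0 15 (g * a * g⁻¹) cov dis
    (hE0 K m hK) (by decide) (by decide) (by decide) (by decide) (by decide) ha'B
    (hTop K m hK (g * a * g⁻¹) ha'B ha'2)
  have cB := hCB K m hK
  have cPA : Nat.card PA = (2 ^ (2 * m + 1)) ^ 12 * (2 ^ (2 * m + 1) - 1) ^ 2 +
      2 ^ (2 * m + 1) * ((2 ^ (2 * m + 1)) ^ 12 * (2 ^ (2 * m + 1) - 1) ^ 2) := by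
    rw [hPC (Gam K m) (BG K m) PA (nG K m 1) hPA hA2, hCA K m hK, cB]
  have cPB : Nat.card PB = (2 ^ (2 * m + 1)) ^ 12 * (2 ^ (2 * m + 1) - 1) ^ 2 +
      (2 ^ (2 * m + 1)) ^ 2 * ((2 ^ (2 * m + 1)) ^ 12 * (2 ^ (2 * m + 1) - 1) ^ 2) := by
    rw [hPC (Gam K m) (BG K m) PB (nG K m 2) hPB hB2, hCBB K m hK, cB]
  have d1 := hFD (Gam K m) (BG K m) (g * a * g⁻¹) (g * b ^ k * g⁻¹) p hpp hcomm hc'p
    (by rw [cB]; exact h1)
  have d2 := hFD (Gam K m) PA (g * a * g⁻¹) (g * b ^ k * g⁻¹) p hpp hcomm hc'p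
    (by rw [cPA]; exact h2)
  have d3 := hFD (Gam K m) PB (g * a * g⁻¹) (g * b ^ k * g⁻¹) p hpp hcomm hc'p
    (by rw [cPB]; exact h3)
  rw [e1] at d2
  rw [e2] at d3
  have d4 := dvd_add d2 d3
  rw [e3] at d4
  have d5 : p ∣ 1 := (Nat.dvd_add_right d1).mp d4
  exact hpp.one_lt.ne' (Nat.dvd_one.mp d5)

end Cfsg.Agent.Lib.Helper19.BTAsm
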