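import Mathlib
import Cfsg.Agent.Lib.Helper19.BTStmt

set_option autoImplicit false
set_option linter.unusedSimpArgs false
set_option linter.unusedSectionVars false
set_option linter.unusedVariables false

/-!
S2369, piece CARDB (proof text by helper27, compiled by helper19): the order of `B¹ = B ∩ G¹` in the twisted group of type F4 is
`q ^ 12 * (q - 1) ^ 2`.
-/

namespace Cfsg.Agent.Lib.Helper19.BTCARDB

open Cfsg Cfsg.Lie Cfsg.Agent.Lib.Helper18 Cfsg.Agent.Lib.Helper19 Cfsg.Agent.Lib.Helper18.BNPairC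
  Cfsg.Agent.Lib.Helper18.Sub Cfsg.Agent.Lib.Helper18.WGroup Cfsg.Agent.Lib.Helper18.Long
  Cfsg.Agent.Lib.Helper18.Cells Cfsg.Agent.Lib.Helper18.Cells2 Cfsg.Agent.Lib.Helper18.Tw1
  Cfsg.Agent.Lib.Helper18.Tw2 Cfsg.Agent.Lib.Helper18.Tw3 Cfsg.Agent.Lib.Helper18.RootSys
  Cfsg.Agent.Lib.Helper18.UOrd Cfsg.Agent.Lib.Helper18.Fast Cfsg.Agent.Lib.Helper18.AllRoots
  Cfsg.Agent.Lib.Helper18.Weyl
  Cfsg.Agent.Lib.Helper19.TwCore
  Cfsg.Agent.Lib.Helper19.TwPerf Cfsg.Agent.Lib.Helper19.TwAb Cfsg.Agent.Lib.Helper19.TwSig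
  Cfsg.Agent.Lib.Helper19.TwRel Cfsg.Agent.Lib.Helper19.TwRel2 Cfsg.Agent.Lib.Helper19.TwF4U
  Cfsg.Agent.Lib.Helper19.TwF4V Cfsg.Agent.Lib.Helper19.TwF4O
  Cfsg.Agent.Lib.Helper19.BTGen Cfsg.Agent.Lib.Helper19.BTStmt

universe u

theorem main : CardB.{u} := by
  intro K _ _ m hK
  obtain ⟨φ, σ, hφ, hσ⟩ := TwSigF4.exists_sig hK
  have hGeq := (tw_eq_fix hK hφ hσ).1
  have h2n : ((2 : ℕ) : K) = 0 := natCast_eq_zero_of_card Nat.prime_two hK
  have h2 : (2 : K) = 0 := by exact_mod_cast h2n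
  have hneg := hneg4 (K := K) h2
  have hUcard : Nat.card ↥(chevF4.posUnipotent K ⊓ fixG σ) = (2 ^ (2 * m + 1)) ^ 12 := by
    rw [← hGeq]
    exact card_U_tw hK
  have hHcard : Nat.card ↥(chevF4.diagonalSubgroup K ⊓ fixG σ) = (2 ^ (2 * m + 1) - 1) ^ 2 := by
    rw [← hGeq]
    exact Cfsg.Agent.S1110.result hK
  have e1 : Nat.card ↥(BG K m) =
      Nat.card ↥(chevF4.borelSubgroup K ⊓ twistedF4 K (2 ^ m)) := by
    unfold BG
    exact Nat.card_congr (Subgroup.subgroupOfEquivOfLe inf_le_right).toEquiv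
  have e2 : Nat.card ↥(chevF4.borelSubgroup K ⊓ twistedF4 K (2 ^ m)) =
      Nat.card {g : GL chevF4.Idx K | Sg σ g g ∧ g ∈ chevF4.borelSubgroup K} := by
    apply Nat.card_congr
    refine Equiv.subtypeEquivRight (fun g => ?_)
    show g ∈ chevF4.borelSubgroup K ⊓ twistedF4 K (2 ^ m) ↔
      (Sg σ g g ∧ g ∈ chevF4.borelSubgroup K)
    rw [Subgroup.mem_inf, hGeq, sg_fix_iff]
    exact and_comm
  rw [e1, e2, card_inter_B' CAll.cfF4 hadd4 hσ TwSigF4.hbar hneg hpos4, hUcard, hHcard]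

end Cfsg.Agent.Lib.Helper19.BTCARDB

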