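import Mathlib
import Cfsg.Agent.Lib.Helper19.TwF4V
import Cfsg.Agent.Lib.Helper19.TwF4O
import Cfsg.Agent.Lib.Helper18.CAll
import Cfsg.Agent.Lib.Helper18.Pos

set_option autoImplicit false
set_option linter.unusedSimpArgs false
set_option linter.unusedSectionVars false
set_option linter.unusedVariables false

/-!
The elements of 2-power order of the twisted group of type F4: the positive unipotent subgroup of
the group of type F4 in characteristic 2 has exponent dividing 32 (its elements are unitriangular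
for the height grading of the adjoint module, which has 23 levels), and its intersection with the
twisted group is a Sylow 2-subgroup of the twisted group.
-/

namespace Cfsg.Agent.Lib.Helper19.TwF4E

open Cfsg Cfsg.Lie Cfsg.Agent.Lib.Helper18 Cfsg.Agent.Lib.Helper18.Fast
  Cfsg.Agent.Lib.Helper18.Facts Cfsg.Agent.Lib.Helper18.AllRoots Cfsg.Agent.Lib.Helper18.Pos
  Cfsg.Agent.Lib.Helper18.Tri Cfsg.Agent.Lib.Helper18.XMat

section generic

variable {ι : Type*} [Fintype ι] [DecidableEq ι] {F : Type*} [Field F] {lam : ι → ℤ}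

/-- the powers of a strictly triangular matrix raise the level -/
theorem pow_apply_eq_zero {N : Matrix ι ι F} (hN : Tri lam N) (hd : ∀ b, N b b = 0) (k : ℕ) :
    ∀ b b', lam b < lam b' + k → (N ^ k) b b' = 0 := by
  induction k with
  | zero =>
    intro b b' h
    rw [pow_zero]
    apply Matrix.one_apply_ne
    rintro rfl
    simp at h
  | succ k ih =>
    intro b b' h
    rw [pow_succ, Matrix.mul_apply]
    apply Finset.sum_eq_zero
    intro c _
    by_cases hc : N c b' = 0
    · rw [hc, mul_zero]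
    · have h1 : lam b' < lam c := by
        by_contra h2
        rw [not_lt] at h2
        have hne : c ≠ b' := by
          rintro rfl
          exact hc (hd _)
        exact hc (hN c b' hne h2)
      rw [ih b c (by push_cast at h; omega), zero_mul]

/-- a unitriangular matrix in characteristic 2 with few levels has 2-power order -/
theorem utri_pow_eq_one [Nonempty ι] [CharP F 2] {M : Matrix ι ι F} (hM : UTri lam M) (n : ℕ)
    (hlam : ∀ b b', lam b < lam b' + ((2 ^ n : ℕ) : ℤ)) : M ^ 2 ^ n = 1 := by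
  have : Fact (Nat.Prime 2) := ⟨Nat.prime_two⟩
  have : CharP (Matrix ι ι F) 2 := Matrix.charP 2
  have hN : Tri lam (M - 1) := by
    intro b b' hne hle
    rw [Matrix.sub_apply, hM.1 b b' hne hle, Matrix.one_apply_ne hne, sub_zero]
  have hd : ∀ b, (M - 1) b b = 0 := by
    intro b
    rw [Matrix.sub_apply, hM.2 b, Matrix.one_apply_eq, sub_self]
  have h0 : (M - 1) ^ 2 ^ n = 0 := by
    ext b b'
    rw [pow_apply_eq_zero hN hd (2 ^ n) b b' (hlam b b')]
    rfl
  have h1 := add_pow_char_pow_of_commute 2 n (Commute.one_right (M - 1))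
  rw [sub_add_cancel, h0, one_pow, zero_add] at h1
  exact h1

/-- the elements of 2-power order of a finite group with a subgroup of 2-power order, odd index
and exponent dividing `N` have order dividing `N` -/
theorem order_dvd_of_sylow {G : Type*} [Group G] [Finite G] (U : Subgroup G) (k : ℕ)
    (hU : Nat.card U = 2 ^ k) (hodd : ¬ 2 ∣ U.index) (N : ℕ) (hexp : ∀ u ∈ U, u ^ N = 1)
    (x : G) (hx : ∃ j : ℕ, orderOf x = 2 ^ j) : orderOf x ∣ N := by
  have : Fact (Nat.Prime 2) := ⟨Nat.prime_two⟩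
  obtain ⟨j, hj⟩ := hx
  let P : Sylow 2 G := (IsPGroup.of_card hU).toSylow hodd
  have hz : IsPGroup 2 (Subgroup.zpowers x) :=
    IsPGroup.of_card (n := j) (by rw [Nat.card_zpowers, hj])
  obtain ⟨Q, hQ⟩ := hz.exists_le_sylow
  have hxQ : x ∈ (Q : Subgroup G) := hQ (Subgroup.mem_zpowers x)
  have h1 : orderOf (((Sylow.equiv Q P) ⟨x, hxQ⟩ : ↥(P : Subgroup G)) : G) = orderOf x := by
    rw [Subgroup.orderOf_coe, MulEquiv.orderOf_eq, ← Subgroup.orderOf_coe]
  rw [← h1]
  apply orderOf_dvd_of_pow_eq_one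
  exact hexp _ ((Sylow.equiv Q P) ⟨x, hxQ⟩).2

end generic

/-- Check of the bounds of the level at the root `s`. -/
def chkBd (A : FData) (w : ℕ → ℤ) (s : ℕ) : Bool :=
  decide (-22 ≤ lamAux A w s A.rank) && decide (lamAux A w s A.rank ≤ 22)

set_option maxRecDepth 100000 in
theorem bdF4_0 : (List.range' 0 48).all (chkBd TabF4.fd (PAll.wOf [16, 30, 42, 22])) = true := by
  decide +kernel

/-- the levels of the adjoint module of type F4 lie between `-22` and `22` -/
theorem lev_bd (b : chevF4.Idx) :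
    -22 ≤ lev chevF4 FTabF4.fd (PAll.wOf [16, 30, 42, 22]) b ∧
      lev chevF4 FTabF4.fd (PAll.wOf [16, 30, 42, 22]) b ≤ 22 := by
  unfold lev
  rw [FTabF4.fd_eq]
  by_cases hb : enc chevF4 b < TabF4.fd.n
  · have hn : TabF4.fd.n = 48 := rfl
    have h := all_range'_imp bdF4_0 (Nat.zero_le (enc chevF4 b)) (by omega)
    unfold chkBd at h
    rw [Bool.and_eq_true, lamAux_eq hb] at h
    exact ⟨of_decide_eq_true h.1, of_decide_eq_true h.2⟩
  · rw [lamE_of_ge _ (by omega)]
    constructor <;> norm_num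

/-- the levels of the adjoint module of type F4 are even -/
theorem lev_even (b : chevF4.Idx) :
    (2 : ℤ) ∣ lev chevF4 FTabF4.fd (PAll.wOf [16, 30, 42, 22]) b := by
  unfold lev lamE
  apply Finset.dvd_sum
  intro i _
  apply Dvd.dvd.mul_right
  unfold PAll.wOf
  rcases i with _ | _ | _ | _ | i
  · exact ⟨8, by simp⟩
  · exact ⟨15, by simp⟩
  · exact ⟨21, by simp⟩
  · exact ⟨11, by simp⟩
  · exact ⟨0, by simp⟩

/-- the positive unipotent subgroup of the group of type F4 in characteristic 2 has exponent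
dividing 32 -/
theorem pos_pow_eq_one {K : Type*} [Field K] [CharP K 2] (g : GL chevF4.Idx K)
    (hg : g ∈ chevF4.posUnipotent K) : g ^ 32 = 1 := by
  have : Nonempty chevF4.Idx := ⟨Sum.inr ⟨0, by decide⟩⟩
  have h1 : UTri (lev chevF4 FTabF4.fd (PAll.wOf [16, 30, 42, 22]))
      (g : Matrix chevF4.Idx chevF4.Idx K) :=
    posUnipotent_le_utri WTabF4.afacts CAll.posF4 hg
  have h2 : UTri (fun b => lev chevF4 FTabF4.fd (PAll.wOf [16, 30, 42, 22]) b / 2)
      (g : Matrix chevF4.Idx chevF4.Idx K) := by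
    refine ⟨fun b b' hne hle => h1.1 b b' hne ?_, h1.2⟩
    have e1 := lev_even b
    have e2 := lev_even b'
    simp only at hle
    omega
  have h3 := utri_pow_eq_one h2 5 (by
    intro b b'
    have e1 := lev_bd b
    have e2 := lev_bd b'
    norm_num
    omega)
  apply Units.ext
  rw [Units.val_pow_eq_pow_val]
  exact h3

/-- the elements of 2-power order of the twisted group of type F4 have order dividing 32 -/
theorem order_dvd {K : Type*} [Field K] [Fintype K] (m : ℕ)
    (hK : Fintype.card K = 2 ^ (2 * m + 1))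
    (x : ↥(twistedF4 K (2 ^ m))) (hx : ∃ j : ℕ, orderOf x = 2 ^ j) : orderOf x ∣ 32 := by
  have h2n : ((2 : ℕ) : K) = 0 := TwCore.natCast_eq_zero_of_card Nat.prime_two hK
  have h2 : (2 : K) = 0 := by exact_mod_cast h2n
  have : CharP K 2 := CharTwo.of_one_ne_zero_of_two_eq_zero one_ne_zero h2
  have hU : Nat.card ↥((chevF4.posUnipotent K ⊓ twistedF4 K (2 ^ m)).subgroupOf
      (twistedF4 K (2 ^ m))) = 2 ^ ((2 * m + 1) * 12) := by
    rw [Nat.card_congr (Subgroup.subgroupOfEquivOfLe inf_le_right).toEquiv, TwF4V.card_U_tw hK,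
      pow_mul]
  have hG := TwF4O.card_tw hK
  have hidx := ((chevF4.posUnipotent K ⊓ twistedF4 K (2 ^ m)).subgroupOf
      (twistedF4 K (2 ^ m))).index_mul_card
  have hodd : ¬ 2 ∣ ((chevF4.posUnipotent K ⊓ twistedF4 K (2 ^ m)).subgroupOf
      (twistedF4 K (2 ^ m))).index := by
    rw [hU, hG, pow_mul] at hidx
    obtain ⟨c, hc1, hq⟩ : ∃ c : ℕ, 1 ≤ c ∧ 2 ^ (2 * m + 1) = 2 * c :=
      ⟨2 ^ (2 * m), Nat.one_le_two_pow, by rw [pow_succ]; ring⟩
    generalize 2 ^ (2 * m + 1) = q at hidx hq
    have hq12 : 0 < q ^ 12 := pow_pos (by omega) 12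
    have hi : ((chevF4.posUnipotent K ⊓ twistedF4 K (2 ^ m)).subgroupOf
        (twistedF4 K (2 ^ m))).index = (q - 1) * (q ^ 3 + 1) * (q ^ 4 - 1) * (q ^ 6 + 1) := by
      apply Nat.eq_of_mul_eq_mul_right hq12
      rw [hidx]
      ring
    rw [hi]
    have hq3 : q ^ 3 = 2 * (c * q ^ 2) := by rw [hq]; ring
    have hq4 : q ^ 4 = 2 * (c * q ^ 3) := by rw [hq]; ring
    have hq6 : q ^ 6 = 2 * (c * q ^ 5) := by rw [hq]; ring
    have hqpos : 0 < q := by omega
    have hp3 : 0 < c * q ^ 3 := Nat.mul_pos (by omega) (pow_pos hqpos 3)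
    intro h
    rcases (Nat.Prime.dvd_mul Nat.prime_two).mp h with h | h
    · rcases (Nat.Prime.dvd_mul Nat.prime_two).mp h with h | h
      · rcases (Nat.Prime.dvd_mul Nat.prime_two).mp h with h | h
        · omega
        · omega
      · omega
    · omega
  refine order_dvd_of_sylow _ _ hU hodd 32 (fun u hu => ?_) x hx
  have hu' : (u : GL chevF4.Idx K) ∈ chevF4.posUnipotent K := (Subgroup.mem_subgroupOf.mp hu).1
  apply Subtype.ext
  rw [SubmonoidClass.coe_pow]
  exact pos_pow_eq_one _ hu'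

end Cfsg.Agent.Lib.Helper19.TwF4E
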