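import Mathlib
import Cfsg.Agent.Lib.Helper19.BTStmt
import Cfsg.Agent.Lib.Helper19.TwF4E

set_option autoImplicit false
set_option linter.unusedSimpArgs false
set_option linter.unusedSectionVars false
set_option linter.unusedVariables false

/-!
Piece COVER of the proof of S2369: the Bruhat decomposition of the twisted group of type F4 with
respect to `B ⊓ G¹` and the sixteen representatives.
-/

namespace Cfsg.Agent.Lib.Helper19.BTCOVER

open Cfsg Cfsg.Lie Cfsg.Agent.Lib.Helper18 Cfsg.Agent.Lib.Helper18.Long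
  Cfsg.Agent.Lib.Helper18.Cells
  Cfsg.Agent.Lib.Helper19.TwSig
  Cfsg.Agent.Lib.Helper19.TwF4U Cfsg.Agent.Lib.Helper19.TwF4V Cfsg.Agent.Lib.Helper19.TwF4O
  Cfsg.Agent.Lib.Helper19.TwF4B
  Cfsg.Agent.Lib.Helper19.BTGen Cfsg.Agent.Lib.Helper19.BTStmt

universe u

theorem main : CoverG.{u} := by
  intro K _ _ m hK g
  obtain ⟨φ, σ, hφ, hσ⟩ := TwSigF4.exists_sig hK
  obtain ⟨bl, hbl, hc⟩ := hex hK hφ hσ g.2
  obtain ⟨u, hu, huΓ, b, hb, hbΓ, e⟩ := nf hK hφ hσ hbl g.2 hc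
  obtain ⟨i, hi⟩ : ∃ i : Fin 16, bls.getD i.val [] = bl := by
    obtain ⟨j, hj, e⟩ := List.getElem_of_mem hbl
    have h16 : bls.length = 16 := rfl
    refine ⟨⟨j, by omega⟩, ?_⟩
    rw [List.getD_eq_getElem?_getD, List.getElem?_eq_getElem hj, Option.getD_some, e]
  refine ⟨i, ⟨u, huΓ⟩, ?_, ⟨b, hbΓ⟩, ?_, ?_⟩
  · rw [mem_BG_iff]
    exact hu
  · rw [mem_BG_iff]
    exact hb
  · apply Subtype.ext
    rw [Subgroup.coe_mul, Subgroup.coe_mul, nG_coe hK]
    unfold N16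
    rw [hi]
    exact e

end Cfsg.Agent.Lib.Helper19.BTCOVER
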