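import Mathlib
import Cfsg.Agent.Lib.Helper19.BTStmt
import Cfsg.Agent.Lib.Helper19.TwF4E

set_option autoImplicit false
set_option linter.unusedSimpArgs false
set_option linter.unusedSectionVars false
set_option linter.unusedVariables false

/-!
Piece E0 of the proof of S2369: the first of the sixteen representatives is the identity.
-/

namespace Cfsg.Agent.Lib.Helper19.BTE0

open Cfsg Cfsg.Lie Cfsg.Agent.Lib.Helper18 Cfsg.Agent.Lib.Helper18.Long
  Cfsg.Agent.Lib.Helper18.Cells
  Cfsg.Agent.Lib.Helper19.TwF4U Cfsg.Agent.Lib.Helper19.TwF4V Cfsg.Agent.Lib.Helper19.TwF4O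
  Cfsg.Agent.Lib.Helper19.TwF4B
  Cfsg.Agent.Lib.Helper19.BTGen Cfsg.Agent.Lib.Helper19.BTStmt

universe u

theorem main : E0.{u} := by
  intro K _ _ m hK
  rw [mem_BG_iff, nG_coe hK]
  have h1 : N16 K 0 = 1 := rfl
  rw [h1]
  exact Subgroup.one_mem _

end Cfsg.Agent.Lib.Helper19.BTE0
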