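import Mathlib
import Cfsg.Agent.Lib.Helper19.BTStmt
import Cfsg.Agent.Lib.Helper19.TwF4E

set_option autoImplicit false
set_option linter.unusedSimpArgs false
set_option linter.unusedSectionVars false
set_option linter.unusedVariables false

/-!
Piece R1A of the proof of S2369: the rank one conditions for the block `[0, 3]` of the twisted
group of type F4.
-/

namespace Cfsg.Agent.Lib.Helper19.BTR1A

open Cfsg Cfsg.Lie Cfsg.Agent.Lib.Helper18 Cfsg.Agent.Lib.Helper18.Long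
  Cfsg.Agent.Lib.Helper18.Cells Cfsg.Agent.Lib.Helper18.Norm Cfsg.Agent.Lib.Helper18.Core
  Cfsg.Agent.Lib.Helper18.BNPairC Cfsg.Agent.Lib.Helper18.WGroup
  Cfsg.Agent.Lib.Helper19.TwCore Cfsg.Agent.Lib.Helper19.TwSig
  Cfsg.Agent.Lib.Helper19.TwF4U Cfsg.Agent.Lib.Helper19.TwF4V Cfsg.Agent.Lib.Helper19.TwF4O
  Cfsg.Agent.Lib.Helper19.TwF4B
  Cfsg.Agent.Lib.Helper19.BTGen Cfsg.Agent.Lib.Helper19.BTStmt

universe u

theorem main : R1A.{u} := by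
  intro K _ _ m hK
  obtain ⟨φ, σ, hφ, hσ⟩ := TwSigF4.exists_sig hK
  have h2n : ((2 : ℕ) : K) = 0 := natCast_eq_zero_of_card Nat.prime_two hK
  have h2 : (2 : K) = 0 := by exact_mod_cast h2n
  obtain ⟨hnA, hnB⟩ := nw_blocks_mem (m := m) hK
  have hlt : ∀ i ∈ [0, 3], i < FTabF4.fd.rank := by decide
  have hsq : nw hF4 K (plain [0, 3]) * nw hF4 K (plain [0, 3]) ∈ chevF4.diagonalSubgroup K :=
    sqH hlt sqA
  have hN : N16 K 1 = nw hF4 K (plain [0, 3]) := rfl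
  have hs : ((nG K m 1 : Gam K m) : GL chevF4.Idx K) = nw hF4 K (plain [0, 3]) := by
    rw [nG_coe hK, hN]
  have hsΓ : nw hF4 K (plain [0, 3]) ∈ twistedF4 K (2 ^ m) := hnA
  refine ⟨?_, ?_, ?_⟩
  · rw [mem_BG_iff, Subgroup.coe_mul, hs]
    exact le_sup_right (a := chevF4.posUnipotent K) hsq
  · rw [mem_BG_iff, hs]
    intro hmem
    obtain ⟨b, hb, hnb⟩ := ne_aux (K := K) redA [1 ^ 2 ^ m, 1] rfl (by
      intro h
      simp at h) _ (memA h2 (2 ^ m) hnA 1) hsΓ hsq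
    exact hnb (Subgroup.mul_mem _ (Subgroup.mul_mem _ hmem hb.1) hmem)
  · intro b hb
    have hb' : (b : GL chevF4.Idx K) ∈ chevF4.borelSubgroup K ⊓ twistedF4 K (2 ^ m) :=
      ⟨(mem_BG_iff b).mp hb, b.2⟩
    have hn' : nw hF4 K (plain [0, 3]) ∈ chevF4.monomialSubgroup K ⊓ twistedF4 K (2 ^ m) :=
      ⟨nw_mem_monomial CAll.cfF4 (plain_lt hlt), hsΓ⟩
    rcases mul_aux hK hφ hσ hlt hsΓ subA hn' hb' with ⟨b1, hb1, b2, hb2, e⟩ | ⟨b1, hb1, b2, hb2, e⟩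
    · left
      rw [mem_BG_iff, Subgroup.coe_mul, Subgroup.coe_mul, hs, e]
      exact Subgroup.mul_mem _ (Subgroup.mul_mem _ hb1.1
        (le_sup_right (a := chevF4.posUnipotent K) hsq)) hb2.1
    · right
      refine ⟨⟨b1, hb1.2⟩, (mem_BG_iff _).mpr hb1.1, ⟨b2, hb2.2⟩, (mem_BG_iff _).mpr hb2.1, ?_⟩
      apply Subtype.ext
      rw [Subgroup.coe_mul, Subgroup.coe_mul, Subgroup.coe_mul, Subgroup.coe_mul, hs]
      exact e

end Cfsg.Agent.Lib.Helper19.BTR1A
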