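import Mathlib
import Cfsg.Agent.Lib.Helper19.BTStmt

set_option autoImplicit false
set_option linter.unusedSimpArgs false
set_option linter.unusedSectionVars false
set_option linter.unusedVariables false

/-!
S2369 piece STRA (proof text by helper58, compiled by helper19; strong exchange for the block `A = [0, 3]`), with the generic step `stepG`
(valid for both blocks) and its literal form `stepL`.
-/

namespace Cfsg.Agent.Lib.Helper19.BTSTRA

open Cfsg Cfsg.Lie Cfsg.Agent.Lib.Helper18 Cfsg.Agent.Lib.Helper19 Cfsg.Agent.Lib.Helper18.BNPairC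
  Cfsg.Agent.Lib.Helper18.Sub Cfsg.Agent.Lib.Helper18.WGroup Cfsg.Agent.Lib.Helper18.Long
  Cfsg.Agent.Lib.Helper18.Cells Cfsg.Agent.Lib.Helper18.Cells2 Cfsg.Agent.Lib.Helper18.Tw1
  Cfsg.Agent.Lib.Helper18.Tw2 Cfsg.Agent.Lib.Helper18.Tw3 Cfsg.Agent.Lib.Helper18.RootSys
  Cfsg.Agent.Lib.Helper18.UOrd Cfsg.Agent.Lib.Helper18.Fast Cfsg.Agent.Lib.Helper18.AllRoots
  Cfsg.Agent.Lib.Helper18.Weyl Cfsg.Agent.Lib.Helper18.Core Cfsg.Agent.Lib.Helper18.Mono
  Cfsg.Agent.Lib.Helper18.Norm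
  Cfsg.Agent.Lib.Helper19.TwCore
  Cfsg.Agent.Lib.Helper19.TwPerf Cfsg.Agent.Lib.Helper19.TwAb Cfsg.Agent.Lib.Helper19.TwSig
  Cfsg.Agent.Lib.Helper19.TwRel Cfsg.Agent.Lib.Helper19.TwRel2 Cfsg.Agent.Lib.Helper19.TwF4U
  Cfsg.Agent.Lib.Helper19.TwF4V Cfsg.Agent.Lib.Helper19.TwF4O
  Cfsg.Agent.Lib.Helper19.BTGen Cfsg.Agent.Lib.Helper19.BTStmt

universe u

variable {K : Type u} [Field K] [Fintype K] {m : ℕ}

/-- The generic step: if `W_i ++ S` is reduced and its cell is the cell of `W_j`, then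
`n_i * b * n_s ∈ B¹ n_j B¹` for every `b ∈ B¹` (`S` the word of the block `s`). -/
theorem stepG (hK : Fintype.card K = 2 ^ (2 * m + 1)) (s : Fin 16) (S : List ℕ)
    (hS : N16 K s = nw hF4 K (plain S)) (i j : Fin 16)
    (hred : RedT FTabF4.fd WTabF4.X (flat (bls.getD i.val []) ++ S))
    (hcell : cell CAll.cfF4 K (flat (bls.getD i.val []) ++ S) =
      cell CAll.cfF4 K (flat (bls.getD j.val [])))
    (b : Gam K m) (hb : b ∈ BG K m) :
    ∃ c ∈ BG K m, ∃ c' ∈ BG K m, nG K m i * b * nG K m s = c * nG K m j * c' := by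
  obtain ⟨φ, σ, hφ, hσ⟩ := TwSigF4.exists_sig hK
  have hbB : (b : GL chevF4.Idx K) ∈ chevF4.borelSubgroup K := (mem_BG_iff b).1 hb
  have hc : (b : GL chevF4.Idx K) * N16 K s ∈ cell CAll.cfF4 K S := by
    unfold cell
    rw [DoubleCoset.mem_doubleCoset]
    exact ⟨(b : GL chevF4.Idx K), hbB, 1, Subgroup.one_mem _, by rw [hS, mul_one]⟩
  have hz := zw_mul_cell CAll.cfF4 hadd4 hinj4 (flat (bls.getD i.val [])) S hred
    (List.replicate (flat (bls.getD i.val [])).length (0 : K)) List.length_replicate hc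
  rw [Cfsg.Agent.Lib.Helper19.TwF4B.zw_zero, hcell] at hz
  have hg : N16 K i * (b : GL chevF4.Idx K) * N16 K s ∈ twistedF4 K (2 ^ m) :=
    Subgroup.mul_mem _ (Subgroup.mul_mem _ (N16_mem hK i) b.2) (N16_mem hK s)
  have hgc : N16 K i * (b : GL chevF4.Idx K) * N16 K s ∈ DoubleCoset.doubleCoset (N16 K j)
      (chevF4.borelSubgroup K : Set (GL chevF4.Idx K)) (chevF4.borelSubgroup K) := by
    rw [mul_assoc]
    exact hz
  obtain ⟨b1, hb1, b2, hb2, e⟩ :=
    Cfsg.Agent.Lib.Helper19.TwF4B.stepC' hK hφ hσ (N16_mem hK j) hg hgc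
  refine ⟨⟨b1, hb1.2⟩, (mem_BG_iff _).2 hb1.1, ⟨b2, hb2.2⟩, (mem_BG_iff _).2 hb2.1, ?_⟩
  apply Subtype.ext
  simp only [Subgroup.coe_mul, nG_coe hK]
  exact e

/-- The literal form: `W_i ++ S = W_j` as lists. -/
theorem stepL (hK : Fintype.card K = 2 ^ (2 * m + 1)) (s : Fin 16) (S : List ℕ)
    (hS : N16 K s = nw hF4 K (plain S)) (i j : Fin 16)
    (e : flat (bls.getD i.val []) ++ S = flat (bls.getD j.val []))
    (hj : bls.getD j.val [] ∈ bls)
    (b : Gam K m) (hb : b ∈ BG K m) :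
    ∃ c ∈ BG K m, ∃ c' ∈ BG K m, nG K m i * b * nG K m s = c * nG K m j * c' := by
  refine stepG hK s S hS i j ?_ ?_ b hb
  · rw [e]
    exact hWred hj
  · rw [e]

theorem N16_one : N16 K 1 = nw hF4 K (plain [0, 3]) := by
  have e : flat (bls.getD (1 : Fin 16).val []) = [0, 3] := by decide
  unfold N16
  rw [e]

theorem N16_two : N16 K 2 = nw hF4 K (plain [1, 2, 1, 2]) := by
  have e : flat (bls.getD (2 : Fin 16).val []) = [1, 2, 1, 2] := by decide
  unfold N16
  rw [e]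

theorem red14 : RedT FTabF4.fd WTabF4.X (flat (bls.getD (14 : Fin 16).val []) ++ [0, 3]) :=
  Tw4.redT_of_redB (by decide +kernel)

theorem perm14 : ∀ r < FTabF4.fd.n,
    wperm WTabF4.X (flat (bls.getD (15 : Fin 16).val [])) r =
      wperm WTabF4.X (flat (bls.getD (14 : Fin 16).val []) ++ [0, 3]) r := by
  decide +kernel

theorem lt15 : ∀ i ∈ flat (bls.getD (15 : Fin 16).val []), i < FTabF4.fd.rank := by decide

theorem lt14 : ∀ i ∈ flat (bls.getD (14 : Fin 16).val []) ++ [0, 3], i < FTabF4.fd.rank := by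
  decide

omit [Fintype K] in
theorem cell14 : cell CAll.cfF4 K (flat (bls.getD (14 : Fin 16).val []) ++ [0, 3]) =
    cell CAll.cfF4 K (flat (bls.getD (15 : Fin 16).val [])) := by
  apply cell_eq_of_wprod CAll.cfF4 ChainAll.rF4 UAll.uF4 (by decide) hadd4 hinj4 lt15 lt14
  ext r
  rw [wprod_val CAll.cfF4 ChainAll.rF4 UAll.uF4 (by decide) lt15,
    wprod_val CAll.cfF4 ChainAll.rF4 UAll.uF4 (by decide) lt14]
  exact perm14 r.val r.isLt

theorem main : StrongA.{u} := by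
  intro K _ _ m hK w hw b hb
  simp only [UA, Finset.mem_insert, Finset.mem_singleton] at hw
  rcases hw with rfl | rfl | rfl | rfl | rfl | rfl | rfl | rfl
  · exact stepL hK 1 [0, 3] N16_one 0 (tA 0) (by decide) (by decide) b hb
  · exact stepL hK 1 [0, 3] N16_one 2 (tA 2) (by decide) (by decide) b hb
  · exact stepL hK 1 [0, 3] N16_one 3 (tA 3) (by decide) (by decide) b hb
  · exact stepL hK 1 [0, 3] N16_one 6 (tA 6) (by decide) (by decide) b hb
  · exact stepL hK 1 [0, 3] N16_one 7 (tA 7) (by decide) (by decide) b hb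
  · exact stepL hK 1 [0, 3] N16_one 10 (tA 10) (by decide) (by decide) b hb
  · exact stepL hK 1 [0, 3] N16_one 11 (tA 11) (by decide) (by decide) b hb
  · have ht : tA 14 = 15 := by decide
    rw [ht]
    exact stepG hK 1 [0, 3] N16_one 14 15 red14 cell14 b hb

end Cfsg.Agent.Lib.Helper19.BTSTRA
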