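import Mathlib
import Cfsg.Agent.Lib.Helper19.BTStmt
import Cfsg.Agent.Lib.Helper19.BTSTRA

set_option autoImplicit false
set_option linter.unusedSimpArgs false
set_option linter.unusedSectionVars false
set_option linter.unusedVariables false

/-!
S2369 piece STRB (proof text by helper58, compiled by helper19; strong exchange for the block `B = [1, 2, 1, 2]`).
-/

namespace Cfsg.Agent.Lib.Helper19.BTSTRB

open Cfsg Cfsg.Lie Cfsg.Agent.Lib.Helper18 Cfsg.Agent.Lib.Helper18.Long
  Cfsg.Agent.Lib.Helper19.TwF4U Cfsg.Agent.Lib.Helper19.TwF4V Cfsg.Agent.Lib.Helper19.TwF4O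
  Cfsg.Agent.Lib.Helper19.BTGen Cfsg.Agent.Lib.Helper19.BTStmt
  Cfsg.Agent.Lib.Helper19.BTSTRA

universe u

theorem main : StrongB.{u} := by
  intro K _ _ m hK w hw b hb
  simp only [UB, Finset.mem_insert, Finset.mem_singleton] at hw
  rcases hw with rfl | rfl | rfl | rfl | rfl | rfl | rfl | rfl
  · exact stepL hK 2 [1, 2, 1, 2] N16_two 0 (tB 0) (by decide) (by decide) b hb
  · exact stepL hK 2 [1, 2, 1, 2] N16_two 1 (tB 1) (by decide) (by decide) b hb
  · exact stepL hK 2 [1, 2, 1, 2] N16_two 4 (tB 4) (by decide) (by decide) b hb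
  · exact stepL hK 2 [1, 2, 1, 2] N16_two 5 (tB 5) (by decide) (by decide) b hb
  · exact stepL hK 2 [1, 2, 1, 2] N16_two 8 (tB 8) (by decide) (by decide) b hb
  · exact stepL hK 2 [1, 2, 1, 2] N16_two 9 (tB 9) (by decide) (by decide) b hb
  · exact stepL hK 2 [1, 2, 1, 2] N16_two 12 (tB 12) (by decide) (by decide) b hb
  · exact stepL hK 2 [1, 2, 1, 2] N16_two 13 (tB 13) (by decide) (by decide) b hb

end Cfsg.Agent.Lib.Helper19.BTSTRB
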