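import Mathlib
import Cfsg.Agent.Lib.Helper19.BTStmt
import Cfsg.Agent.Lib.Helper19.TwF4E

set_option autoImplicit false
set_option linter.unusedSimpArgs false
set_option linter.unusedSectionVars false
set_option linter.unusedVariables false

/-!
Piece SYLU of the proof of S2369: the positive unipotent part of the twisted group of type F4 is
a subgroup of `B ⊓ G¹` of 2-power order and odd index.
-/

namespace Cfsg.Agent.Lib.Helper19.BTSYLU

open Cfsg Cfsg.Lie Cfsg.Agent.Lib.Helper18 Cfsg.Agent.Lib.Helper18.Long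
  Cfsg.Agent.Lib.Helper19.TwF4U Cfsg.Agent.Lib.Helper19.TwF4V Cfsg.Agent.Lib.Helper19.TwF4O
  Cfsg.Agent.Lib.Helper19.TwF4B
  Cfsg.Agent.Lib.Helper19.BTGen Cfsg.Agent.Lib.Helper19.BTStmt

universe u

theorem main : SylU.{u} := by
  intro K _ _ m hK
  have hU : Nat.card ↥((chevF4.posUnipotent K ⊓ twistedF4 K (2 ^ m)).subgroupOf
      (twistedF4 K (2 ^ m))) = 2 ^ ((2 * m + 1) * 12) := by
    rw [Nat.card_congr (Subgroup.subgroupOfEquivOfLe inf_le_right).toEquiv, TwF4V.card_U_tw hK,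
      pow_mul]
  have hG := TwF4O.card_tw hK
  have hidx := ((chevF4.posUnipotent K ⊓ twistedF4 K (2 ^ m)).subgroupOf
      (twistedF4 K (2 ^ m))).index_mul_card
  have hodd : ¬ 2 ∣ ((chevF4.posUnipotent K ⊓ twistedF4 K (2 ^ m)).subgroupOf
      (twistedF4 K (2 ^ m))).index := by
    rw [hU, hG, pow_mul] at hidx
    obtain ⟨c, hc1, hq⟩ : ∃ c : ℕ, 1 ≤ c ∧ 2 ^ (2 * m + 1) = 2 * c :=
      ⟨2 ^ (2 * m), Nat.one_le_two_pow, by rw [pow_succ]; ring⟩
    generalize 2 ^ (2 * m + 1) = q at hidx hq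
    have hq12 : 0 < q ^ 12 := pow_pos (by omega) 12
    have hi : ((chevF4.posUnipotent K ⊓ twistedF4 K (2 ^ m)).subgroupOf
        (twistedF4 K (2 ^ m))).index = (q - 1) * (q ^ 3 + 1) * (q ^ 4 - 1) * (q ^ 6 + 1) := by
      apply Nat.eq_of_mul_eq_mul_right hq12
      rw [hidx]
      ring
    rw [hi]
    have hq3 : q ^ 3 = 2 * (c * q ^ 2) := by rw [hq]; ring
    have hq4 : q ^ 4 = 2 * (c * q ^ 3) := by rw [hq]; ring
    have hq6 : q ^ 6 = 2 * (c * q ^ 5) := by rw [hq]; ring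
    have hqpos : 0 < q := by omega
    have hp3 : 0 < c * q ^ 3 := Nat.mul_pos (by omega) (pow_pos hqpos 3)
    intro h
    rcases (Nat.Prime.dvd_mul Nat.prime_two).mp h with h | h
    · rcases (Nat.Prime.dvd_mul Nat.prime_two).mp h with h | h
      · rcases (Nat.Prime.dvd_mul Nat.prime_two).mp h with h | h
        · omega
        · omega
      · omega
    · omega
  refine ⟨(chevF4.posUnipotent K ⊓ twistedF4 K (2 ^ m)).subgroupOf (twistedF4 K (2 ^ m)), ?_,
    (2 * m + 1) * 12, hU, hodd⟩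
  intro x hx
  rw [mem_BG_iff]
  exact le_sup_left (b := chevF4.diagonalSubgroup K) (Subgroup.mem_subgroupOf.mp hx).1

end Cfsg.Agent.Lib.Helper19.BTSYLU
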