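import Cfsg.Agent.Lib.Helper18.BNAbs
import Mathlib

set_option autoImplicit false

/-!
The existence part of the Bruhat normal form for an abstract system of root elements
(`Cfsg.Agent.Lib.Helper18.BNAbs.RD`): for `n ∈ N` every element of `n B` is of the form
`b' n u` with `b' ∈ B` and `u` in the subgroup generated by the positive root subgroups which `n`
conjugates into `V`.
-/

namespace Cfsg.Agent.Lib.Helper19.BruhatAbs

open Subgroup Cfsg.Agent.Lib.Helper18.BNAbs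

variable {G : Type*} [Group G] {F : Type*} [Field F] {R ι : Type*} (P : RD G F R ι)

/-- The subgroup generated by the positive root elements whose root subgroup is conjugated into
`V` by `n`. -/
def Um (V : Subgroup G) (n : G) : Subgroup G :=
  closure {g | ∃ r t, P.pos r ∧ (∀ v, n * P.x r v * n⁻¹ ∈ V) ∧ g = P.x r t}

/-- `n` acts on the root elements through the map `σ` of the roots. -/
def Acts (n : G) (σ : R → R) : Prop :=
  (∀ r, σ (P.neg r) = P.neg (σ r)) ∧ ∀ r t, ∃ t', n * P.x r t * n⁻¹ = P.x (σ r) t'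

/-- The decomposition property of the double coset of `n`. -/
def Claim (V : Subgroup G) (n : G) : Prop :=
  ∀ b ∈ P.B, ∃ b' ∈ P.B, ∃ u ∈ Um P V n, n * b = b' * n * u

theorem nn_mem_N (i : ι) : P.nn i ∈ P.N :=
  Subgroup.mem_sup_right (subset_closure ⟨i, rfl⟩)

theorem exists_H_mul_U {b : G} (hb : b ∈ P.B) : ∃ h ∈ P.H, ∃ u ∈ P.U, b = h * u := by
  obtain ⟨u, hu, h, hh, e⟩ := RD.exists_mul_of_mem_sup' P.H_le_normalizer_U (P.B.inv_mem hb)
  refine ⟨h⁻¹, P.H.inv_mem hh, u⁻¹, P.U.inv_mem hu, ?_⟩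
  rw [← mul_inv_rev, ← e, inv_inv]

theorem acts_mul {a b : G} {σ τ : R → R} (ha : Acts P a σ) (hb : Acts P b τ) :
    Acts P (a * b) (σ ∘ τ) := by
  refine ⟨fun r => ?_, fun r t => ?_⟩
  · show σ (τ (P.neg r)) = P.neg (σ (τ r))
    rw [hb.1, ha.1]
  · obtain ⟨t', ht'⟩ := hb.2 r t
    obtain ⟨t'', ht''⟩ := ha.2 (τ r) t'
    refine ⟨t'', ?_⟩
    have e : a * b * P.x r t * (a * b)⁻¹ = a * (b * P.x r t * b⁻¹) * a⁻¹ := by group
    rw [e, ht', ht'']
    rfl

theorem acts_nn (i : ι) : Acts P (P.nn i) (P.w i) :=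
  ⟨fun r => P.w_neg i r, fun r t => P.n_conj i r t⟩

theorem acts_nn_inv (i : ι) : Acts P (P.nn i)⁻¹ (P.w i) := by
  refine ⟨fun r => P.w_neg i r, fun r t => ?_⟩
  obtain ⟨t', ht'⟩ := P.n_inv_conj i r t
  exact ⟨t', by rw [inv_inv]; exact ht'⟩

theorem acts_H {h : G} (hh : h ∈ P.H) : Acts P h id :=
  ⟨fun _ => rfl, fun r t => P.h_conj h hh r t⟩

/-- Every element of `N` acts through a map of the roots in a class `Good` containing the
identity and the reflections and closed under composition. -/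
theorem exists_acts (Good : (R → R) → Prop) (good_id : Good id) (good_w : ∀ i, Good (P.w i))
    (good_comp : ∀ σ τ, Good σ → Good τ → Good (σ ∘ τ)) {n : G} (hn : n ∈ P.N) :
    ∃ σ, Acts P n σ ∧ Good σ := by
  refine P.N_induction (p := fun n => ∃ σ, Acts P n σ ∧ Good σ) ?_ ?_ ?_ ?_ hn
  · exact fun h hh => ⟨id, acts_H P hh, good_id⟩
  · exact fun i => ⟨P.w i, acts_nn P i, good_w i⟩
  · exact fun i => ⟨P.w i, acts_nn_inv P i, good_w i⟩
  · rintro a b ⟨σ, hσ, gσ⟩ ⟨τ, hτ, gτ⟩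
    exact ⟨σ ∘ τ, acts_mul P hσ hτ, good_comp σ τ gσ gτ⟩

/-- The step: from `m` to `m n_i` when `m` maps the `i`-th simple root to a positive root. -/
theorem step (V : Subgroup G)
    (w_sim : ∀ i, P.w i (P.sim i) = P.neg (P.sim i))
    (w_invol : ∀ i r, P.w i (P.w i r) = r)
    (hV : ∀ r, P.pos r → ∀ v, P.x (P.neg r) v ∈ V)
    (hBV : P.B ⊓ V = ⊥)
    (hx : ∀ i, P.x (P.sim i) 1 ≠ 1)
    (m : G) (σ : R → R) (hσ : Acts P m σ) (i : ι) (hpos : P.pos (σ (P.sim i)))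
    (hm : Claim P V m) : Claim P V (m * P.nn i) := by
  intro b hb
  obtain ⟨h, hh, u, hu, rfl⟩ := exists_H_mul_U P hb
  obtain ⟨ui, hui, k, ⟨t, rfl⟩, rfl⟩ :=
    RD.exists_mul_of_mem_sup' (P.Xi_le_normalizer_Ui i) (P.U_le_Ui_sup_Xi i hu)
  have hb1 : P.nn i * h * (P.nn i)⁻¹ * (P.nn i * ui * (P.nn i)⁻¹) ∈ P.B :=
    P.B.mul_mem (P.H_le_B (P.n_h i h hh)) (P.U_le_B (P.n_conj_Ui i hui))
  obtain ⟨b', hb', v, hv, e⟩ := hm _ hb1
  -- the conjugate of `v` by `n_i⁻¹`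
  have hv' : (P.nn i)⁻¹ * v * (P.nn i)⁻¹⁻¹ ∈ Um P V (m * P.nn i) := by
    refine RD.conj_closure_mem (P.nn i)⁻¹ ?_ hv
    rintro _ ⟨r, t₁, hr, hrV, rfl⟩
    have hne : r ≠ P.sim i := by
      rintro rfl
      obtain ⟨t₂, ht₂⟩ := hσ.2 (P.sim i) 1
      have h1 : m * P.x (P.sim i) 1 * m⁻¹ ∈ P.B ⊓ V :=
        ⟨by rw [ht₂]; exact P.U_le_B (P.x_mem_U hpos t₂), hrV 1⟩
      rw [hBV, Subgroup.mem_bot] at h1
      apply hx i
      have e2 : P.x (P.sim i) 1 = m⁻¹ * (m * P.x (P.sim i) 1 * m⁻¹) * m := by group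
      rw [e2, h1]
      group
    obtain ⟨t₃, ht₃⟩ := P.n_inv_conj i r t₁
    rw [inv_inv, ht₃]
    refine subset_closure ⟨P.w i r, t₃, P.w_pos i r hr hne, fun v' => ?_, rfl⟩
    obtain ⟨t₄, ht₄⟩ := P.n_conj i (P.w i r) v'
    rw [w_invol] at ht₄
    have e3 : m * P.nn i * P.x (P.w i r) v' * (m * P.nn i)⁻¹ =
        m * (P.nn i * P.x (P.w i r) v' * (P.nn i)⁻¹) * m⁻¹ := by group
    rw [e3, ht₄]
    exact hrV t₄
  have hx' : P.x (P.sim i) t ∈ Um P V (m * P.nn i) := by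
    refine subset_closure ⟨P.sim i, t, P.pos_sim i, fun v' => ?_, rfl⟩
    obtain ⟨t₄, ht₄⟩ := P.n_conj i (P.sim i) v'
    rw [w_sim] at ht₄
    obtain ⟨t₅, ht₅⟩ := hσ.2 (P.neg (P.sim i)) t₄
    rw [hσ.1] at ht₅
    have e3 : m * P.nn i * P.x (P.sim i) v' * (m * P.nn i)⁻¹ =
        m * (P.nn i * P.x (P.sim i) v' * (P.nn i)⁻¹) * m⁻¹ := by group
    rw [e3, ht₄, ht₅]
    exact hV _ hpos t₅
  refine ⟨b', hb', (P.nn i)⁻¹ * v * (P.nn i)⁻¹⁻¹ * P.x (P.sim i) t,
    (Um P V (m * P.nn i)).mul_mem hv' hx', ?_⟩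
  have e4 : m * P.nn i * (h * (ui * P.x (P.sim i) t)) =
      m * (P.nn i * h * (P.nn i)⁻¹ * (P.nn i * ui * (P.nn i)⁻¹)) * P.nn i * P.x (P.sim i) t := by
    group
  rw [e4, e]
  group

/-- The set of the positive roots which `σ` maps to a non-positive root. -/
def Inv (σ : R → R) : Set R := {r | P.pos r ∧ ¬ P.pos (σ r)}

theorem claim_of_mem_B (V : Subgroup G) {n : G} (hn : n ∈ P.B) : Claim P V n := by
  intro b hb
  refine ⟨n * b * n⁻¹, P.B.mul_mem (P.B.mul_mem hn hb) (P.B.inv_mem hn), 1, Subgroup.one_mem _, ?_⟩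
  group

theorem claim_all [Finite R] (V : Subgroup G)
    (w_sim : ∀ i, P.w i (P.sim i) = P.neg (P.sim i))
    (w_invol : ∀ i r, P.w i (P.w i r) = r)
    (not_pos : ∀ i, ¬ P.pos (P.neg (P.sim i)))
    (hV : ∀ r, P.pos r → ∀ v, P.x (P.neg r) v ∈ V)
    (hBV : P.B ⊓ V = ⊥)
    (hx : ∀ i, P.x (P.sim i) 1 ≠ 1)
    (hnorm : ∀ n ∈ P.N, (∀ b ∈ P.B, n * b * n⁻¹ ∈ P.B) → n ∈ P.B)
    (Good : (R → R) → Prop) (good_w : ∀ i, Good (P.w i))
    (good_comp : ∀ σ τ, Good σ → Good τ → Good (σ ∘ τ))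
    (good_pos : ∀ σ, Good σ → (∀ i, P.pos (σ (P.sim i))) → ∀ r, P.pos r → P.pos (σ r)) :
    ∀ (k : ℕ) (n : G) (σ : R → R), n ∈ P.N → Acts P n σ → Good σ → (Inv P σ).ncard = k →
      Claim P V n := by
  intro k
  induction k using Nat.strong_induction_on with
  | _ k ih =>
    intro n σ hn hσ gσ hk
    by_cases hall : ∀ i, P.pos (σ (P.sim i))
    · -- `n` normalizes `B`
      have hp := good_pos σ gσ hall
      apply claim_of_mem_B
      apply hnorm n hn
      intro b hb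
      obtain ⟨u, hu, h, hh, rfl⟩ := RD.exists_mul_of_mem_sup' P.H_le_normalizer_U hb
      have h1 : n * u * n⁻¹ ∈ P.U := by
        refine RD.conj_closure_mem n ?_ hu
        rintro _ ⟨s, v, hs, rfl⟩
        obtain ⟨t', ht'⟩ := hσ.2 s v
        rw [ht']
        exact P.x_mem_U (hp s hs) t'
      have h2 : n * h * n⁻¹ ∈ P.H := P.N_conj_H hn h hh
      have e : n * (u * h) * n⁻¹ = n * u * n⁻¹ * (n * h * n⁻¹) := by group
      rw [e]
      exact P.B.mul_mem (P.U_le_B h1) (P.H_le_B h2)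
    · simp only [not_forall] at hall
      obtain ⟨i, hi⟩ := hall
      have hi' : P.pos (P.neg (σ (P.sim i))) := (P.pos_or (σ (P.sim i))).resolve_left hi
      have hn' : n * (P.nn i)⁻¹ ∈ P.N := P.N.mul_mem hn (P.N.inv_mem (nn_mem_N P i))
      have hσ' : Acts P (n * (P.nn i)⁻¹) (σ ∘ P.w i) := acts_mul P hσ (acts_nn_inv P i)
      have hpos' : P.pos ((σ ∘ P.w i) (P.sim i)) := by
        show P.pos (σ (P.w i (P.sim i)))
        rw [w_sim, hσ.1]
        exact hi'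
      have hlt : (Inv P (σ ∘ P.w i)).ncard < k := by
        rw [← hk]
        have hmem : P.sim i ∈ Inv P σ := ⟨P.pos_sim i, hi⟩
        have hfin : (Inv P σ).Finite := Set.toFinite _
        have h1 : (Inv P (σ ∘ P.w i)).ncard ≤ (Inv P σ \ {P.sim i}).ncard := by
          apply Set.ncard_le_ncard_of_injOn (P.w i)
          · rintro r ⟨hr, hr2⟩
            have hne : r ≠ P.sim i := by
              rintro rfl
              exact hr2 hpos'
            refine ⟨⟨P.w_pos i r hr hne, hr2⟩, ?_⟩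
            intro heq
            have heq' : P.w i r = P.sim i := heq
            have h3 : r = P.neg (P.sim i) := by
              rw [← w_sim, ← heq', w_invol]
            rw [h3] at hr
            exact not_pos i hr
          · intro a _ b _ hab
            have := congrArg (P.w i) hab
            rwa [w_invol, w_invol] at this
        have h2 : (Inv P σ \ {P.sim i}).ncard < (Inv P σ).ncard :=
          Set.ncard_sdiff_singleton_lt_of_mem hmem hfin
        omega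
      have hc := ih _ hlt (n * (P.nn i)⁻¹) (σ ∘ P.w i) hn' hσ' (good_comp σ (P.w i) gσ (good_w i)) rfl
      have hs := step P V w_sim w_invol hV hBV hx (n * (P.nn i)⁻¹) (σ ∘ P.w i) hσ' i hpos' hc
      rwa [inv_mul_cancel_right] at hs

/-- Existence of the normal form: `n b = b' n u` with `u ∈ U_n⁻`. -/
theorem claim_N [Finite R] (V : Subgroup G)
    (w_sim : ∀ i, P.w i (P.sim i) = P.neg (P.sim i))
    (w_invol : ∀ i r, P.w i (P.w i r) = r)
    (not_pos : ∀ i, ¬ P.pos (P.neg (P.sim i)))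
    (hV : ∀ r, P.pos r → ∀ v, P.x (P.neg r) v ∈ V)
    (hBV : P.B ⊓ V = ⊥)
    (hx : ∀ i, P.x (P.sim i) 1 ≠ 1)
    (hnorm : ∀ n ∈ P.N, (∀ b ∈ P.B, n * b * n⁻¹ ∈ P.B) → n ∈ P.B)
    (Good : (R → R) → Prop) (good_id : Good id) (good_w : ∀ i, Good (P.w i))
    (good_comp : ∀ σ τ, Good σ → Good τ → Good (σ ∘ τ))
    (good_pos : ∀ σ, Good σ → (∀ i, P.pos (σ (P.sim i))) → ∀ r, P.pos r → P.pos (σ r))
    {n : G} (hn : n ∈ P.N) : Claim P V n := by
  obtain ⟨σ, hσ, gσ⟩ := exists_acts P Good good_id good_w good_comp hn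
  exact claim_all P V w_sim w_invol not_pos hV hBV hx hnorm Good good_w good_comp good_pos _ n σ
    hn hσ gσ rfl

end Cfsg.Agent.Lib.Helper19.BruhatAbs
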