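import Cfsg.Agent.Lib.Helper19.BruhatAbs
import Cfsg.Agent.Lib.Helper18.BNPairC
import Cfsg.Agent.Lib.Helper6.BN4
import Cfsg.Agent.S0308
import Cfsg.Agent.S0309
import Mathlib

set_option autoImplicit false

/-!
The Bruhat normal form `g = b n u` in the Chevalley groups with the table facts of `Helper18`.
-/

namespace Cfsg.Agent.Lib.Helper19.BruhatChev

open Cfsg Cfsg.Lie Cfsg.Agent.Lib.Helper18.Fast Cfsg.Agent.Lib.Helper18.Grade
  Cfsg.Agent.Lib.Helper18.Facts Cfsg.Agent.Lib.Helper18.AllRoots Cfsg.Agent.Lib.Helper18.Loop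
  Cfsg.Agent.Lib.Helper18.Weyl Cfsg.Agent.Lib.Helper18.RootSys Cfsg.Agent.Lib.Helper18.Orbit
  Cfsg.Agent.Lib.Helper18.Units Cfsg.Agent.Lib.Helper18.Sub Cfsg.Agent.Lib.Helper18.Norm
  Cfsg.Agent.Lib.Helper18.HAll Cfsg.Agent.Lib.Helper18.Torus Cfsg.Agent.Lib.Helper18.Pos
  Cfsg.Agent.Lib.Helper18.WGroup Cfsg.Agent.Lib.Helper18.BNChev Cfsg.Agent.Lib.Helper18.Mono
  Cfsg.Agent.Lib.Helper18.BNPairC Cfsg.Agent.Lib.Helper18.HOrder
  Cfsg.Agent.Lib.Helper19.BruhatAbs

variable {A : FData} {D : ChevalleyDatum} {F : Type*} [Field F] {X : WD} {m : ℕ → ℕ → ℤ}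
  {w : ℕ → ℤ}

/-- The maps of the roots which are linear in the coordinates of the roots. -/
def Good (hC : CFacts A D X m w) (σ : Fin A.n → Fin A.n) : Prop :=
  ∀ r : Fin A.n, ∀ j < A.rank, m (σ r).val j =
    ∑ k : Fin A.rank, m r.val k.val *
      m (σ ⟨A.simple k.val, hC.af.sfacts.simple_lt k.val k.isLt⟩).val j

theorem good_id (hC : CFacts A D X m w) : Good hC id := by
  intro r j hj
  simp only [id]
  rw [Finset.sum_eq_single ⟨j, hj⟩]
  · rw [hC.mf.simple j hj j hj, if_pos rfl, mul_one]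
  · intro k _ hk
    rw [hC.mf.simple k.val k.isLt j hj, if_neg (fun e => hk (Fin.ext e)), mul_zero]
  · intro h
    exact absurd (Finset.mem_univ _) h

theorem good_w (hC : CFacts A D X m w) (i : Fin A.rank) :
    Good hC (fun r => ⟨X.W i.val r.val, hC.wf.lt i.val i.isLt r.val r.isLt⟩) := by
  intro r j hj
  show m (X.W i.val r.val) j =
    ∑ k : Fin A.rank, m r.val k.val * m (X.W i.val (A.simple k.val)) j
  rw [hC.mf.refl i.val i.isLt r.val r.isLt j hj]
  have h1 : ∀ k : Fin A.rank, m (X.W i.val (A.simple k.val)) j =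
      (if k.val = j then 1 else 0) - (if j = i.val then cartanZ A i.val k.val else 0) := by
    intro k
    rw [hC.mf.refl i.val i.isLt _ (hC.af.sfacts.simple_lt k.val k.isLt) j hj,
      hC.mf.simple k.val k.isLt j hj]
    rfl
  simp only [h1, mul_sub, Finset.sum_sub_distrib]
  congr 1
  · rw [Finset.sum_eq_single ⟨j, hj⟩]
    · rw [if_pos rfl, mul_one]
    · intro k _ hk
      rw [if_neg (fun e => hk (Fin.ext e)), mul_zero]
    · intro h
      exact absurd (Finset.mem_univ _) h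
  · split_ifs with hji
    · rw [hC.mf.root r.val r.isLt i.val i.isLt,
        ← Fin.sum_univ_eq_sum_range (fun k => cartanZ A i.val k * m r.val k)]
      apply Finset.sum_congr rfl
      intro k _
      ring
    · simp

theorem good_comp (hC : CFacts A D X m w) (σ τ : Fin A.n → Fin A.n) (hσ : Good hC σ)
    (hτ : Good hC τ) : Good hC (σ ∘ τ) := by
  intro r j hj
  show m (σ (τ r)).val j = ∑ k : Fin A.rank, m r.val k.val *
      m (σ (τ ⟨A.simple k.val, hC.af.sfacts.simple_lt k.val k.isLt⟩)).val j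
  rw [hσ (τ r) j hj]
  have h1 : ∀ k : Fin A.rank, m (τ r).val k.val = ∑ l : Fin A.rank, m r.val l.val *
      m (τ ⟨A.simple l.val, hC.af.sfacts.simple_lt l.val l.isLt⟩).val k.val :=
    fun k => hτ r k.val k.isLt
  have h2 : ∀ l : Fin A.rank,
      m (σ (τ ⟨A.simple l.val, hC.af.sfacts.simple_lt l.val l.isLt⟩)).val j =
      ∑ k : Fin A.rank, m (τ ⟨A.simple l.val, hC.af.sfacts.simple_lt l.val l.isLt⟩).val k.val *
        m (σ ⟨A.simple k.val, hC.af.sfacts.simple_lt k.val k.isLt⟩).val j :=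
    fun l => hσ _ j hj
  simp only [h1, h2, Finset.sum_mul, Finset.mul_sum]
  rw [Finset.sum_comm]
  apply Finset.sum_congr rfl
  intro l _
  apply Finset.sum_congr rfl
  intro k _
  ring

theorem good_pos (hC : CFacts A D X m w) (σ : Fin A.n → Fin A.n) (hσ : Good hC σ)
    (hs : ∀ i : Fin A.rank,
      PosA A (σ ⟨A.simple i.val, hC.af.sfacts.simple_lt i.val i.isLt⟩).val)
    (r : Fin A.n) (hr : PosA A r.val) : PosA A (σ r).val := by
  rw [posA_iff_m hC.mf (σ r).isLt]
  intro j hj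
  rw [hσ r j hj]
  apply Finset.sum_nonneg
  intro k _
  exact mul_nonneg ((posA_iff_m hC.mf r.isLt).mp hr k.val k.isLt)
    ((posA_iff_m hC.mf (σ _).isLt).mp (hs k) j hj)

section

variable (hC : CFacts A D X m w)
  (hadd : ∀ r < D.nroots, ∀ t u : F, D.x F r t * D.x F r u = D.x F r (t + u))
  (hinj : ∀ r < D.nroots, ∀ t : F, D.x F r t = 1 → t = 0)

include hinj in
/-- `n b = b' n u` with `u` in the abstract `U_n⁻`, for `n ∈ N` and `b ∈ B`. -/
theorem claim {n : GL D.Idx F} (hn : n ∈ D.monomialSubgroup F) :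
    Claim (hC.rd hadd) (D.negUnipotent F) n := by
  have hn' : n ∈ (hC.rd hadd).N := by rw [rd_N]; exact hn
  refine claim_N (hC.rd hadd) (D.negUnipotent F) ?_ ?_ ?_ ?_ ?_ ?_ ?_ (Good hC) (good_id hC)
    (good_w hC) (good_comp hC) (good_pos hC) hn'
  · exact fun i => Fin.ext (hC.wf.self i.val i.isLt).1
  · exact fun i r => Fin.ext (hC.wf.invol i.val i.isLt r.val r.isLt)
  · exact fun i => not_posA_neg_simple hC.mf i.isLt (hC.af.sfacts.simple_lt i.val i.isLt)
      (hC.af.agrees.neg_lt _ (hC.af.sfacts.simple_lt i.val i.isLt))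
  · intro r hr v
    show xg hC.af F (A.neg r.val) v ∈ D.negUnipotent F
    have hr' := lt_nroots hC.af r.isLt
    have hpos : D.IsPosRoot r.val := (posA_iff hC.af r.isLt).mp hr
    have hneg := isNegRoot_neg hC.af hpos
    rw [neg_eq_fast hC.af hr'] at hneg
    rw [xg_eq hC.af hneg.1]
    exact xU_mem_neg hC.af _ hneg v
  · rw [rd_B]
    exact borel_inf_negUnipotent hC.af hC.pw
  · intro i h
    have hp := lt_nroots hC.af (hC.af.sfacts.simple_lt i.val i.isLt)
    have h' : xg hC.af F (A.simple i.val) (1 : F) = 1 := h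
    have h1 : D.x F (A.simple i.val) 1 = 1 := by
      rw [← coe_xg hC.af hp, h']
      rfl
    exact one_ne_zero (hinj _ hp 1 h1)
  · intro n hn hb
    rw [rd_N] at hn
    rw [rd_B]
    have hb' : ∀ b ∈ D.borelSubgroup F, n * b * n⁻¹ ∈ D.borelSubgroup F := by
      intro b hbb
      have := hb b (by rw [rd_B]; exact hbb)
      rwa [rd_B] at this
    have hnG : n ∈ D.group F := monomialSubgroup_le hC.af F hn
    have key := Cfsg.Agent.Lib.Helper6.BN4.mem_of_conj_le (bnPair hC hadd hinj)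
      (M := (D.borelSubgroup F).subgroupOf (D.group F)) (le_refl _) (g := ⟨n, hnG⟩) (by
        intro b hb0
        have hb1 : (b : GL D.Idx F) ∈ D.borelSubgroup F := Subgroup.mem_subgroupOf.mp hb0
        rw [Subgroup.mem_subgroupOf]
        exact hb' _ hb1)
    exact Subgroup.mem_subgroupOf.mp key

/-- The subgroup `U_n⁻` generated by the positive root elements whose root subgroup is
conjugated into `V` by `n`. -/
def UmS (D : ChevalleyDatum) (F : Type*) [Field F] (n : GL D.Idx F) : Subgroup (GL D.Idx F) :=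
  Subgroup.closure {x : GL D.Idx F | ∃ (r : ℕ) (t : F), D.IsPosRoot r ∧
    (D.rootSubgroup F r).map (MulAut.conj n).toMonoidHom ≤ D.negUnipotent F ∧
    (x : Matrix D.Idx D.Idx F) = D.x F r t}

theorem um_le (n : GL D.Idx F) : Um (hC.rd hadd) (D.negUnipotent F) n ≤ UmS D F n := by
  apply Subgroup.closure_mono
  rintro _ ⟨r, t, hr, hrV, rfl⟩
  have hr' := lt_nroots hC.af r.isLt
  refine ⟨r.val, t, (posA_iff hC.af r.isLt).mp hr, ?_, coe_xg hC.af hr' t⟩
  unfold ChevalleyDatum.rootSubgroup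
  rw [MonoidHom.map_closure, Subgroup.closure_le]
  rintro _ ⟨g₀, ⟨t₀, ht₀⟩, rfl⟩
  have e : g₀ = xg hC.af F r.val t₀ := Units.ext (by rw [ht₀, coe_xg hC.af hr'])
  rw [e]
  exact hrV t₀

theorem umS_le_pos (n : GL D.Idx F) : UmS D F n ≤ D.posUnipotent F := by
  apply Subgroup.closure_mono
  rintro x ⟨r, t, hr, -, hx⟩
  exact ⟨r, t, hr, hx⟩

theorem umS_conj (n : GL D.Idx F) {u : GL D.Idx F} (hu : u ∈ UmS D F n) :
    n * u * n⁻¹ ∈ D.negUnipotent F := by
  have h : (UmS D F n).map (MulAut.conj n).toMonoidHom ≤ D.negUnipotent F := by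
    unfold UmS
    rw [MonoidHom.map_closure, Subgroup.closure_le]
    rintro _ ⟨x, ⟨r, t, -, hrV, hx⟩, rfl⟩
    exact hrV (Subgroup.mem_map_of_mem _ (Subgroup.subset_closure ⟨t, hx⟩))
  have := h (Subgroup.mem_map_of_mem _ hu)
  simpa using this

include hC hadd hinj in
/-- The Bruhat normal form. -/
theorem normal_form :
    (∀ g ∈ D.group F, ∃ b ∈ D.borelSubgroup F, ∃ n ∈ D.monomialSubgroup F,
      ∃ u ∈ UmS D F n, g = b * n * u) ∧
    (∀ (b b' n n' u u' : GL D.Idx F), b ∈ D.borelSubgroup F → b' ∈ D.borelSubgroup F →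
      n ∈ D.monomialSubgroup F → n' ∈ D.monomialSubgroup F →
      u ∈ UmS D F n → u' ∈ UmS D F n' →
      b * n * u = b' * n' * u' → n⁻¹ * n' ∈ D.diagonalSubgroup F ∧ (n = n' → b = b' ∧ u = u')) := by
  constructor
  · intro g hg
    obtain ⟨n', hn', hg'⟩ := Cfsg.Agent.S0308.result (bnPair hC hadd hinj) ⟨g, hg⟩
    rw [DoubleCoset.mem_doubleCoset] at hg'
    obtain ⟨b₁, hb₁, b₂, hb₂, e⟩ := hg'
    have hn : (n' : GL D.Idx F) ∈ D.monomialSubgroup F := Subgroup.mem_subgroupOf.mp hn'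
    have hb₁' : (b₁ : GL D.Idx F) ∈ D.borelSubgroup F := Subgroup.mem_subgroupOf.mp hb₁
    have hb₂' : (b₂ : GL D.Idx F) ∈ D.borelSubgroup F := Subgroup.mem_subgroupOf.mp hb₂
    obtain ⟨b', hb', u, hu, e2⟩ := claim hC hadd hinj hn (b₂ : GL D.Idx F)
      (by rw [rd_B]; exact hb₂')
    rw [rd_B] at hb'
    refine ⟨(b₁ : GL D.Idx F) * b', Subgroup.mul_mem _ hb₁' hb', (n' : GL D.Idx F), hn, u,
      um_le hC hadd _ hu, ?_⟩
    have e' : g = (b₁ : GL D.Idx F) * (n' : GL D.Idx F) * (b₂ : GL D.Idx F) := by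
      have := congrArg Subtype.val e
      simpa using this
    rw [e', mul_assoc, e2]
    group
  · intro b b' n n' u u' hb hb' hn hn' hu hu' e
    have huB : u ∈ D.borelSubgroup F := Subgroup.mem_sup_left (umS_le_pos n hu)
    have hu'B : u' ∈ D.borelSubgroup F := Subgroup.mem_sup_left (umS_le_pos n' hu')
    have hBG := borelSubgroup_le hC.af F
    have hNG := monomialSubgroup_le hC.af F
    constructor
    · have hmem : (⟨n', hNG hn'⟩ : ↥(D.group F)) ∈
          DoubleCoset.doubleCoset (⟨n, hNG hn⟩ : ↥(D.group F))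
            (((D.borelSubgroup F).subgroupOf (D.group F) : Subgroup ↥(D.group F)) :
              Set ↥(D.group F)) ((D.borelSubgroup F).subgroupOf (D.group F)) := by
        rw [DoubleCoset.mem_doubleCoset]
        refine ⟨⟨b'⁻¹ * b, hBG (Subgroup.mul_mem _ (Subgroup.inv_mem _ hb') hb)⟩,
          Subgroup.mem_subgroupOf.mpr (Subgroup.mul_mem _ (Subgroup.inv_mem _ hb') hb),
          ⟨u * u'⁻¹, hBG (Subgroup.mul_mem _ huB (Subgroup.inv_mem _ hu'B))⟩,
          Subgroup.mem_subgroupOf.mpr (Subgroup.mul_mem _ huB (Subgroup.inv_mem _ hu'B)), ?_⟩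
        apply Subtype.ext
        show n' = b'⁻¹ * b * n * (u * u'⁻¹)
        have e3 : b'⁻¹ * b * n * (u * u'⁻¹) = b'⁻¹ * (b * n * u) * u'⁻¹ := by group
        rw [e3, e]
        group
      have heq := DoubleCoset.doubleCoset_eq_of_mem hmem
      have h1 := (Cfsg.Agent.S0309.result (bnPair hC hadd hinj)
        (n := ⟨n, hNG hn⟩) (n' := ⟨n', hNG hn'⟩) (Subgroup.mem_subgroupOf.mpr hn)
        (Subgroup.mem_subgroupOf.mpr hn')).mp heq.symm
      have h2 : (⟨n, hNG hn⟩ : ↥(D.group F))⁻¹ * ⟨n', hNG hn'⟩ ∈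
          (D.borelSubgroup F).subgroupOf (D.group F) ⊓
            (D.monomialSubgroup F).subgroupOf (D.group F) :=
        ⟨h1, Subgroup.mem_subgroupOf.mpr (Subgroup.mul_mem _ (Subgroup.inv_mem _ hn) hn')⟩
      rw [inf_eq_H hC] at h2
      exact Subgroup.mem_subgroupOf.mp h2
    · rintro rfl
      have h1 : n * (u * u'⁻¹) * n⁻¹ ∈ D.negUnipotent F :=
        umS_conj n (Subgroup.mul_mem _ hu (Subgroup.inv_mem _ hu'))
      have h2 : n * (u * u'⁻¹) * n⁻¹ = b⁻¹ * b' := by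
        have e3 : n * (u * u'⁻¹) * n⁻¹ = b⁻¹ * (b * n * u) * u'⁻¹ * n⁻¹ := by group
        rw [e3, e]
        group
      have h3 : n * (u * u'⁻¹) * n⁻¹ ∈ D.borelSubgroup F ⊓ D.negUnipotent F :=
        ⟨by rw [h2]; exact Subgroup.mul_mem _ (Subgroup.inv_mem _ hb) hb', h1⟩
      rw [borel_inf_negUnipotent hC.af hC.pw, Subgroup.mem_bot] at h3
      have hbb : b = b' := by
        rw [h3] at h2
        exact inv_mul_eq_one.mp h2.symm
      have huu : u = u' := by
        have e4 : u * u'⁻¹ = n⁻¹ * (n * (u * u'⁻¹) * n⁻¹) * n := by group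
        rw [h3] at e4
        have e5 : u * u'⁻¹ = 1 := by rw [e4]; group
        exact mul_inv_eq_one.mp e5
      exact ⟨hbb, huu⟩

end

end Cfsg.Agent.Lib.Helper19.BruhatChev
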