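import Cfsg.Agent.Lib.Helper19.CoxQuot
import Cfsg.Agent.Lib.Helper18.Mono
import Cfsg.Agent.Lib.Helper36.ChevGen
import Mathlib

set_option autoImplicit false

/-!
`N / H` of a Chevalley group (monomial subgroup modulo diagonal subgroup) is the Coxeter group
of the type: the generic argument, from the facts about the `n_p` of `Helper18` and `Helper36`
and a faithful table representation of the Coxeter group on the root indices.
-/

namespace Cfsg.Agent.Lib.Helper19.CoxChev

open Cfsg Cfsg.Lie Cfsg.Agent.Lib.Helper19.CoxUpper Cfsg.Agent.Lib.Helper19.CoxLower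
  Cfsg.Agent.Lib.Helper18.Fast Cfsg.Agent.Lib.Helper18.AllRoots Cfsg.Agent.Lib.Helper18.Mono
  Cfsg.Agent.Lib.Helper36.ChevWeyl

variable {A : FData} {D : ChevalleyDatum} {F : Type*} [Field F]

/-! ### The permutation of the root indices given by a monomial matrix -/

/-- The root index to which a monomial matrix maps the root index `s`. -/
noncomputable def sig (g : monoSubgroup D F) (s : Fin D.nroots) : Fin D.nroots :=
  Classical.choose (g.2.1.1 s)

theorem sig_spec (g : monoSubgroup D F) (s : Fin D.nroots) :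
    ∀ b : D.Idx, b ≠ Sum.inr (sig g s) →
      ((g : GL D.Idx F) : Matrix D.Idx D.Idx F) b (Sum.inr s) = 0 :=
  Classical.choose_spec (g.2.1.1 s)

theorem col_ne_zero (g : GL D.Idx F) (c : D.Idx) :
    ∃ b, (g : Matrix D.Idx D.Idx F) b c ≠ 0 := by
  by_contra h0'
  have h : ∀ b, (g : Matrix D.Idx D.Idx F) b c = 0 := fun b => by
    by_contra hb
    exact h0' ⟨b, hb⟩
  have h0 : ((g⁻¹ : GL D.Idx F) : Matrix D.Idx D.Idx F) * (g : Matrix D.Idx D.Idx F) = 1 := by
    rw [← Units.val_mul, inv_mul_cancel]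
    rfl
  have h1 := congrFun (congrFun h0 c) c
  rw [Matrix.mul_apply, Matrix.one_apply_eq,
    Finset.sum_eq_zero (fun b _ => by rw [h b, mul_zero])] at h1
  exact zero_ne_one h1

theorem sig_entry (g : monoSubgroup D F) (s : Fin D.nroots) :
    ((g : GL D.Idx F) : Matrix D.Idx D.Idx F) (Sum.inr (sig g s)) (Sum.inr s) ≠ 0 := by
  obtain ⟨b, hb⟩ := col_ne_zero (g : GL D.Idx F) (Sum.inr s)
  by_cases h : b = Sum.inr (sig g s)
  · rwa [h] at hb
  · exact absurd (sig_spec g s b h) hb

theorem sig_unique (g : monoSubgroup D F) (s u : Fin D.nroots)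
    (h : ((g : GL D.Idx F) : Matrix D.Idx D.Idx F) (Sum.inr u) (Sum.inr s) ≠ 0) :
    sig g s = u := by
  by_contra hne
  exact h (sig_spec g s (Sum.inr u) (fun e => hne (Sum.inr.inj e).symm))

theorem sig_mul (g h : monoSubgroup D F) (s : Fin D.nroots) :
    sig (g * h) s = sig g (sig h s) := by
  apply sig_unique
  show (((g : GL D.Idx F) * (h : GL D.Idx F) : GL D.Idx F) : Matrix D.Idx D.Idx F)
    (Sum.inr (sig g (sig h s))) (Sum.inr s) ≠ 0
  rw [Units.val_mul, Matrix.mul_apply, Finset.sum_eq_single (Sum.inr (sig h s))]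
  · exact mul_ne_zero (sig_entry g _) (sig_entry h s)
  · intro b _ hb
    rw [sig_spec h s b hb, mul_zero]
  · intro hx
    exact absurd (Finset.mem_univ _) hx

theorem sig_one (s : Fin D.nroots) : sig (1 : monoSubgroup D F) s = s := by
  apply sig_unique
  show ((1 : GL D.Idx F) : Matrix D.Idx D.Idx F) (Sum.inr s) (Sum.inr s) ≠ 0
  rw [Units.val_one, Matrix.one_apply_eq]
  exact one_ne_zero

/-- The action of the monomial matrices on the root indices, as a homomorphism. -/
noncomputable def sigHom (D : ChevalleyDatum) (F : Type*) [Field F] :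
    monoSubgroup D F →* Equiv.Perm (Fin D.nroots) where
  toFun g := ⟨sig g, sig g⁻¹, fun s => by rw [← sig_mul, inv_mul_cancel, sig_one],
    fun s => by rw [← sig_mul, mul_inv_cancel, sig_one]⟩
  map_one' := by
    ext s
    exact congrArg Fin.val (sig_one s)
  map_mul' g h := by
    ext s
    exact congrArg Fin.val (sig_mul g h s)

theorem sigHom_apply (g : monoSubgroup D F) (s : Fin D.nroots) : sigHom D F g s = sig g s := rfl

/-- The action of `N` on the natural numbers through the root indices. -/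
noncomputable def theta (hF : AFacts A D) (F : Type*) [Field F] :
    ↥(D.monomialSubgroup F) →* Equiv.Perm ℕ :=
  (Equiv.Perm.extendDomainHom (Fin.equivSubtype (n := D.nroots))).comp
    ((sigHom D F).comp (Subgroup.inclusion (monomial_le_mono hF F)))

theorem theta_lt (hF : AFacts A D) (g : ↥(D.monomialSubgroup F)) (x : ℕ) (hx : x < D.nroots) :
    theta hF F g x = (sig (Subgroup.inclusion (monomial_le_mono hF F) g) ⟨x, hx⟩ : ℕ) := by
  unfold theta
  rw [MonoidHom.comp_apply, MonoidHom.comp_apply, Equiv.Perm.extendDomainHom_apply]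
  have h := Equiv.Perm.extendDomain_apply_image
    (sigHom D F (Subgroup.inclusion (monomial_le_mono hF F) g))
    (Fin.equivSubtype (n := D.nroots)) ⟨x, hx⟩
  exact h

theorem theta_ge (hF : AFacts A D) (g : ↥(D.monomialSubgroup F)) (x : ℕ) (hx : ¬ x < D.nroots) :
    theta hF F g x = x := by
  unfold theta
  rw [MonoidHom.comp_apply, MonoidHom.comp_apply, Equiv.Perm.extendDomainHom_apply]
  exact Equiv.Perm.extendDomain_apply_not_subtype _ _ hx

/-- If the column `x` of `g` has a non-zero entry in the row `y`, then `g` maps `x` to `y`. -/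
theorem theta_eq_of_entry (hF : AFacts A D) (g : ↥(D.monomialSubgroup F)) (x y : ℕ)
    (hx : x < D.nroots) (hy : y < D.nroots)
    (h : (((g : GL D.Idx F)) : Matrix D.Idx D.Idx F) (Sum.inr ⟨y, hy⟩) (Sum.inr ⟨x, hx⟩) ≠ 0) :
    theta hF F g x = y := by
  rw [theta_lt hF g x hx, sig_unique (Subgroup.inclusion (monomial_le_mono hF F) g) ⟨x, hx⟩
    ⟨y, hy⟩ h]

theorem theta_diag (hF : AFacts A D) (g : ↥(D.monomialSubgroup F))
    (hg : (g : GL D.Idx F) ∈ D.diagonalSubgroup F) : theta hF F g = 1 := by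
  ext x
  by_cases hx : x < D.nroots
  · rw [theta_lt hF g x hx]
    obtain ⟨c, _, e⟩ := Cfsg.Agent.Lib.Helper18.Torus.exists_tor_of_mem hF (g : GL D.Idx F) hg
    have h1 := sig_entry (Subgroup.inclusion (monomial_le_mono hF F) g) ⟨x, hx⟩
    have h2 : sig (Subgroup.inclusion (monomial_le_mono hF F) g) ⟨x, hx⟩ = ⟨x, hx⟩ := by
      by_contra hne
      apply h1
      show ((g : GL D.Idx F) : Matrix D.Idx D.Idx F) _ _ = 0
      rw [e]
      exact Matrix.diagonal_apply_ne _ (fun e' => hne (Sum.inr.inj e'))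
    rw [h2]
    rfl
  · rw [theta_ge hF g x hx]
    rfl

/-! ### The elements `n_r(t)` as units, and conjugation by the `n_p` -/

/-- `n_r(t)` as a unit. -/
def nn (W : WeylData D F) (r : ℕ) (t : F) : GL D.Idx F :=
  Cfsg.Agent.Lib.Helper36.ChevGen.xU D W.inv r t *
    Cfsg.Agent.Lib.Helper36.ChevGen.xU D W.inv (D.neg r) (-t⁻¹) *
    Cfsg.Agent.Lib.Helper36.ChevGen.xU D W.inv r t

theorem nn_val (W : WeylData D F) (r : ℕ) (t : F) :
    ((nn W r t : GL D.Idx F) : Matrix D.Idx D.Idx F) = D.nMat F r t := by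
  simp [nn, Cfsg.Agent.Lib.Helper36.ChevGen.xU_val, ChevalleyDatum.nMat, ChevalleyDatum.nWord,
    ChevalleyDatum.wordMat, mul_assoc]

theorem nn_eq18 (hF : AFacts A D) (W : WeylData D F) (r : ℕ) (hr : r < D.nroots) (t : F) :
    nn W r t = Cfsg.Agent.Lib.Helper18.Sub.nU hF F r hr t :=
  Units.ext (by rw [nn_val]; rfl)

theorem nn_eq36 (W : WeylData D F) (i : ℕ) :
    nn W (D.simple i) 1 = Cfsg.Agent.Lib.Helper36.ChevGen.nU D W.inv i :=
  Units.ext (by rw [nn_val, Cfsg.Agent.Lib.Helper36.ChevGen.nU_val])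

theorem nn_mem (hF : AFacts A D) (W : WeylData D F) (r : ℕ) (hr : r < D.nroots) :
    nn W r 1 ∈ D.monomialSubgroup F := by
  rw [nn_eq18 hF W r hr]
  exact Cfsg.Agent.Lib.Helper18.Sub.nU_one_mem hF r hr

/-- `n_r(-1) = h_r(-1) n_r(1)`. -/
theorem nn_neg_one (hF : AFacts A D) (W : WeylData D F) (r : ℕ) (hr : r < D.nroots) :
    ∃ h ∈ D.diagonalSubgroup F, nn W r (-1) = h * nn W r 1 := by
  refine ⟨Cfsg.Agent.Lib.Helper18.Sub.hU hF F r hr (-1),
    Cfsg.Agent.Lib.Helper18.Sub.hU_mem hF r hr (by simp), ?_⟩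
  rw [nn_eq18 hF W r hr, nn_eq18 hF W r hr]
  exact Cfsg.Agent.Lib.Helper18.Sub.nU_eq hF r hr (-1)

/-- `n_r(1)² ∈ H`. -/
theorem nn_sq (hF : AFacts A D) (W : WeylData D F) (r : ℕ) (hr : r < D.nroots) :
    nn W r 1 * nn W r 1 ∈ D.diagonalSubgroup F := by
  obtain ⟨h, hh, e⟩ := nn_neg_one hF W r hr
  have e2 : nn W r (-1) = (nn W r 1)⁻¹ := by
    rw [nn_eq18 hF W r hr, nn_eq18 hF W r hr]
    exact Cfsg.Agent.Lib.Helper18.Norm.nU_neg_one_eq_inv hF r hr
  have e3 : nn W r 1 * nn W r 1 = h⁻¹ := by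
    rw [e2] at e
    have : h = (nn W r 1)⁻¹ * (nn W r 1)⁻¹ := eq_mul_inv_of_mul_eq e.symm
    rw [this, mul_inv_rev, inv_inv]
  rw [e3]
  exact Subgroup.inv_mem _ hh

/-- `n_p n_s(1) = n_{w_p s}(η_s) n_p`. -/
theorem nn_conj (hF : AFacts A D) (W : WeylData D F)
    (hneg : ∀ i < D.rank, ∀ s < D.nroots, D.reflectRoot i (D.neg s) = D.neg (D.reflectRoot i s))
    (i : ℕ) (hi : i < D.rank) (η : ℕ → ℤ) (wr : WeylRoot D F i η) (s : ℕ) (hs : s < D.nroots) :
    nn W (D.simple i) 1 * nn W s 1 =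
      nn W (D.reflectRoot i s) ((η s : ℤ) : F) * nn W (D.simple i) 1 := by
  rw [nn_eq36]
  have hns := Cfsg.Agent.Lib.Helper18.Sub.neg_lt hF hs
  have e1 := Cfsg.Agent.Lib.Helper36.ChevGen.nU_mul D W i η wr s hs 1
    (Cfsg.Agent.Lib.Helper36.ChevGen.xU D W.inv s 1)
    (Cfsg.Agent.Lib.Helper36.ChevGen.xU D W.inv (D.reflectRoot i s) (((η s : ℤ) : F) * 1)) rfl rfl
  have e2 := Cfsg.Agent.Lib.Helper36.ChevGen.nU_mul D W i η wr (D.neg s) hns (-(1 : F)⁻¹)
    (Cfsg.Agent.Lib.Helper36.ChevGen.xU D W.inv (D.neg s) (-(1 : F)⁻¹))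
    (Cfsg.Agent.Lib.Helper36.ChevGen.xU D W.inv (D.reflectRoot i (D.neg s))
      (((η (D.neg s) : ℤ) : F) * (-(1 : F)⁻¹))) rfl rfl
  have hη : ((η (D.neg s) : ℤ) : F) * (-(1 : F)⁻¹) = -(((η s : ℤ) : F))⁻¹ := by
    have h1 := (wr.eta_refl s hs).2
    rcases wr.sign s hs with h | h <;> rcases wr.sign (D.neg s) hns with h' | h' <;>
      simp [h, h'] at h1 ⊢
  rw [mul_one] at e1
  rw [hη, hneg i hi s hs] at e2
  unfold nn
  calc Cfsg.Agent.Lib.Helper36.ChevGen.nU D W.inv i *
        (Cfsg.Agent.Lib.Helper36.ChevGen.xU D W.inv s 1 *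
          Cfsg.Agent.Lib.Helper36.ChevGen.xU D W.inv (D.neg s) (-(1 : F)⁻¹) *
          Cfsg.Agent.Lib.Helper36.ChevGen.xU D W.inv s 1)
      = (Cfsg.Agent.Lib.Helper36.ChevGen.nU D W.inv i *
          Cfsg.Agent.Lib.Helper36.ChevGen.xU D W.inv s 1) *
          Cfsg.Agent.Lib.Helper36.ChevGen.xU D W.inv (D.neg s) (-(1 : F)⁻¹) *
          Cfsg.Agent.Lib.Helper36.ChevGen.xU D W.inv s 1 := by simp only [mul_assoc]
    _ = Cfsg.Agent.Lib.Helper36.ChevGen.xU D W.inv (D.reflectRoot i s) ((η s : ℤ) : F) *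
          (Cfsg.Agent.Lib.Helper36.ChevGen.nU D W.inv i *
            Cfsg.Agent.Lib.Helper36.ChevGen.xU D W.inv (D.neg s) (-(1 : F)⁻¹)) *
          Cfsg.Agent.Lib.Helper36.ChevGen.xU D W.inv s 1 := by rw [e1]; simp only [mul_assoc]
    _ = Cfsg.Agent.Lib.Helper36.ChevGen.xU D W.inv (D.reflectRoot i s) ((η s : ℤ) : F) *
          Cfsg.Agent.Lib.Helper36.ChevGen.xU D W.inv (D.neg (D.reflectRoot i s))
            (-(((η s : ℤ) : F))⁻¹) *
          (Cfsg.Agent.Lib.Helper36.ChevGen.nU D W.inv i *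
            Cfsg.Agent.Lib.Helper36.ChevGen.xU D W.inv s 1) := by rw [e2]; simp only [mul_assoc]
    _ = Cfsg.Agent.Lib.Helper36.ChevGen.xU D W.inv (D.reflectRoot i s) ((η s : ℤ) : F) *
          Cfsg.Agent.Lib.Helper36.ChevGen.xU D W.inv (D.neg (D.reflectRoot i s))
            (-(((η s : ℤ) : F))⁻¹) *
          Cfsg.Agent.Lib.Helper36.ChevGen.xU D W.inv (D.reflectRoot i s) ((η s : ℤ) : F) *
          Cfsg.Agent.Lib.Helper36.ChevGen.nU D W.inv i := by rw [e1]; simp only [mul_assoc]

/-- `n_p n_s(1) n_p⁻¹ ∈ H n_{w_p s}(1)`. -/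
theorem nn_conj_mod (hF : AFacts A D) (W : WeylData D F)
    (hneg : ∀ i < D.rank, ∀ s < D.nroots, D.reflectRoot i (D.neg s) = D.neg (D.reflectRoot i s))
    (i : ℕ) (hi : i < D.rank) (s : ℕ) (hs : s < D.nroots) :
    D.reflectRoot i s < D.nroots ∧ ∃ h ∈ D.diagonalSubgroup F,
      nn W (D.simple i) 1 * nn W s 1 = h * nn W (D.reflectRoot i s) 1 * nn W (D.simple i) 1 := by
  obtain ⟨η, wr⟩ := W.root i hi
  have hlt := wr.refl_lt s hs
  refine ⟨hlt, ?_⟩
  have e := nn_conj hF W hneg i hi η wr s hs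
  rcases wr.sign s hs with h | h
  · refine ⟨1, Subgroup.one_mem _, ?_⟩
    rw [e, h, one_mul]
    simp
  · obtain ⟨h', hh', e'⟩ := nn_neg_one hF W (D.reflectRoot i s) hlt
    refine ⟨h', hh', ?_⟩
    rw [e, h, ← e']
    simp

/-- `n_p ∈ H n_{-p}(1)` for a fundamental root `p`. -/
theorem nn_neg_simple (hF : AFacts A D) (W : WeylData D F)
    (hneg : ∀ i < D.rank, ∀ s < D.nroots, D.reflectRoot i (D.neg s) = D.neg (D.reflectRoot i s))
    (i : ℕ) (hi : i < D.rank) :
    D.simple i < D.nroots ∧ D.neg (D.simple i) < D.nroots ∧ ∃ h ∈ D.diagonalSubgroup F,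
      nn W (D.simple i) 1 = h * nn W (D.neg (D.simple i)) 1 := by
  obtain ⟨η, wr⟩ := W.root i hi
  refine ⟨wr.simple_lt, wr.neg_lt, ?_⟩
  have e := nn_conj hF W hneg i hi η wr (D.simple i) wr.simple_lt
  have hr : D.reflectRoot i (D.simple i) = D.neg (D.simple i) := by
    simp [ChevalleyDatum.reflectRoot]
  rw [hr, wr.eta_simple] at e
  obtain ⟨h', hh', e'⟩ := nn_neg_one hF W (D.neg (D.simple i)) wr.neg_lt
  refine ⟨h', hh', ?_⟩
  have e2 : nn W (D.simple i) 1 = nn W (D.neg (D.simple i)) (((-1 : ℤ) : ℤ) : F) := by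
    have := mul_right_cancel e
    exact this
  rw [e2, ← e']
  simp

/-! ### The classes of the `n_r(1)` modulo `H` -/

theorem mk_eq_of_mul [((D.diagonalSubgroup F).subgroupOf (D.monomialSubgroup F)).Normal]
    (x y : ↥(D.monomialSubgroup F)) (h : GL D.Idx F) (hh : h ∈ D.diagonalSubgroup F)
    (e : (x : GL D.Idx F) = h * (y : GL D.Idx F)) :
    QuotientGroup.mk' ((D.diagonalSubgroup F).subgroupOf (D.monomialSubgroup F)) x =
      QuotientGroup.mk' ((D.diagonalSubgroup F).subgroupOf (D.monomialSubgroup F)) y := by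
  have hx : x = ⟨h, Cfsg.Agent.Lib.Helper18.Norm.diagonal_le_monomial D F hh⟩ * y :=
    Subtype.ext e
  have h1 : QuotientGroup.mk' ((D.diagonalSubgroup F).subgroupOf (D.monomialSubgroup F))
      ⟨h, Cfsg.Agent.Lib.Helper18.Norm.diagonal_le_monomial D F hh⟩ = 1 := by
    rw [QuotientGroup.mk'_apply, QuotientGroup.eq_one_iff, Subgroup.mem_subgroupOf]
    exact hh
  rw [hx, map_mul, h1, one_mul]

/-- The class of `n_r(1)` modulo `H`. -/
noncomputable def cls (hF : AFacts A D) (W : WeylData D F)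
    [((D.diagonalSubgroup F).subgroupOf (D.monomialSubgroup F)).Normal] (r : ℕ) :
    ↥(D.monomialSubgroup F) ⧸ (D.diagonalSubgroup F).subgroupOf (D.monomialSubgroup F) :=
  if hr : r < D.nroots then
    QuotientGroup.mk' ((D.diagonalSubgroup F).subgroupOf (D.monomialSubgroup F))
      ⟨nn W r 1, nn_mem hF W r hr⟩
  else 1

theorem cls_eq (hF : AFacts A D) (W : WeylData D F)
    [((D.diagonalSubgroup F).subgroupOf (D.monomialSubgroup F)).Normal] (r : ℕ)
    (hr : r < D.nroots) :
    cls hF W r = QuotientGroup.mk' ((D.diagonalSubgroup F).subgroupOf (D.monomialSubgroup F))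
      ⟨nn W r 1, nn_mem hF W r hr⟩ := dif_pos hr

theorem cls_sq (hF : AFacts A D) (W : WeylData D F)
    [((D.diagonalSubgroup F).subgroupOf (D.monomialSubgroup F)).Normal] (r : ℕ)
    (hr : r < D.nroots) : cls hF W r * cls hF W r = 1 := by
  rw [cls_eq hF W r hr, ← map_mul, QuotientGroup.mk'_apply, QuotientGroup.eq_one_iff,
    Subgroup.mem_subgroupOf]
  exact nn_sq hF W r hr

theorem cls_conj (hF : AFacts A D) (W : WeylData D F)
    [((D.diagonalSubgroup F).subgroupOf (D.monomialSubgroup F)).Normal]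
    (hneg : ∀ i < D.rank, ∀ s < D.nroots, D.reflectRoot i (D.neg s) = D.neg (D.reflectRoot i s))
    (i : ℕ) (hi : i < D.rank) (s : ℕ) (hs : s < D.nroots) :
    D.reflectRoot i s < D.nroots ∧
      cls hF W (D.simple i) * cls hF W s * (cls hF W (D.simple i))⁻¹ =
        cls hF W (D.reflectRoot i s) := by
  obtain ⟨hlt, h, hh, e⟩ := nn_conj_mod hF W hneg i hi s hs
  obtain ⟨hsi, _, _⟩ := nn_neg_simple hF W hneg i hi
  refine ⟨hlt, ?_⟩
  rw [mul_inv_eq_iff_eq_mul, cls_eq hF W _ hsi, cls_eq hF W s hs, cls_eq hF W _ hlt, ← map_mul,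
    ← map_mul]
  apply mk_eq_of_mul _ _ h hh
  show nn W (D.simple i) 1 * nn W s 1 = h * (nn W (D.reflectRoot i s) 1 * nn W (D.simple i) 1)
  rw [e, mul_assoc]

theorem cls_neg (hF : AFacts A D) (W : WeylData D F)
    [((D.diagonalSubgroup F).subgroupOf (D.monomialSubgroup F)).Normal]
    (hneg : ∀ i < D.rank, ∀ s < D.nroots, D.reflectRoot i (D.neg s) = D.neg (D.reflectRoot i s))
    (i : ℕ) (hi : i < D.rank) : cls hF W (D.neg (D.simple i)) = cls hF W (D.simple i) := by
  obtain ⟨h1, h2, h, hh, e⟩ := nn_neg_simple hF W hneg i hi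
  rw [cls_eq hF W _ h1, cls_eq hF W _ h2]
  exact (mk_eq_of_mul _ _ h hh e).symm

/-- Powers of a product of two involutions. -/
theorem pow_two_mul {Q : Type*} [Group Q] (a b : Q) (ha : a * a = 1) (hb : b * b = 1) (l : ℕ) :
    (a * b) ^ (2 * l) = ((a * b) ^ l * a * ((a * b) ^ l)⁻¹) * a ∧
      (a * b) ^ (2 * l + 1) = ((a * b) ^ l * a * ((a * b) ^ l)⁻¹) * b := by
  have hai : a⁻¹ = a := inv_eq_of_mul_eq_one_left ha
  have hbi : b⁻¹ = b := inv_eq_of_mul_eq_one_left hb
  have key : ∀ l : ℕ, a * ((a * b) ^ l)⁻¹ = (a * b) ^ l * a := by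
    intro l
    induction l with
    | zero => simp
    | succ l ih =>
      rw [pow_succ, mul_inv_rev, mul_inv_rev, hai, hbi, ← pow_succ, pow_succ']
      calc a * (b * a * ((a * b) ^ l)⁻¹) = a * b * (a * ((a * b) ^ l)⁻¹) := by
            simp only [mul_assoc]
        _ = a * b * (a * b) ^ l * a := by rw [ih]; simp only [mul_assoc]
  have e1 : (a * b) ^ l * a * ((a * b) ^ l)⁻¹ = (a * b) ^ l * ((a * b) ^ l * a) := by
    rw [mul_assoc, key]
  constructor
  · rw [e1, two_mul, pow_add]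
    simp only [mul_assoc]
    rw [ha, mul_one]
  · rw [e1, pow_succ, two_mul, pow_add]
    simp only [mul_assoc]

theorem cls_iter (hF : AFacts A D) (W : WeylData D F)
    [((D.diagonalSubgroup F).subgroupOf (D.monomialSubgroup F)).Normal]
    (hneg : ∀ i < D.rank, ∀ s < D.nroots, D.reflectRoot i (D.neg s) = D.neg (D.reflectRoot i s))
    (i j : ℕ) (hi : i < D.rank) (hj : j < D.rank) (l : ℕ) :
    (fun s => D.reflectRoot i (D.reflectRoot j s))^[l] (D.simple i) < D.nroots ∧
      (cls hF W (D.simple i) * cls hF W (D.simple j)) ^ l * cls hF W (D.simple i) *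
        ((cls hF W (D.simple i) * cls hF W (D.simple j)) ^ l)⁻¹ =
      cls hF W ((fun s => D.reflectRoot i (D.reflectRoot j s))^[l] (D.simple i)) := by
  induction l with
  | zero =>
    refine ⟨(nn_neg_simple hF W hneg i hi).1, ?_⟩
    simp
  | succ l ih =>
    obtain ⟨hlt, ih⟩ := ih
    rw [Function.iterate_succ_apply']
    obtain ⟨h1, e1⟩ := cls_conj hF W hneg j hj _ hlt
    obtain ⟨h2, e2⟩ := cls_conj hF W hneg i hi _ h1
    refine ⟨h2, ?_⟩
    rw [← e2, ← e1, ← ih, pow_succ', mul_inv_rev, mul_inv_rev]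
    simp only [mul_assoc]

theorem cls_rel (hF : AFacts A D) (W : WeylData D F)
    [((D.diagonalSubgroup F).subgroupOf (D.monomialSubgroup F)).Normal]
    (M : CoxeterMatrix (Fin D.rank))
    (hneg : ∀ i < D.rank, ∀ s < D.nroots, D.reflectRoot i (D.neg s) = D.neg (D.reflectRoot i s))
    (hbraid : ∀ i j : Fin D.rank, i ≠ j →
      (M i j % 2 = 0 →
        ((fun s => D.reflectRoot i (D.reflectRoot j s))^[M i j / 2] (D.simple i) = D.simple i ∨
         (fun s => D.reflectRoot i (D.reflectRoot j s))^[M i j / 2] (D.simple i) =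
           D.neg (D.simple i))) ∧
      (M i j % 2 = 1 →
        ((fun s => D.reflectRoot i (D.reflectRoot j s))^[M i j / 2] (D.simple i) = D.simple j ∨
         (fun s => D.reflectRoot i (D.reflectRoot j s))^[M i j / 2] (D.simple i) =
           D.neg (D.simple j))))
    (i j : Fin D.rank) :
    (cls hF W (D.simple i) * cls hF W (D.simple j)) ^ (M i j) = 1 := by
  have hsq : ∀ k : Fin D.rank, cls hF W (D.simple k) * cls hF W (D.simple k) = 1 :=
    fun k => cls_sq hF W _ (nn_neg_simple hF W hneg k k.isLt).1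
  by_cases hij : i = j
  · subst hij
    rw [M.diagonal, pow_one]
    exact hsq i
  · obtain ⟨hb0, hb1⟩ := hbraid i j hij
    obtain ⟨_, hc⟩ := cls_iter hF W hneg i j i.isLt j.isLt (M i j / 2)
    obtain ⟨p0, p1⟩ := pow_two_mul (cls hF W (D.simple i)) (cls hF W (D.simple j)) (hsq i) (hsq j)
      (M i j / 2)
    rcases Nat.mod_two_eq_zero_or_one (M i j) with h0 | h1
    · have hm : M i j = 2 * (M i j / 2) := by omega
      rw [hm, p0, hc]
      rcases hb0 h0 with h | h
      · rw [h]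
        exact hsq i
      · rw [h, cls_neg hF W hneg i i.isLt]
        exact hsq i
    · have hm : M i j = 2 * (M i j / 2) + 1 := by omega
      rw [hm, p1, hc]
      rcases hb1 h1 with h | h
      · rw [h]
        exact hsq j
      · rw [h, cls_neg hF W hneg j j.isLt]
        exact hsq j

/-- `N` is generated by `H` and the `n_p` for the fundamental roots `p`. -/
theorem monomial_le (hF : AFacts A D) (W : WeylData D F)
    (hneg : ∀ i < D.rank, ∀ s < D.nroots, D.reflectRoot i (D.neg s) = D.neg (D.reflectRoot i s)) :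
    D.monomialSubgroup F ≤ D.diagonalSubgroup F ⊔
      Subgroup.closure (Set.range (fun i : Fin D.rank => nn W (D.simple i) 1)) := by
  have hH : D.diagonalSubgroup F ≤ D.diagonalSubgroup F ⊔
      Subgroup.closure (Set.range (fun i : Fin D.rank => nn W (D.simple i) 1)) := le_sup_left
  have hS : ∀ i : Fin D.rank, nn W (D.simple i) 1 ∈ D.diagonalSubgroup F ⊔
      Subgroup.closure (Set.range (fun i : Fin D.rank => nn W (D.simple i) 1)) :=
    fun i => Subgroup.mem_sup_right (Subgroup.subset_closure ⟨i, rfl⟩)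
  unfold ChevalleyDatum.monomialSubgroup
  apply sup_le hH
  rw [Subgroup.closure_le]
  rintro g ⟨r, hr, hg⟩
  have hgr : g = nn W r 1 := Units.ext (by rw [hg, nn_val])
  rw [hgr]
  refine W.reach (fun s => s < D.nroots → nn W s 1 ∈ D.diagonalSubgroup F ⊔
    Subgroup.closure (Set.range (fun i : Fin D.rank => nn W (D.simple i) 1))) ?_ ?_ r hr hr
  · intro i hi
    obtain ⟨_, _, h, hh, e⟩ := nn_neg_simple hF W hneg i hi
    refine ⟨fun _ => hS ⟨i, hi⟩, fun _ => ?_⟩
    have e' : nn W (D.neg (D.simple i)) 1 = h⁻¹ * nn W (D.simple i) 1 := by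
      rw [e, inv_mul_cancel_left]
    rw [e']
    exact Subgroup.mul_mem _ (Subgroup.inv_mem _ (hH hh)) (hS ⟨i, hi⟩)
  · intro i hi s hQ hs
    obtain ⟨hlt, h, hh, e⟩ := nn_conj_mod hF W hneg i hi s hs
    have e' : nn W s 1 = (nn W (D.simple i) 1)⁻¹ *
        (h * nn W (D.reflectRoot i s) 1 * nn W (D.simple i) 1) := by
      rw [← e, inv_mul_cancel_left]
    rw [e']
    exact Subgroup.mul_mem _ (Subgroup.inv_mem _ (hS ⟨i, hi⟩))
      (Subgroup.mul_mem _ (Subgroup.mul_mem _ (hH hh) (hQ hlt)) (hS ⟨i, hi⟩))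

/-- `N / H` is the Coxeter group: the generic statement. -/
theorem chev_hom (hF : AFacts A D) (W : WeylData D F) (M : CoxeterMatrix (Fin D.rank))
    (tc : List ℕ) (hr : Rep M D.nroots tc) (hinj : Function.Injective (rho M D.nroots tc hr))
    (htab : ∀ i < D.rank, ∀ s < D.nroots, stepT D.nroots tc i s = D.reflectRoot i s)
    (hneg : ∀ i < D.rank, ∀ s < D.nroots, D.reflectRoot i (D.neg s) = D.neg (D.reflectRoot i s))
    (hbraid : ∀ i j : Fin D.rank, i ≠ j →
      (M i j % 2 = 0 →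
        ((fun s => D.reflectRoot i (D.reflectRoot j s))^[M i j / 2] (D.simple i) = D.simple i ∨
         (fun s => D.reflectRoot i (D.reflectRoot j s))^[M i j / 2] (D.simple i) =
           D.neg (D.simple i))) ∧
      (M i j % 2 = 1 →
        ((fun s => D.reflectRoot i (D.reflectRoot j s))^[M i j / 2] (D.simple i) = D.simple j ∨
         (fun s => D.reflectRoot i (D.reflectRoot j s))^[M i j / 2] (D.simple i) =
           D.neg (D.simple j)))) :
    ∃ φ : ↥(D.monomialSubgroup F) →* M.Group, Function.Surjective φ ∧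
      φ.ker = (D.diagonalSubgroup F).subgroupOf (D.monomialSubgroup F) ∧
      ∀ (i : Fin D.rank) (g : ↥(D.monomialSubgroup F)),
        ((g : GL D.Idx F) : Matrix D.Idx D.Idx F) = D.nMat F (D.simple i) 1 →
          φ g = M.simple i := by
  have := Cfsg.Agent.Lib.Helper18.Norm.diagonal_normal_in_monomial hF F
  have hsl : ∀ i : Fin D.rank, D.simple i < D.nroots :=
    fun i => (nn_neg_simple hF W hneg i i.isLt).1
  have hmem : ∀ i : Fin D.rank, nn W (D.simple i) 1 ∈ D.monomialSubgroup F :=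
    fun i => nn_mem hF W _ (hsl i)
  have hrel : ∀ i j : Fin D.rank,
      (nn W (D.simple i) 1 * nn W (D.simple j) 1) ^ (M i j) ∈ D.diagonalSubgroup F := by
    intro i j
    have h1 := cls_rel hF W M hneg hbraid i j
    rw [cls_eq hF W _ (hsl i), cls_eq hF W _ (hsl j), ← map_mul, ← map_pow,
      QuotientGroup.mk'_apply, QuotientGroup.eq_one_iff, Subgroup.mem_subgroupOf] at h1
    exact h1
  have hth : ∀ (i : Fin D.rank) (x : ℕ),
      theta hF F ⟨nn W (D.simple i) 1, hmem i⟩ x = stepT D.nroots tc i.val x := by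
    intro i x
    by_cases hx : x < D.nroots
    · obtain ⟨η, wr⟩ := W.root i.val i.isLt
      have hlt := wr.refl_lt x hx
      rw [htab i.val i.isLt x hx]
      apply theta_eq_of_entry hF _ x (D.reflectRoot i x) hx hlt
      show ((nn W (D.simple i) 1 : GL D.Idx F) : Matrix D.Idx D.Idx F) _ _ ≠ 0
      rw [nn_val, wr.mat]
      simp only [Matrix.of_apply, Sum.elim_inr, if_true]
      rcases wr.sign x hx with h | h <;> rw [h] <;> simp
    · rw [theta_ge hF _ x hx, stepT_ge _ _ _ _ hx]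
  obtain ⟨φ, h1, h2, h3⟩ := Cfsg.Agent.Lib.Helper19.CoxQuot.exists_hom M D.nroots tc hr hinj
    (D.monomialSubgroup F) (D.diagonalSubgroup F)
    (Cfsg.Agent.Lib.Helper18.Norm.diagonal_le_monomial D F)
    (fun i : Fin D.rank => nn W (D.simple i) 1) hmem (monomial_le hF W hneg) hrel
    (theta hF F) (fun g hg => theta_diag hF g hg) hth
  refine ⟨φ, h1, h2, ?_⟩
  intro i g hg
  have hgi : g = ⟨nn W (D.simple i) 1, hmem i⟩ :=
    Subtype.ext (Units.ext (by rw [hg, nn_val]))
  rw [hgi]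
  exact h3 i

/-! ### Boolean checks of the table facts -/

/-- The root fact behind the braid relation of the reflections `i`, `j` with `m = M i j`. -/
def braidOK (D : ChevalleyDatum) (i j m : ℕ) : Bool :=
  if m % 2 = 0 then
    ((fun s => D.reflectRoot i (D.reflectRoot j s))^[m / 2] (D.simple i) == D.simple i ||
      (fun s => D.reflectRoot i (D.reflectRoot j s))^[m / 2] (D.simple i) == D.neg (D.simple i))
  else
    ((fun s => D.reflectRoot i (D.reflectRoot j s))^[m / 2] (D.simple i) == D.simple j ||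
      (fun s => D.reflectRoot i (D.reflectRoot j s))^[m / 2] (D.simple i) == D.neg (D.simple j))

/-- The table facts: the coded table `tc` is the table of the reflections `reflectRoot`, these
commute with `neg`, and the root facts behind the braid relations hold. -/
def tabCheck (D : ChevalleyDatum) (mc : ℕ) (tc : List ℕ) : Bool :=
  (List.range D.rank).all (fun i => (List.range D.nroots).all (fun s =>
    (stepT D.nroots tc i s == D.reflectRoot i s) &&
      (D.reflectRoot i (D.neg s) == D.neg (D.reflectRoot i s)))) &&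
  (List.range D.rank).all (fun i => (List.range D.rank).all (fun j =>
    (i == j) || braidOK D i j (mc / 16 ^ (i * D.rank + j) % 16)))

/-- `N / H` is the Coxeter group, from Boolean checks. -/
theorem chev_hom_of_checks (hF : AFacts A D) (W : WeylData D F)
    (M : CoxeterMatrix (Fin D.rank)) (mc : ℕ) (hmc : mcCheck M mc = true) (tc : List ℕ)
    (hperm : permCheck D.rank mc D.nroots tc = true) (levels : List (ℕ × List (List ℕ)))
    (hchain : chainCheck D.rank D.nroots tc levels = true) (N : ℕ) (hN : N ≠ 0)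
    (hsize : chainSize levels = N) (hcard : Nat.card M.Group = N)
    (htab : tabCheck D mc tc = true) :
    ∃ φ : ↥(D.monomialSubgroup F) →* M.Group, Function.Surjective φ ∧
      φ.ker = (D.diagonalSubgroup F).subgroupOf (D.monomialSubgroup F) ∧
      ∀ (i : Fin D.rank) (g : ↥(D.monomialSubgroup F)),
        ((g : GL D.Idx F) : Matrix D.Idx D.Idx F) = D.nMat F (D.simple i) 1 →
          φ g = M.simple i := by
  have hM := mcCheck_sound M mc hmc
  have hfin : Finite M.Group := Nat.finite_of_card_ne_zero (by rw [hcard]; exact hN)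
  have hinj := (card_inj M D.nroots tc (rep_of_check M mc hM D.nroots tc hperm) levels hchain N
    hsize hfin (le_of_eq hcard)).2
  unfold tabCheck at htab
  rw [Bool.and_eq_true, List.all_eq_true, List.all_eq_true] at htab
  obtain ⟨ht1, ht2⟩ := htab
  have h1 : ∀ i < D.rank, ∀ s < D.nroots, stepT D.nroots tc i s = D.reflectRoot i s ∧
      D.reflectRoot i (D.neg s) = D.neg (D.reflectRoot i s) := by
    intro i hi s hs
    have h2 := ht1 i (List.mem_range.mpr hi)
    rw [List.all_eq_true] at h2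
    have h3 := h2 s (List.mem_range.mpr hs)
    rw [Bool.and_eq_true, beq_iff_eq, beq_iff_eq] at h3
    exact h3
  refine chev_hom hF W M tc _ hinj (fun i hi s hs => (h1 i hi s hs).1)
    (fun i hi s hs => (h1 i hi s hs).2) ?_
  intro i j hij
  have h2 := ht2 i.val (List.mem_range.mpr i.isLt)
  rw [List.all_eq_true] at h2
  have h3 := h2 j.val (List.mem_range.mpr j.isLt)
  rw [Bool.or_eq_true, beq_iff_eq] at h3
  rcases h3 with h3 | h3
  · exact absurd (Fin.ext h3) hij
  · rw [← hM i j] at h3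
    unfold braidOK at h3
    constructor
    · intro h0
      rw [if_pos h0, Bool.or_eq_true, beq_iff_eq, beq_iff_eq] at h3
      exact h3
    · intro h0
      rw [if_neg (by omega), Bool.or_eq_true, beq_iff_eq, beq_iff_eq] at h3
      exact h3

end Cfsg.Agent.Lib.Helper19.CoxChev
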