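import Cfsg.Agent.Lib.Helper19.CoxLower
import Mathlib

set_option autoImplicit false
set_option maxRecDepth 100000
set_option maxHeartbeats 4000000

/-!
Certificates for the Coxeter group of type B2: coset tables with rewriting steps (upper
bound for the order), a faithful permutation representation with a chain of transversals
(lower bound), and the resulting order, Coxeter number and centre.  Generated data.
-/

namespace Cfsg.Agent.Lib.Helper19.CoxDataB2

open Cfsg.Agent.Lib.Helper19.CoxUpper Cfsg.Agent.Lib.Helper19.CoxLower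

def mc : ℕ := 5185

theorem hmc : mcCheck (CoxeterMatrix.B 2) mc = true := by
  decide +kernel

def D0 : List (List ℕ) :=
  [[],
   [0]]

def T0 : List (List (ℕ × ℕ × ℕ)) :=
  [[(0, 1, 1)],
   [(0, 0, 64)]]

theorem lvl0 : LevelOK 2 mc 0 D0 T0 :=
  levelOK_of_check _ _ _ _ _ (by decide +kernel)

def D1 : List (List ℕ) :=
  [[],
   [1],
   [1, 0],
   [1, 0, 1]]

def T1 : List (List (ℕ × ℕ × ℕ)) :=
  [[(1, 0, 1), (0, 1, 1)],
   [(0, 2, 1), (0, 0, 64)],
   [(0, 1, 65), (0, 3, 1)],
   [(1, 3, 64), (0, 2, 66)]]

theorem lvl1 : LevelOK 2 mc 1 D1 T1 :=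
  levelOK_of_check _ _ _ _ _ (by decide +kernel)

def Ds : List (List (List ℕ)) := [D0, D1]

def Ts : List (List (List (ℕ × ℕ × ℕ))) := [T0, T1]

theorem allok : AllOK 2 mc Ds Ts := by
  intro k hk
  interval_cases k
  · exact lvl0
  · exact lvl1

theorem hbound : bound Ds 2 = 8 := by
  decide +kernel

def R : ℕ := 4

def tc : List ℕ :=
  [33751041,
   50397696]

def U : List (List ℕ) :=
  [[], [0], [1, 0], [0, 1, 0]]

def lv : List (ℕ × List (List ℕ)) :=
  (0, U) :: [(1, [[], [1]])]

def V : List (List ℕ) := [[1]]

theorem hperm : permCheck 2 mc R tc = true := by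
  decide +kernel

theorem hchain : chainCheck 2 R tc lv = true := by
  decide +kernel

theorem hsize : chainSize lv = 8 := by
  decide +kernel

theorem hrep : Rep (CoxeterMatrix.B 2) R tc :=
  rep_of_check _ mc (mcCheck_sound _ _ hmc) R tc hperm

theorem card_inj : Nat.card (CoxeterMatrix.B 2).Group = 8 ∧ Function.Injective (rho (CoxeterMatrix.B 2) R tc hrep) :=
  main _ mc hmc Ds Ts allok R tc hperm lv hchain _ hbound hsize

/-- The order of the Coxeter group of type B2. -/
theorem card : Nat.card (CoxeterMatrix.B 2).Group = 8 := card_inj.1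

theorem horder : orderCheck 2 R tc 4 = true := by
  decide +kernel

/-- The order of the Coxeter element of the Coxeter group of type B2. -/
theorem order : orderOf ((List.finRange 2).map (CoxeterMatrix.B 2).simple).prod = 4 :=
  orderOf_cox _ R tc hrep card_inj.2 4 horder

theorem hcenter : centerCheck 2 R tc 0 3 U V 2 = true := by
  decide +kernel

/-- The centre of the Coxeter group of type B2. -/
theorem center : Nat.card (Subgroup.center (CoxeterMatrix.B 2).Group) = 2 ∧
    Subgroup.center (CoxeterMatrix.B 2).Group ≤ Subgroup.zpowers ((List.finRange 2).map (CoxeterMatrix.B 2).simple).prod :=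
  center_two _ R tc hrep card_inj.2 0 3 U V 2 hcenter (by decide)

end Cfsg.Agent.Lib.Helper19.CoxDataB2
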