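import Cfsg.Agent.Lib.Helper19.CoxNormal
import Mathlib

set_option autoImplicit false

/-!
Folding of finite Coxeter groups by a symmetry of the diagram: the automorphism `graphHom` of the
Coxeter group permuting the simple reflections, the homomorphism `foldHom` from a second Coxeter
group mapping the simple reflections to words (products over the orbits), and a certificate,
checked in a faithful permutation representation with a chain of transversals, that every element
fixed by the automorphism is in the range of `foldHom`.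
-/

namespace Cfsg.Agent.Lib.Helper19.CoxFold

open Cfsg.Agent.Lib.Helper19.CoxUpper Cfsg.Agent.Lib.Helper19.CoxLower
  Cfsg.Agent.Lib.Helper19.CoxNormal

variable {n : ℕ}

/-- The words of the products of transversal elements, one from each level. -/
def prodsW : List (ℕ × List (List ℕ)) → List (List ℕ)
  | [] => [[]]
  | l :: rest => l.2.flatMap (fun u => (prodsW rest).map (fun w => u ++ w))

theorem prodsG_eq (M : CoxeterMatrix (Fin n)) : ∀ levels : List (ℕ × List (List ℕ)),
    prodsG M levels = (prodsW levels).map (fun w => M.toCoxeterSystem.wordProd (wd n w))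
  | [] => by
    show [1] = [M.toCoxeterSystem.wordProd (wd n [])]
    rfl
  | l :: rest => by
    show l.2.flatMap (fun u => (prodsG M rest).map
      (fun g => M.toCoxeterSystem.wordProd (wd n u) * g)) =
      (l.2.flatMap (fun u => (prodsW rest).map (fun w => u ++ w))).map
        (fun w => M.toCoxeterSystem.wordProd (wd n w))
    rw [prodsG_eq M rest, List.map_flatMap]
    congr 1
    funext u
    rw [List.map_map, List.map_map]
    congr 1
    funext w
    show M.toCoxeterSystem.wordProd (wd n u) * M.toCoxeterSystem.wordProd (wd n w) =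
      M.toCoxeterSystem.wordProd (wd n (u ++ w))
    rw [wd_append, CoxeterSystem.wordProd_append]

/-- every element of the group is the product of a word of the chain -/
theorem exists_word (M : CoxeterMatrix (Fin n)) (R : ℕ) (tc : List ℕ) (hr : Rep M R tc)
    (levels : List (ℕ × List (List ℕ))) (hc : chainCheck n R tc levels = true) (N : ℕ)
    (hN : chainSize levels = N) (hcard : Nat.card M.Group = N) (hN0 : N ≠ 0) (g : M.Group) :
    ∃ w ∈ prodsW levels, g = M.toCoxeterSystem.wordProd (wd n w) := by
  classical
  have hfin : Finite M.Group := Nat.finite_of_card_ne_zero (by rw [hcard]; exact hN0)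
  have : Fintype M.Group := Fintype.ofFinite _
  have hnd := prodsG_nodup M R tc hr levels hc
  have hnd' : (prodsG M levels).Nodup := List.Nodup.of_map _ hnd
  have hlen : (prodsG M levels).length = N := by rw [prodsG_length, hN]
  have huniv : (prodsG M levels).toFinset = Finset.univ := by
    apply Finset.eq_univ_of_card
    rw [List.toFinset_card_of_nodup hnd', hlen, ← hcard, Nat.card_eq_fintype_card]
  have hmem : g ∈ prodsG M levels := by
    rw [← List.mem_toFinset, huniv]
    exact Finset.mem_univ _
  rw [prodsG_eq, List.mem_map] at hmem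
  obtain ⟨w, hw, e⟩ := hmem
  exact ⟨w, hw, e.symm⟩

theorem sameAct_of_eq (M : CoxeterMatrix (Fin n)) (R : ℕ) (tc : List ℕ) (hr : Rep M R tc)
    {w₁ w₂ : List ℕ}
    (h : M.toCoxeterSystem.wordProd (wd n w₁) = M.toCoxeterSystem.wordProd (wd n w₂)) :
    sameAct n R tc w₁ w₂ = true := by
  unfold sameAct
  rw [List.all_eq_true]
  intro x _
  rw [beq_iff_eq, ← rho_word M R tc hr, ← rho_word M R tc hr, h]

theorem ne_one_of_act (M : CoxeterMatrix (Fin n)) (R : ℕ) (tc : List ℕ) (hr : Rep M R tc)
    (w : List ℕ) (x : ℕ) (h : actT n R tc w x ≠ x) :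
    M.toCoxeterSystem.wordProd (wd n w) ≠ 1 := by
  intro e
  apply h
  rw [← rho_word M R tc hr, e, map_one]
  rfl

/-! ### The automorphism of the diagram -/

theorem graph_liftable (M : CoxeterMatrix (Fin n)) (l : ℕ → ℕ) (hl : ∀ i < n, l i < n)
    (hM : ∀ i j : Fin n, M ⟨l i.val, hl i.val i.isLt⟩ ⟨l j.val, hl j.val j.isLt⟩ = M i j) :
    M.IsLiftable (fun i : Fin n => M.toCoxeterSystem.simple ⟨l i.val, hl i.val i.isLt⟩) := by
  intro i j
  rw [← hM i j]
  exact M.toCoxeterSystem.simple_mul_simple_pow _ _

/-- the automorphism of the Coxeter group given by a permutation of the nodes preserving the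
Coxeter matrix -/
noncomputable def graphHom (M : CoxeterMatrix (Fin n)) (l : ℕ → ℕ) (hl : ∀ i < n, l i < n)
    (hM : ∀ i j : Fin n, M ⟨l i.val, hl i.val i.isLt⟩ ⟨l j.val, hl j.val j.isLt⟩ = M i j) :
    M.Group →* M.Group :=
  M.toCoxeterSystem.lift ⟨_, graph_liftable M l hl hM⟩

theorem graphHom_simple (M : CoxeterMatrix (Fin n)) (l : ℕ → ℕ) (hl : ∀ i < n, l i < n)
    (hM : ∀ i j : Fin n, M ⟨l i.val, hl i.val i.isLt⟩ ⟨l j.val, hl j.val j.isLt⟩ = M i j)
    (i : Fin n) :
    graphHom M l hl hM (M.toCoxeterSystem.simple i) =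
      M.toCoxeterSystem.simple ⟨l i.val, hl i.val i.isLt⟩ := by
  unfold graphHom
  rw [CoxeterSystem.lift_apply_simple]

/-- the action of the permutation of the nodes on letters -/
def lN (n : ℕ) (l : ℕ → ℕ) (k : ℕ) : ℕ := if k < n then l k else k

theorem graphHom_word (M : CoxeterMatrix (Fin n)) (l : ℕ → ℕ) (hl : ∀ i < n, l i < n)
    (hM : ∀ i j : Fin n, M ⟨l i.val, hl i.val i.isLt⟩ ⟨l j.val, hl j.val j.isLt⟩ = M i j)
    (w : List ℕ) :
    graphHom M l hl hM (M.toCoxeterSystem.wordProd (wd n w)) =
      M.toCoxeterSystem.wordProd (wd n (w.map (lN n l))) := by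
  induction w with
  | nil =>
    show graphHom M l hl hM (M.toCoxeterSystem.wordProd []) = M.toCoxeterSystem.wordProd []
    rw [CoxeterSystem.wordProd_nil, map_one]
  | cons k w ih =>
    rw [List.map_cons]
    by_cases hk : k < n
    · have e : lN n l k = l k := if_pos hk
      rw [wd_cons_lt k hk, e, wd_cons_lt (l k) (hl k hk), CoxeterSystem.wordProd_cons,
        CoxeterSystem.wordProd_cons, map_mul, ih, graphHom_simple]
    · have e : lN n l k = k := if_neg hk
      rw [wd_cons_ge k hk, e, wd_cons_ge k hk, ih]

/-! ### The folding homomorphism -/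

/-- the word of a word in the folded generators -/
def foldW (m : ℕ) (blocks : List (List ℕ)) (v : List ℕ) : List ℕ :=
  v.flatMap (fun k => if k < m then blocks.getD k [] else [])

/-- the images of the generators of the folded group -/
noncomputable def foldGen (M : CoxeterMatrix (Fin n)) {m : ℕ} (blocks : List (List ℕ))
    (k : Fin m) : M.Group :=
  M.toCoxeterSystem.wordProd (wd n (blocks.getD k.val []))

theorem fold_word (M : CoxeterMatrix (Fin n)) {m : ℕ} (M' : CoxeterMatrix (Fin m))
    (blocks : List (List ℕ)) (hf : M'.IsLiftable (foldGen M blocks)) (v : List ℕ) :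
    M'.toCoxeterSystem.lift ⟨foldGen M blocks, hf⟩ (M'.toCoxeterSystem.wordProd (wd m v)) =
      M.toCoxeterSystem.wordProd (wd n (foldW m blocks v)) := by
  induction v with
  | nil =>
    show M'.toCoxeterSystem.lift ⟨foldGen M blocks, hf⟩ (M'.toCoxeterSystem.wordProd []) =
      M.toCoxeterSystem.wordProd []
    rw [CoxeterSystem.wordProd_nil, map_one, CoxeterSystem.wordProd_nil]
  | cons k v ih =>
    have e : foldW m blocks (k :: v) =
        (if k < m then blocks.getD k [] else []) ++ foldW m blocks v := by
      unfold foldW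
      rw [List.flatMap_cons]
    rw [e, wd_append, CoxeterSystem.wordProd_append, ← ih]
    by_cases hk : k < m
    · rw [wd_cons_lt k hk, CoxeterSystem.wordProd_cons, map_mul, CoxeterSystem.lift_apply_simple,
        if_pos hk]
      rfl
    · rw [wd_cons_ge k hk, if_neg hk]
      show _ = M.toCoxeterSystem.wordProd [] * _
      rw [CoxeterSystem.wordProd_nil, one_mul]

/-- the relations of the folded group, checked in the permutation representation -/
def liftCheck (n R : ℕ) (tc : List ℕ) (m : ℕ) (mm : ℕ → ℕ → ℕ) (blocks : List (List ℕ)) : Bool :=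
  (List.range m).all (fun i => (List.range m).all (fun j =>
    sameAct n R tc (List.replicate (mm i j) (blocks.getD i [] ++ blocks.getD j [])).flatten []))

theorem liftable_of_check (M : CoxeterMatrix (Fin n)) (R : ℕ) (tc : List ℕ) (hr : Rep M R tc)
    (hinj : Function.Injective (rho M R tc hr)) {m : ℕ} (M' : CoxeterMatrix (Fin m))
    (mm : ℕ → ℕ → ℕ) (hmm : ∀ i j : Fin m, M' i j = mm i.val j.val) (blocks : List (List ℕ))
    (h : liftCheck n R tc m mm blocks = true) : M'.IsLiftable (foldGen M blocks) := by
  intro i j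
  unfold liftCheck at h
  rw [List.all_eq_true] at h
  have h1 := h i.val (List.mem_range.mpr i.isLt)
  rw [List.all_eq_true] at h1
  have h2 := wordProd_eq_of_sameAct M R tc hr hinj (h1 j.val (List.mem_range.mpr j.isLt))
  rw [wordProd_replicate, wd_append, CoxeterSystem.wordProd_append] at h2
  rw [hmm i j]
  exact h2

/-! ### Fixed elements -/

/-- a key for the comparison of words: the images of the points `bs` -/
def keyOf (n R : ℕ) (tc : List ℕ) (bs : List ℕ) (w : List ℕ) : ℕ :=
  bs.foldr (fun b acc => acc * 256 + actT n R tc w b) 0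

/-- every word of `words` fixed by the permutation of the nodes acts as the word of one of the
candidates -/
def fixCheck (n R : ℕ) (tc : List ℕ) (l : ℕ → ℕ) (m : ℕ) (blocks : List (List ℕ))
    (bs : List ℕ) (words : List (List ℕ)) (cands : List (ℕ × List ℕ)) : Bool :=
  words.all (fun w => !(sameAct n R tc (w.map (lN n l)) w) ||
    forceB (keyOf n R tc bs w) (fun k => cands.any (fun c => (c.1 == k) &&
      sameAct n R tc w (foldW m blocks c.2))))

/-- the elements fixed by the automorphism of the diagram are in the range of the folding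
homomorphism -/
theorem fix_mem_range (M : CoxeterMatrix (Fin n)) (R : ℕ) (tc : List ℕ) (hr : Rep M R tc)
    (hinj : Function.Injective (rho M R tc hr))
    (levels : List (ℕ × List (List ℕ))) (hc : chainCheck n R tc levels = true) (N : ℕ)
    (hN : chainSize levels = N) (hcard : Nat.card M.Group = N) (hN0 : N ≠ 0)
    (l : ℕ → ℕ) (hl : ∀ i < n, l i < n)
    (hM : ∀ i j : Fin n, M ⟨l i.val, hl i.val i.isLt⟩ ⟨l j.val, hl j.val j.isLt⟩ = M i j)
    {m : ℕ} (M' : CoxeterMatrix (Fin m)) (blocks : List (List ℕ))
    (hf : M'.IsLiftable (foldGen M blocks)) (bs : List ℕ) (cands : List (ℕ × List ℕ))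
    (hfix : fixCheck n R tc l m blocks bs (prodsW levels) cands = true)
    (g : M.Group) (hg : graphHom M l hl hM g = g) :
    g ∈ (M'.toCoxeterSystem.lift ⟨foldGen M blocks, hf⟩).range := by
  obtain ⟨w, hw, rfl⟩ := exists_word M R tc hr levels hc N hN hcard hN0 g
  rw [graphHom_word] at hg
  have h1 := sameAct_of_eq M R tc hr hg
  unfold fixCheck at hfix
  rw [List.all_eq_true] at hfix
  have h2 := hfix w hw
  rw [h1, Bool.not_true, Bool.false_or, forceB_eq, List.any_eq_true] at h2
  obtain ⟨c, _, hc2⟩ := h2
  rw [Bool.and_eq_true] at hc2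
  have h3 := wordProd_eq_of_sameAct M R tc hr hinj hc2.2
  rw [h3, ← fold_word M M' blocks hf]
  exact ⟨_, rfl⟩

end Cfsg.Agent.Lib.Helper19.CoxFold
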