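import Cfsg.Agent.Lib.Helper19.CoxFold
import Cfsg.Agent.Lib.Helper19.CoxDataF4
import Cfsg.Agent.Lib.Helper6.Dk1
import Mathlib

set_option autoImplicit false
set_option maxRecDepth 100000

/-!
The elements of the Coxeter group of type F4 fixed by the symmetry of its diagram (which reverses
the order of the nodes) form a dihedral group of order 16, generated by `w₁ w₄` and `(w₂ w₃)²`.
Generated data, checked in the faithful permutation representation of `CoxDataF4`.
-/

namespace Cfsg.Agent.Lib.Helper19.CoxFoldF4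

open Cfsg.Agent.Lib.Helper19.CoxUpper Cfsg.Agent.Lib.Helper19.CoxLower
  Cfsg.Agent.Lib.Helper19.CoxNormal Cfsg.Agent.Lib.Helper19.CoxFold

/-- every element fixed by the automorphism of the diagram is the product of the word of one of
the candidates -/
theorem fix_mem_cands {n : ℕ} (M : CoxeterMatrix (Fin n)) (R : ℕ) (tc : List ℕ) (hr : Rep M R tc)
    (hinj : Function.Injective (rho M R tc hr))
    (levels : List (ℕ × List (List ℕ))) (hc : chainCheck n R tc levels = true) (N : ℕ)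
    (hN : chainSize levels = N) (hcard : Nat.card M.Group = N) (hN0 : N ≠ 0)
    (l : ℕ → ℕ) (hl : ∀ i < n, l i < n)
    (hM : ∀ i j : Fin n, M ⟨l i.val, hl i.val i.isLt⟩ ⟨l j.val, hl j.val j.isLt⟩ = M i j)
    (m : ℕ) (blocks : List (List ℕ)) (bs : List ℕ) (cands : List (ℕ × List ℕ))
    (hfix : fixCheck n R tc l m blocks bs (prodsW levels) cands = true)
    (g : M.Group) (hg : graphHom M l hl hM g = g) :
    ∃ c ∈ cands, g = M.toCoxeterSystem.wordProd (wd n (foldW m blocks c.2)) := by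
  obtain ⟨w, hw, rfl⟩ := exists_word M R tc hr levels hc N hN hcard hN0 g
  rw [graphHom_word] at hg
  have h1 := sameAct_of_eq M R tc hr hg
  unfold fixCheck at hfix
  rw [List.all_eq_true] at hfix
  have h2 := hfix w hw
  rw [h1, Bool.not_true, Bool.false_or, forceB_eq, List.any_eq_true] at h2
  obtain ⟨c, hc1, hc2⟩ := h2
  rw [Bool.and_eq_true] at hc2
  exact ⟨c, hc1, wordProd_eq_of_sameAct M R tc hr hinj hc2.2⟩

/-- the permutation of the nodes -/
def lperm (i : ℕ) : ℕ := [3, 2, 1, 0].getD i 0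

/-- the words of the two generators of the fixed subgroup -/
def blocks : List (List ℕ) := [[0, 3], [1, 2, 1, 2]]

def bs : List ℕ := List.range 24

def cands : List (ℕ × List ℕ) :=
  [(566073426779046459040877649791461066728553822781039575296, []),
   (540881910376987347507958513271005700700212739632521349121, [0, 1]),
   (368186195714335741603239110485984166687168485453470700296, [0, 1, 0, 1]),
   (98080853210872616814721633083359456362236655904432068371, [0, 1, 0, 1, 0, 1]),
   (96533667595335344311220348406405670713504689366046231, [0, 1, 0, 1, 0, 1, 0, 1]),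
   (25288050069676747282146500367575126732472755479838330646, [0, 1, 0, 1, 0, 1, 0, 1, 0, 1]),
   (197984138876725122380810867833464117235244273134769734671, [0, 1, 0, 1, 0, 1, 0, 1, 0, 1, 0, 1]),
   (468089108697270814901364942759844591981910861062691028996, [0, 1, 0, 1, 0, 1, 0, 1, 0, 1, 0, 1, 0, 1]),
   (541649276150701632339390282932603138750769406472626503681, [0]),
   (565785711199232053396311339274312717471740161413144052736, [0, 0, 1]),
   (466649785432564455664272415258213919477680901679949221636, [0, 0, 1, 0, 1]),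
   (196257100032271260421948050065203272979364595583121757711, [0, 0, 1, 0, 1, 0, 1]),
   (24520684295940162045793394989635165538586859854523340566, [0, 0, 1, 0, 1, 0, 1, 0, 1]),
   (384249247432041734076041205977201984308046502303109911, [0, 0, 1, 0, 1, 0, 1, 0, 1, 0, 1]),
   (99520549158496495091781127900542547605184975890123917331, [0, 0, 1, 0, 1, 0, 1, 0, 1, 0, 1, 0, 1]),
   (369912861875872084181857786314612668290878150742336930056, [0, 0, 1, 0, 1, 0, 1, 0, 1, 0, 1, 0, 1, 0, 1])]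

theorem hl : ∀ i < 4, lperm i < 4 := by decide

theorem hM : ∀ i j : Fin 4, (CoxeterMatrix.F₄) ⟨lperm i.val, hl i.val i.isLt⟩
    ⟨lperm j.val, hl j.val j.isLt⟩ = (CoxeterMatrix.F₄) i j := by
  intro i j
  fin_cases i <;> fin_cases j <;> rfl

theorem hfix : fixCheck 4 Cfsg.Agent.Lib.Helper19.CoxDataF4.R Cfsg.Agent.Lib.Helper19.CoxDataF4.tc
    lperm 2 blocks bs (prodsW Cfsg.Agent.Lib.Helper19.CoxDataF4.lv) cands = true := by
  decide +kernel

/-- the automorphism of the Coxeter group induced by the symmetry of the diagram -/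
noncomputable def rhoHom : (CoxeterMatrix.F₄).Group →* (CoxeterMatrix.F₄).Group :=
  graphHom (CoxeterMatrix.F₄) lperm hl hM

theorem rhoHom_simple (i : Fin 4) :
    rhoHom ((CoxeterMatrix.F₄).toCoxeterSystem.simple i) =
      (CoxeterMatrix.F₄).toCoxeterSystem.simple ⟨lperm i.val, hl i.val i.isLt⟩ :=
  graphHom_simple _ lperm hl hM i

/-- the subgroup of the elements fixed by the symmetry -/
noncomputable def fixSub : Subgroup (CoxeterMatrix.F₄).Group := rhoHom.eqLocus (MonoidHom.id _)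

theorem mem_fixSub (g : (CoxeterMatrix.F₄).Group) : g ∈ fixSub ↔ rhoHom g = g := Iff.rfl

/-- products of words -/
noncomputable def wp (w : List ℕ) : (CoxeterMatrix.F₄).Group :=
  (CoxeterMatrix.F₄).toCoxeterSystem.wordProd (wd 4 w)

theorem wp_nil : wp [] = 1 := by
  show (CoxeterMatrix.F₄).toCoxeterSystem.wordProd [] = 1
  exact CoxeterSystem.wordProd_nil _

theorem wp_append (w w' : List ℕ) : wp (w ++ w') = wp w * wp w' := by
  unfold wp
  rw [wd_append, CoxeterSystem.wordProd_append]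

theorem wp_eq {w w' : List ℕ} (h : sameAct 4 Cfsg.Agent.Lib.Helper19.CoxDataF4.R
    Cfsg.Agent.Lib.Helper19.CoxDataF4.tc w w' = true) : wp w = wp w' :=
  wordProd_eq_of_sameAct _ _ _ Cfsg.Agent.Lib.Helper19.CoxDataF4.hrep
    Cfsg.Agent.Lib.Helper19.CoxDataF4.card_inj.2 h

theorem wp_ne {w w' : List ℕ} (h : sameAct 4 Cfsg.Agent.Lib.Helper19.CoxDataF4.R
    Cfsg.Agent.Lib.Helper19.CoxDataF4.tc w w' = false) : wp w ≠ wp w' := by
  intro e
  have h1 := sameAct_of_eq _ _ _ Cfsg.Agent.Lib.Helper19.CoxDataF4.hrep e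
  rw [h] at h1
  exact Bool.false_ne_true h1

theorem wp_replicate (l : List ℕ) (k : ℕ) : wp (List.replicate k l).flatten = wp l ^ k :=
  wordProd_replicate _ l k

theorem rho_wp (w : List ℕ) : rhoHom (wp w) = wp (w.map (lN 4 lperm)) :=
  graphHom_word _ lperm hl hM w

/-- `w₁ w₄` -/
noncomputable def a : (CoxeterMatrix.F₄).Group := wp [0, 3]

/-- `(w₂ w₃)²` -/
noncomputable def b : (CoxeterMatrix.F₄).Group := wp [1, 2, 1, 2]

/-- the product of the two generators, of order 8 -/
noncomputable def c : (CoxeterMatrix.F₄).Group := wp [0, 3, 1, 2, 1, 2]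

theorem c_eq : c = a * b := wp_append [0, 3] [1, 2, 1, 2]

theorem a_mul_a : a * a = 1 := by
  have h : wp ([0, 3] ++ [0, 3]) = wp [] := wp_eq (by decide +kernel)
  rw [wp_append, wp_nil] at h
  exact h

theorem b_mul_b : b * b = 1 := by
  have h : wp ([1, 2, 1, 2] ++ [1, 2, 1, 2]) = wp [] := wp_eq (by decide +kernel)
  rw [wp_append, wp_nil] at h
  exact h

theorem c_pow_8 : c ^ 8 = 1 := by
  have h : wp (List.replicate 8 [0, 3, 1, 2, 1, 2]).flatten = wp [] := wp_eq (by decide +kernel)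
  rw [wp_replicate, wp_nil] at h
  exact h

theorem c_pow_4 : c ^ 4 ≠ 1 := by
  have h : wp (List.replicate 4 [0, 3, 1, 2, 1, 2]).flatten ≠ wp [] := wp_ne (by decide +kernel)
  rw [wp_replicate, wp_nil] at h
  exact h

theorem orderOf_c : orderOf c = 8 := by
  haveI : Fact (Nat.Prime 2) := ⟨Nat.prime_two⟩
  exact orderOf_eq_prime_pow (p := 2) (n := 2) c_pow_4 c_pow_8

theorem a_mem : a ∈ fixSub := by
  rw [mem_fixSub, a, rho_wp]
  exact wp_eq (by decide +kernel)

theorem b_mem : b ∈ fixSub := by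
  rw [mem_fixSub, b, rho_wp]
  exact wp_eq (by decide +kernel)

theorem c_mem : c ∈ fixSub := by
  rw [c_eq]
  exact fixSub.mul_mem a_mem b_mem

theorem a_ne_pow (k : ℕ) (hk : k < 8) : a ≠ c ^ k := by
  rw [c, ← wp_replicate]
  apply wp_ne
  interval_cases k <;> decide +kernel

theorem cands_form : ∀ cd ∈ cands, ∃ k < 8, cd.2 = (List.replicate k [0, 1]).flatten ∨
    cd.2 = 0 :: (List.replicate k [0, 1]).flatten := by
  decide

theorem fold_pow (k : ℕ) : foldW 2 blocks (List.replicate k [0, 1]).flatten =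
    (List.replicate k [0, 3, 1, 2, 1, 2]).flatten := by
  induction k with
  | zero => rfl
  | succ k ih =>
    rw [List.replicate_succ, List.flatten_cons, List.replicate_succ, List.flatten_cons]
    have e : ∀ u v : List ℕ, foldW 2 blocks (u ++ v) = foldW 2 blocks u ++ foldW 2 blocks v := by
      intro u v
      unfold foldW
      exact List.flatMap_append
    rw [e, ih]
    rfl

/-- the fixed elements are the `c ^ k` and the `a * c ^ k` -/
theorem exists_cand (g : (CoxeterMatrix.F₄).Group) (hg : g ∈ fixSub) :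
    ∃ k < 8, g = c ^ k ∨ g = a * c ^ k := by
  obtain ⟨cd, hcd, e⟩ := fix_mem_cands (CoxeterMatrix.F₄) Cfsg.Agent.Lib.Helper19.CoxDataF4.R
    Cfsg.Agent.Lib.Helper19.CoxDataF4.tc Cfsg.Agent.Lib.Helper19.CoxDataF4.hrep
    Cfsg.Agent.Lib.Helper19.CoxDataF4.card_inj.2 Cfsg.Agent.Lib.Helper19.CoxDataF4.lv
    Cfsg.Agent.Lib.Helper19.CoxDataF4.hchain _ Cfsg.Agent.Lib.Helper19.CoxDataF4.hsize
    Cfsg.Agent.Lib.Helper19.CoxDataF4.card (by decide) lperm hl hM 2 blocks bs cands hfix g
    ((mem_fixSub g).mp hg)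
  obtain ⟨k, hk, h | h⟩ := cands_form cd hcd
  · refine ⟨k, hk, Or.inl ?_⟩
    rw [e, h, fold_pow, c, ← wp_replicate]
    rfl
  · refine ⟨k, hk, Or.inr ?_⟩
    have e2 : foldW 2 blocks (0 :: (List.replicate k [0, 1]).flatten) =
        [0, 3] ++ (List.replicate k [0, 3, 1, 2, 1, 2]).flatten := by
      rw [← fold_pow]
      rfl
    rw [e, h, e2, a, c, ← wp_replicate, ← wp_append]
    rfl

/-- the fixed subgroup is dihedral of order 16 -/
theorem fix_iso : Nonempty (↥fixSub ≃* DihedralGroup 8) := by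
  haveI : Finite (CoxeterMatrix.F₄).Group :=
    Nat.finite_of_card_ne_zero (by rw [Cfsg.Agent.Lib.Helper19.CoxDataF4.card]; decide)
  have hainv : a⁻¹ = a := inv_eq_of_mul_eq_one_right a_mul_a
  have hbinv : b⁻¹ = b := inv_eq_of_mul_eq_one_right b_mul_b
  have hord : orderOf (⟨c, c_mem⟩ : ↥fixSub) = 8 := by
    rw [Subgroup.orderOf_mk]
    exact orderOf_c
  have h := Cfsg.Agent.Lib.Helper6.Dk1.dih_of (Subgroup.zpowers (⟨c, c_mem⟩ : ↥fixSub))
    inferInstance (⟨a, a_mem⟩ : ↥fixSub) (Subtype.ext a_mul_a) ?_ ?_ ?_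
  · rw [Nat.card_zpowers, hord] at h
    exact h
  · intro hmem
    obtain ⟨z, hz⟩ := Subgroup.mem_zpowers_iff.mp hmem
    have hz' : c ^ z = a := by
      have := congrArg Subtype.val hz
      simpa using this
    have h8 : c ^ (8 : ℤ) = 1 := by
      have := c_pow_8
      exact_mod_cast this
    rw [zpow_eq_zpow_emod z h8] at hz'
    have h0 : 0 ≤ z % 8 := Int.emod_nonneg z (by norm_num)
    have h1 : z % 8 < 8 := Int.emod_lt_of_pos z (by norm_num)
    obtain ⟨k, hk⟩ := Int.eq_ofNat_of_zero_le h0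
    rw [hk, zpow_natCast] at hz'
    exact a_ne_pow k (by omega) hz'.symm
  · intro x hx
    obtain ⟨z, rfl⟩ := Subgroup.mem_zpowers_iff.mp hx
    have h1 : (⟨a, a_mem⟩ : ↥fixSub) * ⟨c, c_mem⟩ * (⟨a, a_mem⟩ : ↥fixSub)⁻¹ =
        (⟨c, c_mem⟩ : ↥fixSub)⁻¹ := by
      apply Subtype.ext
      show a * c * a⁻¹ = c⁻¹
      rw [c_eq, mul_inv_rev, hainv, hbinv, ← mul_assoc a a b, a_mul_a, one_mul]
    rw [← conj_zpow, h1, inv_zpow]
  · intro y
    obtain ⟨k, hk, h | h⟩ := exists_cand y.1 y.2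
    · left
      refine Subgroup.mem_zpowers_iff.mpr ⟨k, ?_⟩
      apply Subtype.ext
      rw [zpow_natCast]
      show c ^ k = y.1
      exact h.symm
    · right
      refine Subgroup.mem_zpowers_iff.mpr ⟨k, ?_⟩
      apply Subtype.ext
      rw [zpow_natCast]
      show c ^ k = a * y.1
      rw [h, ← mul_assoc, a_mul_a, one_mul]

/-- the fixed subgroup is generated by `a` and `b` -/
theorem closure_eq_top :
    Subgroup.closure ({⟨a, a_mem⟩, ⟨b, b_mem⟩} : Set ↥fixSub) = ⊤ := by
  rw [eq_top_iff]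
  intro y _
  have hA : (⟨a, a_mem⟩ : ↥fixSub) ∈
      Subgroup.closure ({⟨a, a_mem⟩, ⟨b, b_mem⟩} : Set ↥fixSub) :=
    Subgroup.subset_closure (by simp)
  have hB : (⟨b, b_mem⟩ : ↥fixSub) ∈
      Subgroup.closure ({⟨a, a_mem⟩, ⟨b, b_mem⟩} : Set ↥fixSub) :=
    Subgroup.subset_closure (by simp)
  have hC : (⟨c, c_mem⟩ : ↥fixSub) ∈
      Subgroup.closure ({⟨a, a_mem⟩, ⟨b, b_mem⟩} : Set ↥fixSub) := by
    have e : (⟨c, c_mem⟩ : ↥fixSub) = ⟨a, a_mem⟩ * ⟨b, b_mem⟩ := Subtype.ext c_eq
    rw [e]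
    exact Subgroup.mul_mem _ hA hB
  obtain ⟨k, hk, h | h⟩ := exists_cand y.1 y.2
  · have e : y = (⟨c, c_mem⟩ : ↥fixSub) ^ k := Subtype.ext h
    rw [e]
    exact Subgroup.pow_mem _ hC k
  · have e : y = (⟨a, a_mem⟩ : ↥fixSub) * (⟨c, c_mem⟩ : ↥fixSub) ^ k := Subtype.ext h
    rw [e]
    exact Subgroup.mul_mem _ hA (Subgroup.pow_mem _ hC k)

end Cfsg.Agent.Lib.Helper19.CoxFoldF4
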