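import Cfsg.Agent.Lib.Helper19.CoxChev
import Cfsg.Agent.Lib.Helper18.HProd
import Cfsg.Agent.Lib.Helper18.Units
import Mathlib

set_option autoImplicit false

/-!
Conjugation of the `n_s(t)` and of the `h_s(t)` of a Chevalley group by the `n_p` of the
fundamental roots: `n_p n_s(t) = n_{w_p s}(η_s t) n_p` and `n_p h_s(t) = h_{w_p s}(t) n_p`.
-/

namespace Cfsg.Agent.Lib.Helper19.CoxH

open Cfsg Cfsg.Lie Cfsg.Agent.Lib.Helper19.CoxUpper Cfsg.Agent.Lib.Helper19.CoxLower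
  Cfsg.Agent.Lib.Helper19.CoxChev
  Cfsg.Agent.Lib.Helper18.Fast Cfsg.Agent.Lib.Helper18.AllRoots Cfsg.Agent.Lib.Helper18.Mono
  Cfsg.Agent.Lib.Helper36.ChevWeyl

variable {A : FData} {D : ChevalleyDatum} {F : Type*} [Field F]

theorem nMat_eq_prod (D : ChevalleyDatum) (r : ℕ) (t : F) :
    D.nMat F r t = D.x F r t * D.x F (D.neg r) (-t⁻¹) * D.x F r t := by
  simp [ChevalleyDatum.nMat, ChevalleyDatum.nWord, ChevalleyDatum.wordMat, mul_assoc]

/-- The reflections commute with `neg`, from the table check. -/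
theorem neg_of_tabCheck (D : ChevalleyDatum) (mc : ℕ) (tc : List ℕ)
    (htab : tabCheck D mc tc = true) :
    ∀ i < D.rank, ∀ s < D.nroots, D.reflectRoot i (D.neg s) = D.neg (D.reflectRoot i s) := by
  unfold tabCheck at htab
  rw [Bool.and_eq_true, List.all_eq_true, List.all_eq_true] at htab
  obtain ⟨ht1, -⟩ := htab
  intro i hi s hs
  have h2 := ht1 i (List.mem_range.mpr hi)
  rw [List.all_eq_true] at h2
  have h3 := h2 s (List.mem_range.mpr hs)
  rw [Bool.and_eq_true, beq_iff_eq, beq_iff_eq] at h3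
  exact h3.2

/-- `n_p n_s(t) = n_{w_p s}(η_s t) n_p`. -/
theorem n_conj_n (hF : AFacts A D)
    (hneg : ∀ i < D.rank, ∀ s < D.nroots, D.reflectRoot i (D.neg s) = D.neg (D.reflectRoot i s))
    (i : ℕ) (hi : i < D.rank) (η : ℕ → ℤ) (wr : WeylRoot D F i η) (s : ℕ) (hs : s < D.nroots)
    (t : F) :
    D.nMat F (D.simple i) 1 * D.nMat F s t =
      D.nMat F (D.reflectRoot i s) (((η s : ℤ) : F) * t) * D.nMat F (D.simple i) 1 := by
  have hns := Cfsg.Agent.Lib.Helper18.Sub.neg_lt hF hs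
  have e1 := wr.rel s hs t
  have e2 := wr.rel (D.neg s) hns (-t⁻¹)
  have hη : ((η (D.neg s) : ℤ) : F) * (-t⁻¹) = -(((η s : ℤ) : F) * t)⁻¹ := by
    have h1 := (wr.eta_refl s hs).2
    rcases wr.sign s hs with h | h <;> rcases wr.sign (D.neg s) hns with h' | h' <;>
      simp [h, h'] at h1 ⊢
  rw [hη, hneg i hi s hs] at e2
  rw [nMat_eq_prod D s t, nMat_eq_prod D (D.reflectRoot i s)]
  generalize D.nMat F (D.simple i) 1 = n at e1 e2 ⊢
  calc n * (D.x F s t * D.x F (D.neg s) (-t⁻¹) * D.x F s t)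
      = (n * D.x F s t) * D.x F (D.neg s) (-t⁻¹) * D.x F s t := by simp only [mul_assoc]
    _ = D.x F (D.reflectRoot i s) (((η s : ℤ) : F) * t) * (n * D.x F (D.neg s) (-t⁻¹)) *
          D.x F s t := by rw [e1]; simp only [mul_assoc]
    _ = D.x F (D.reflectRoot i s) (((η s : ℤ) : F) * t) *
          D.x F (D.neg (D.reflectRoot i s)) (-(((η s : ℤ) : F) * t)⁻¹) * (n * D.x F s t) := by
        rw [e2]; simp only [mul_assoc]
    _ = D.x F (D.reflectRoot i s) (((η s : ℤ) : F) * t) *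
          D.x F (D.neg (D.reflectRoot i s)) (-(((η s : ℤ) : F) * t)⁻¹) *
          D.x F (D.reflectRoot i s) (((η s : ℤ) : F) * t) * n := by
        rw [e1]; simp only [mul_assoc]

/-- `n_r(-t) n_r(1) = h_r(t)`. -/
theorem nMat_neg_mul_one (hF : AFacts A D) (r : ℕ) (hr : r < D.nroots) (t : F) (ht : t ≠ 0) :
    D.nMat F r (-t) * D.nMat F r 1 = D.hMat F r t := by
  have h1 := Cfsg.Agent.Lib.Helper18.Units.nMat_eq_hMat_mul hF hr (-t)
  have h2 := Cfsg.Agent.Lib.Helper18.Units.nMat_eq_hMat_mul hF hr (-1 : F)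
  have h3 := Cfsg.Agent.Lib.Helper18.Units.nMat_neg_one_mul_one (F := F) hF hr
  have h4 := Cfsg.Agent.Lib.Helper18.HProd.hMat_mul_of_afacts hF hr ht
    (neg_ne_zero.mpr (one_ne_zero (α := F)))
  rw [mul_neg_one] at h4
  rw [h1, ← h4]
  calc D.hMat F r t * D.hMat F r (-1) * D.nMat F r 1 * D.nMat F r 1
      = D.hMat F r t * ((D.hMat F r (-1) * D.nMat F r 1) * D.nMat F r 1) := by
        simp only [mul_assoc]
    _ = D.hMat F r t := by rw [← h2, h3, mul_one]

/-- `n_p h_s(t) = h_{w_p s}(t) n_p`. -/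
theorem n_conj_h (hF : AFacts A D) (W : WeylData D F)
    (hneg : ∀ i < D.rank, ∀ s < D.nroots, D.reflectRoot i (D.neg s) = D.neg (D.reflectRoot i s))
    (i : ℕ) (hi : i < D.rank) (s : ℕ) (hs : s < D.nroots) (t : F) (ht : t ≠ 0) :
    D.nMat F (D.simple i) 1 * D.hMat F s t =
      D.hMat F (D.reflectRoot i s) t * D.nMat F (D.simple i) 1 := by
  obtain ⟨η, wr⟩ := W.root i hi
  have hlt := wr.refl_lt s hs
  have e1 := n_conj_n hF hneg i hi η wr s hs t
  have e2 := n_conj_n hF hneg i hi η wr s hs (-1)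
  rw [Cfsg.Agent.Lib.Helper18.HDiag.hMat_eq s t, ← mul_assoc, e1, mul_assoc, e2, ← mul_assoc]
  congr 1
  rcases wr.sign s hs with h | h
  · rw [h]
    simp only [Int.cast_one, one_mul]
    exact (Cfsg.Agent.Lib.Helper18.HDiag.hMat_eq _ t).symm
  · rw [h]
    simp only [Int.cast_neg, Int.cast_one, neg_mul, one_mul, neg_neg]
    exact nMat_neg_mul_one hF _ hlt t ht

/-- `n_{p_i} h_{p_j}(t) = h_{w_{p_i}(p_j)}(t) n_{p_i}`. -/
theorem n_conj_h_simple (hF : AFacts A D) (W : WeylData D F)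
    (hneg : ∀ i < D.rank, ∀ s < D.nroots, D.reflectRoot i (D.neg s) = D.neg (D.reflectRoot i s))
    (i j : ℕ) (hi : i < D.rank) (hj : j < D.rank) (t : F) (ht : t ≠ 0) :
    D.nMat F (D.simple i) 1 * D.hMat F (D.simple j) t =
      D.hMat F (D.reflectRoot i (D.simple j)) t * D.nMat F (D.simple i) 1 := by
  obtain ⟨η, wr⟩ := W.root j hj
  exact n_conj_h hF W hneg i hi (D.simple j) wr.simple_lt t ht

end Cfsg.Agent.Lib.Helper19.CoxH
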