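import Cfsg.Agent.Lib.Helper19.CoxUpper
import Mathlib

set_option autoImplicit false

/-!
Lower bounds for the order of a Coxeter group `M.Group` (with `M : CoxeterMatrix (Fin n)`) from
a permutation representation on `R` points given by a coded table, together with a chain of
base points and transversal words.  Combined with the upper bound of `CoxUpper`, this gives the
order of the group and the faithfulness of the representation; the order of the Coxeter
element and the centre are then read off from the table.
-/

namespace Cfsg.Agent.Lib.Helper19.CoxLower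

open Cfsg.Agent.Lib.Helper19.CoxUpper

variable {n : ℕ}

/-- The action of the generator `i` on the point `x`, read from the coded table. -/
def stepT (R : ℕ) (tc : List ℕ) (i x : ℕ) : ℕ :=
  if x < R then tc.getD i 0 / 256 ^ x % 256 else x

/-- The action of a word on a point. -/
def actT (n R : ℕ) (tc : List ℕ) (w : List ℕ) (x : ℕ) : ℕ :=
  w.foldr (fun i y => if i < n then stepT R tc i y else y) x

theorem actT_cons (R : ℕ) (tc : List ℕ) (i : ℕ) (w : List ℕ) (x : ℕ) :
    actT n R tc (i :: w) x =
      if i < n then stepT R tc i (actT n R tc w x) else actT n R tc w x := rfl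

theorem stepT_ge (R : ℕ) (tc : List ℕ) (i x : ℕ) (hx : ¬ x < R) : stepT R tc i x = x := by
  unfold stepT
  rw [if_neg hx]

/-- Check that the table defines a permutation representation of the Coxeter group. -/
def permCheck (n mc R : ℕ) (tc : List ℕ) : Bool :=
  (List.range n).all (fun i => (List.range R).all (fun x =>
    decide (stepT R tc i x < R) && (stepT R tc i (stepT R tc i x) == x))) &&
  (List.range n).all (fun i => (List.range n).all (fun j => (List.range R).all (fun x =>
    (fun y => stepT R tc i (stepT R tc j y))^[mc / 16 ^ (i * n + j) % 16] x == x)))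

/-- The table defines a permutation representation of the Coxeter group. -/
structure Rep (M : CoxeterMatrix (Fin n)) (R : ℕ) (tc : List ℕ) : Prop where
  lt : ∀ i < n, ∀ x < R, stepT R tc i x < R
  invol : ∀ i < n, ∀ x, stepT R tc i (stepT R tc i x) = x
  braid : ∀ i j : Fin n, ∀ x, (fun y => stepT R tc i.val (stepT R tc j.val y))^[M i j] x = x

theorem rep_of_check (M : CoxeterMatrix (Fin n)) (mc : ℕ)
    (hM : ∀ a b : Fin n, M a b = mc / 16 ^ (a.val * n + b.val) % 16) (R : ℕ) (tc : List ℕ)
    (h : permCheck n mc R tc = true) : Rep M R tc := by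
  unfold permCheck at h
  rw [Bool.and_eq_true, List.all_eq_true, List.all_eq_true] at h
  obtain ⟨h1, h2⟩ := h
  have h1' : ∀ i < n, ∀ x < R, stepT R tc i x < R ∧ stepT R tc i (stepT R tc i x) = x := by
    intro i hi x hx
    have h3 := h1 i (List.mem_range.mpr hi)
    rw [List.all_eq_true] at h3
    have h4 := h3 x (List.mem_range.mpr hx)
    rw [Bool.and_eq_true, decide_eq_true_eq, beq_iff_eq] at h4
    exact h4
  refine ⟨fun i hi x hx => (h1' i hi x hx).1, ?_, ?_⟩
  · intro i hi x
    by_cases hx : x < R
    · exact (h1' i hi x hx).2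
    · rw [stepT_ge R tc i x hx, stepT_ge R tc i x hx]
  · intro i j x
    by_cases hx : x < R
    · have h3 := h2 i.val (List.mem_range.mpr i.isLt)
      rw [List.all_eq_true] at h3
      have h4 := h3 j.val (List.mem_range.mpr j.isLt)
      rw [List.all_eq_true] at h4
      have h5 := h4 x (List.mem_range.mpr hx)
      rw [beq_iff_eq] at h5
      rw [hM i j]
      exact h5
    · apply Function.iterate_fixed
      show stepT R tc i.val (stepT R tc j.val x) = x
      rw [stepT_ge R tc j.val x hx, stepT_ge R tc i.val x hx]

/-- The generators as permutations. -/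
def gen (M : CoxeterMatrix (Fin n)) (R : ℕ) (tc : List ℕ) (h : Rep M R tc) (i : Fin n) :
    Equiv.Perm ℕ :=
  ⟨stepT R tc i.val, stepT R tc i.val, h.invol i.val i.isLt, h.invol i.val i.isLt⟩

theorem gen_liftable (M : CoxeterMatrix (Fin n)) (R : ℕ) (tc : List ℕ) (h : Rep M R tc) :
    M.IsLiftable (gen M R tc h) := by
  intro i j
  ext x
  rw [← Equiv.Perm.iterate_eq_pow]
  exact h.braid i j x

/-- The permutation representation. -/
noncomputable def rho (M : CoxeterMatrix (Fin n)) (R : ℕ) (tc : List ℕ) (h : Rep M R tc) :
    M.Group →* Equiv.Perm ℕ :=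
  M.toCoxeterSystem.lift ⟨gen M R tc h, gen_liftable M R tc h⟩

theorem rho_simple (M : CoxeterMatrix (Fin n)) (R : ℕ) (tc : List ℕ) (h : Rep M R tc)
    (i : Fin n) (x : ℕ) :
    rho M R tc h (M.toCoxeterSystem.simple i) x = stepT R tc i.val x := by
  unfold rho
  rw [CoxeterSystem.lift_apply_simple]
  rfl

theorem rho_word (M : CoxeterMatrix (Fin n)) (R : ℕ) (tc : List ℕ) (h : Rep M R tc)
    (w : List ℕ) (x : ℕ) :
    rho M R tc h (M.toCoxeterSystem.wordProd (wd n w)) x = actT n R tc w x := by
  induction w with
  | nil =>
    show rho M R tc h (M.toCoxeterSystem.wordProd []) x = x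
    rw [CoxeterSystem.wordProd_nil, map_one]
    rfl
  | cons i w ih =>
    rw [actT_cons]
    by_cases hi : i < n
    · rw [wd_cons_lt i hi, CoxeterSystem.wordProd_cons, map_mul, Equiv.Perm.mul_apply, ih,
        rho_simple, if_pos hi]
    · rw [wd_cons_ge i hi, ih, if_neg hi]

theorem rho_lt_ge (M : CoxeterMatrix (Fin n)) (R : ℕ) (tc : List ℕ) (h : Rep M R tc)
    (g : M.Group) (x : ℕ) :
    (x < R → rho M R tc h g x < R) ∧ (¬ x < R → rho M R tc h g x = x) := by
  obtain ⟨w, rfl⟩ := M.toCoxeterSystem.wordProd_surjective g
  induction w with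
  | nil =>
    rw [CoxeterSystem.wordProd_nil, map_one]
    exact ⟨fun hx => hx, fun _ => rfl⟩
  | cons i w ih =>
    rw [CoxeterSystem.wordProd_cons, map_mul, Equiv.Perm.mul_apply, rho_simple]
    constructor
    · intro hx
      exact h.lt i.val i.isLt _ (ih.1 hx)
    · intro hx
      rw [ih.2 hx, stepT_ge R tc i.val x hx]

theorem rho_lt (M : CoxeterMatrix (Fin n)) (R : ℕ) (tc : List ℕ) (h : Rep M R tc)
    (g : M.Group) (x : ℕ) (hx : x < R) : rho M R tc h g x < R :=
  (rho_lt_ge M R tc h g x).1 hx

theorem rho_ge (M : CoxeterMatrix (Fin n)) (R : ℕ) (tc : List ℕ) (h : Rep M R tc)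
    (g : M.Group) (x : ℕ) (hx : ¬ x < R) : rho M R tc h g x = x :=
  (rho_lt_ge M R tc h g x).2 hx

/-- A Boolean test for lists without repetitions. -/
def nodupB : List ℕ → Bool
  | [] => true
  | a :: l => !(l.contains a) && nodupB l

theorem nodupB_sound : ∀ l : List ℕ, nodupB l = true → l.Nodup
  | [], _ => List.nodup_nil
  | a :: l, h => by
    unfold nodupB at h
    rw [Bool.and_eq_true] at h
    have h1 : a ∉ l := by
      intro ha
      have h2 : l.contains a = true := List.contains_iff_mem.mpr ha
      rw [h2] at h
      exact absurd h.1 (by decide)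
    exact List.nodup_cons.mpr ⟨h1, nodupB_sound l h.2⟩

/-- Check a chain of base points and transversal words: the images of each base point under
its transversal are distinct, and the words of the later levels fix it. -/
def chainCheck (n R : ℕ) (tc : List ℕ) : List (ℕ × List (List ℕ)) → Bool
  | [] => true
  | l :: rest =>
    nodupB (l.2.map (fun u => actT n R tc u l.1)) &&
    (rest.all (fun l' => l'.2.all (fun u => actT n R tc u l.1 == l.1)) &&
      chainCheck n R tc rest)

/-- The product of the lengths of the transversals. -/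
def chainSize : List (ℕ × List (List ℕ)) → ℕ
  | [] => 1
  | l :: rest => l.2.length * chainSize rest

/-- The products of transversal elements, one from each level. -/
noncomputable def prodsG (M : CoxeterMatrix (Fin n)) : List (ℕ × List (List ℕ)) → List M.Group
  | [] => [1]
  | l :: rest =>
    l.2.flatMap (fun u => (prodsG M rest).map (fun g => M.toCoxeterSystem.wordProd (wd n u) * g))

theorem length_flatMap_const {α β : Type*} (l : List α) (f : α → List β) (c : ℕ)
    (h : ∀ a ∈ l, (f a).length = c) : (l.flatMap f).length = l.length * c := by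
  induction l with
  | nil => simp
  | cons a l ih =>
    rw [List.flatMap_cons, List.length_append, h a List.mem_cons_self,
      ih (fun b hb => h b (List.mem_cons_of_mem _ hb)), List.length_cons]
    ring

theorem prodsG_length (M : CoxeterMatrix (Fin n)) :
    ∀ levels : List (ℕ × List (List ℕ)), (prodsG M levels).length = chainSize levels
  | [] => rfl
  | l :: rest => by
    show (l.2.flatMap (fun u => (prodsG M rest).map
      (fun g => M.toCoxeterSystem.wordProd (wd n u) * g))).length = l.2.length * chainSize rest
    apply length_flatMap_const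
    intro u _
    rw [List.length_map, prodsG_length M rest]

theorem prodsG_fix (M : CoxeterMatrix (Fin n)) (R : ℕ) (tc : List ℕ) (h : Rep M R tc) (b : ℕ) :
    ∀ levels : List (ℕ × List (List ℕ)),
      levels.all (fun l' => l'.2.all (fun u => actT n R tc u b == b)) = true →
      ∀ g ∈ prodsG M levels, rho M R tc h g b = b
  | [], _, g, hg => by
    have hg1 : g = 1 := by simpa [prodsG] using hg
    rw [hg1, map_one]
    rfl
  | l :: rest, hall, g, hg => by
    rw [List.all_cons, Bool.and_eq_true] at hall
    have hg' : g ∈ l.2.flatMap (fun u => (prodsG M rest).map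
      (fun g => M.toCoxeterSystem.wordProd (wd n u) * g)) := hg
    rw [List.mem_flatMap] at hg'
    obtain ⟨u, hu, hg'⟩ := hg'
    rw [List.mem_map] at hg'
    obtain ⟨g', hg'', rfl⟩ := hg'
    rw [map_mul, Equiv.Perm.mul_apply, prodsG_fix M R tc h b rest hall.2 g' hg'', rho_word]
    have h1 := hall.1
    rw [List.all_eq_true] at h1
    exact beq_iff_eq.mp (h1 u hu)

theorem prodsG_nodup (M : CoxeterMatrix (Fin n)) (R : ℕ) (tc : List ℕ) (h : Rep M R tc) :
    ∀ levels : List (ℕ × List (List ℕ)), chainCheck n R tc levels = true →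
      ((prodsG M levels).map (rho M R tc h)).Nodup
  | [], _ => by
    show ([1] : List M.Group).map (rho M R tc h) |>.Nodup
    simp
  | l :: rest, hc => by
    unfold chainCheck at hc
    rw [Bool.and_eq_true, Bool.and_eq_true] at hc
    obtain ⟨hnd, hfix, hrest⟩ := hc
    have ih := prodsG_nodup M R tc h rest hrest
    have hnd' := nodupB_sound _ hnd
    show ((l.2.flatMap (fun u => (prodsG M rest).map
      (fun g => M.toCoxeterSystem.wordProd (wd n u) * g))).map (rho M R tc h)).Nodup
    rw [List.map_flatMap, List.nodup_flatMap]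
    constructor
    · intro u _
      have e : ((prodsG M rest).map (fun g => M.toCoxeterSystem.wordProd (wd n u) * g)).map
          (rho M R tc h) = ((prodsG M rest).map (rho M R tc h)).map
            (fun p => rho M R tc h (M.toCoxeterSystem.wordProd (wd n u)) * p) := by
        rw [List.map_map, List.map_map]
        apply List.map_congr_left
        intro g _
        simp
      rw [e]
      exact ih.map (mul_right_injective _)
    · have hpw : l.2.Pairwise (fun u u' => actT n R tc u l.1 ≠ actT n R tc u' l.1) :=
        List.pairwise_map.mp hnd'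
      refine hpw.imp ?_
      intro u u' hne
      show List.Disjoint _ _
      rw [List.disjoint_left]
      intro p hp hp'
      rw [List.mem_map] at hp hp'
      obtain ⟨g, hg, rfl⟩ := hp
      obtain ⟨g', hg', heq⟩ := hp'
      rw [List.mem_map] at hg hg'
      obtain ⟨g₁, hg₁, rfl⟩ := hg
      obtain ⟨g₂, hg₂, rfl⟩ := hg'
      apply hne
      have e1 : rho M R tc h (M.toCoxeterSystem.wordProd (wd n u) * g₁) l.1 =
          actT n R tc u l.1 := by
        rw [map_mul, Equiv.Perm.mul_apply, prodsG_fix M R tc h l.1 rest hfix g₁ hg₁, rho_word]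
      have e2 : rho M R tc h (M.toCoxeterSystem.wordProd (wd n u') * g₂) l.1 =
          actT n R tc u' l.1 := by
        rw [map_mul, Equiv.Perm.mul_apply, prodsG_fix M R tc h l.1 rest hfix g₂ hg₂, rho_word]
      rw [← e1, ← e2, heq]

/-- The order of the group and the faithfulness of the representation, from a checked chain
and an upper bound for the order. -/
theorem card_inj (M : CoxeterMatrix (Fin n)) (R : ℕ) (tc : List ℕ) (h : Rep M R tc)
    (levels : List (ℕ × List (List ℕ))) (hc : chainCheck n R tc levels = true) (N : ℕ)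
    (hN : chainSize levels = N) (hfin : Finite M.Group) (hle : Nat.card M.Group ≤ N) :
    Nat.card M.Group = N ∧ Function.Injective (rho M R tc h) := by
  classical
  have : Fintype M.Group := Fintype.ofFinite _
  have hnd := prodsG_nodup M R tc h levels hc
  have hnd' : (prodsG M levels).Nodup := List.Nodup.of_map _ hnd
  have hlen : (prodsG M levels).length = N := by rw [prodsG_length, hN]
  have hge : N ≤ Nat.card M.Group := by
    rw [← hlen, Nat.card_eq_fintype_card]
    exact hnd'.length_le_card
  have hcard : Nat.card M.Group = N := le_antisymm hle hge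
  refine ⟨hcard, ?_⟩
  have huniv : (prodsG M levels).toFinset = Finset.univ := by
    apply Finset.eq_univ_of_card
    rw [List.toFinset_card_of_nodup hnd', hlen, ← hcard, Nat.card_eq_fintype_card]
  have hmem : ∀ g : M.Group, g ∈ prodsG M levels := by
    intro g
    rw [← List.mem_toFinset, huniv]
    exact Finset.mem_univ _
  intro g₁ g₂ heq
  exact List.inj_on_of_nodup_map hnd (hmem g₁) (hmem g₂) heq

/-- The order of the group and the faithfulness of the representation, from checked data. -/
theorem main (M : CoxeterMatrix (Fin n)) (mc : ℕ) (hmc : mcCheck M mc = true)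
    (Ds : List (List (List ℕ))) (tbls : List (List (List (ℕ × ℕ × ℕ))))
    (hup : AllOK n mc Ds tbls) (R : ℕ) (tc : List ℕ) (hperm : permCheck n mc R tc = true)
    (levels : List (ℕ × List (List ℕ))) (hc : chainCheck n R tc levels = true) (N : ℕ)
    (hN1 : bound Ds n = N) (hN2 : chainSize levels = N) :
    Nat.card M.Group = N ∧
      Function.Injective (rho M R tc (rep_of_check M mc (mcCheck_sound M mc hmc) R tc hperm)) := by
  obtain ⟨hfin, hle⟩ := card_le M mc (mcCheck_sound M mc hmc) Ds tbls hup
  rw [hN1] at hle
  exact card_inj M R tc _ levels hc N hN2 hfin hle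

/-- The Coxeter element, as the product of the word `0, 1, …, n - 1`. -/
noncomputable def cox (M : CoxeterMatrix (Fin n)) : M.Group :=
  M.toCoxeterSystem.wordProd (wd n (List.range n))

theorem wd_map_val (l : List (Fin n)) : wd n (l.map Fin.val) = l := by
  induction l with
  | nil => rfl
  | cons a l ih => rw [List.map_cons, wd_cons_lt a.val a.isLt, ih]

theorem wd_range : wd n (List.range n) = List.finRange n := by
  rw [← List.map_coe_finRange_eq_range]
  exact wd_map_val _

theorem cox_eq (M : CoxeterMatrix (Fin n)) : ((List.finRange n).map M.simple).prod = cox M := by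
  unfold cox
  rw [wd_range, ← M.toCoxeterSystem_simple]
  rfl

theorem rho_cox_pow (M : CoxeterMatrix (Fin n)) (R : ℕ) (tc : List ℕ) (h : Rep M R tc)
    (k : ℕ) (x : ℕ) :
    rho M R tc h (cox M ^ k) x = (actT n R tc (List.range n))^[k] x := by
  rw [map_pow, ← Equiv.Perm.iterate_eq_pow]
  have e : ⇑(rho M R tc h (cox M)) = actT n R tc (List.range n) :=
    funext (rho_word M R tc h _)
  rw [e]

/-- Check that the Coxeter element has order `h` in the permutation representation. -/
def orderCheck (n R : ℕ) (tc : List ℕ) (h : ℕ) : Bool :=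
  decide (0 < h) &&
  ((List.range R).all (fun x => (actT n R tc (List.range n))^[h] x == x) &&
   (List.range h).all (fun d => (d == 0) || ((h % d != 0) ||
      (List.range R).any (fun x => (actT n R tc (List.range n))^[d] x != x))))

theorem orderOf_cox (M : CoxeterMatrix (Fin n)) (R : ℕ) (tc : List ℕ) (hr : Rep M R tc)
    (hinj : Function.Injective (rho M R tc hr)) (h : ℕ) (hc : orderCheck n R tc h = true) :
    orderOf ((List.finRange n).map M.simple).prod = h := by
  unfold orderCheck at hc
  rw [Bool.and_eq_true, Bool.and_eq_true, decide_eq_true_eq, List.all_eq_true,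
    List.all_eq_true] at hc
  obtain ⟨hpos, h1, h2⟩ := hc
  rw [cox_eq, ← orderOf_injective (rho M R tc hr) hinj]
  have hpow : ∀ k x, (rho M R tc hr (cox M) ^ k) x = (actT n R tc (List.range n))^[k] x := by
    intro k x
    rw [← map_pow]
    exact rho_cox_pow M R tc hr k x
  have hone : rho M R tc hr (cox M) ^ h = 1 := by
    ext x
    by_cases hx : x < R
    · rw [hpow]
      exact beq_iff_eq.mp (h1 x (List.mem_range.mpr hx))
    · rw [← map_pow]
      exact rho_ge M R tc hr _ x hx
  rw [orderOf_eq_iff hpos]
  refine ⟨hone, ?_⟩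
  intro m hm hm0 hm1
  have hdm : orderOf (rho M R tc hr (cox M)) ∣ m := orderOf_dvd_of_pow_eq_one hm1
  have hdh : orderOf (rho M R tc hr (cox M)) ∣ h := orderOf_dvd_of_pow_eq_one hone
  have hdpos : 0 < orderOf (rho M R tc hr (cox M)) := Nat.pos_of_dvd_of_pos hdm hm0
  have hdlt : orderOf (rho M R tc hr (cox M)) < h :=
    lt_of_le_of_lt (Nat.le_of_dvd hm0 hdm) hm
  have h3 := h2 _ (List.mem_range.mpr hdlt)
  rw [Bool.or_eq_true, Bool.or_eq_true, List.any_eq_true] at h3
  rcases h3 with h3 | h3 | ⟨x, _, h3⟩
  · rw [beq_iff_eq] at h3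
    omega
  · rw [bne_iff_ne] at h3
    exact h3 (Nat.mod_eq_zero_of_dvd hdh)
  · rw [bne_iff_ne] at h3
    apply h3
    rw [← hpow, pow_orderOf_eq_one]
    rfl

/-- Evaluate `f` at `x`, forcing the evaluation of `x` first. -/
def forceB (x : ℕ) (f : ℕ → Bool) : Bool :=
  match x with
  | 0 => f 0
  | y + 1 => f (y + 1)

theorem forceB_eq (x : ℕ) (f : ℕ → Bool) : forceB x f = f x := by
  cases x <;> rfl

/-- Check the data for the centre: the base point `b` has a transitive orbit (by the words
`U`), the words `V` fix `b` and have no common fixed point other than `b` and `a`, and the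
`k`-th power of the Coxeter element maps `b` to `a` and commutes with the generators. -/
def centerCheck (n R : ℕ) (tc : List ℕ) (b a : ℕ) (U V : List (List ℕ)) (k : ℕ) : Bool :=
  decide (b < R) &&
  ((List.range R).all (fun x => U.any (fun u => actT n R tc u b == x)) &&
  (V.all (fun v => actT n R tc v b == b) &&
  ((List.range R).all (fun x => (x == b) || ((x == a) ||
      V.any (fun v => actT n R tc v x != x))) &&
  (((actT n R tc (List.range n))^[k] b == a) &&
  (List.range n).all (fun i => (List.range R).all (fun x =>
    forceB (stepT R tc i x) (fun y => (actT n R tc (List.range n))^[k] y ==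
      stepT R tc i ((actT n R tc (List.range n))^[k] x))))))))

theorem cpow_comm (M : CoxeterMatrix (Fin n)) (R : ℕ) (tc : List ℕ) (hr : Rep M R tc)
    (hinj : Function.Injective (rho M R tc hr)) (k : ℕ)
    (hk : ∀ i < n, ∀ x < R, (actT n R tc (List.range n))^[k] (stepT R tc i x) =
      stepT R tc i ((actT n R tc (List.range n))^[k] x)) :
    ∀ g : M.Group, g * cox M ^ k = cox M ^ k * g := by
  intro g
  obtain ⟨w, rfl⟩ := M.toCoxeterSystem.wordProd_surjective g
  induction w with
  | nil => rw [CoxeterSystem.wordProd_nil, one_mul, mul_one]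
  | cons i w ih =>
    have hi : M.toCoxeterSystem.simple i * cox M ^ k = cox M ^ k * M.toCoxeterSystem.simple i := by
      apply hinj
      ext x
      rw [map_mul, map_mul, Equiv.Perm.mul_apply, Equiv.Perm.mul_apply, rho_simple, rho_simple,
        rho_cox_pow, rho_cox_pow]
      by_cases hx : x < R
      · exact (hk i.val i.isLt x hx).symm
      · have e1 : stepT R tc i.val x = x := stepT_ge _ _ _ _ hx
        have e2 : (actT n R tc (List.range n))^[k] x = x := by
          rw [← rho_cox_pow M R tc hr]
          exact rho_ge M R tc hr _ x hx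
        rw [e1, e2, e1]
    rw [CoxeterSystem.wordProd_cons, mul_assoc, ih, ← mul_assoc, hi, mul_assoc]

theorem center_sub (M : CoxeterMatrix (Fin n)) (R : ℕ) (tc : List ℕ) (hr : Rep M R tc)
    (hinj : Function.Injective (rho M R tc hr)) (b a : ℕ) (U V : List (List ℕ)) (k : ℕ)
    (hc : centerCheck n R tc b a U V k = true) :
    cox M ^ k ∈ Subgroup.center M.Group ∧ rho M R tc hr (cox M ^ k) b = a ∧
      ∀ z ∈ Subgroup.center M.Group, z = 1 ∨ z = cox M ^ k := by
  unfold centerCheck at hc
  rw [Bool.and_eq_true, Bool.and_eq_true, Bool.and_eq_true, Bool.and_eq_true, Bool.and_eq_true,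
    decide_eq_true_eq, beq_iff_eq] at hc
  obtain ⟨hb, htrans, hVb, hVfix, hka, hcomm⟩ := hc
  rw [List.all_eq_true] at htrans hVb hVfix hcomm
  have hk : ∀ i < n, ∀ x < R, (actT n R tc (List.range n))^[k] (stepT R tc i x) =
      stepT R tc i ((actT n R tc (List.range n))^[k] x) := by
    intro i hi x hx
    have h1 := hcomm i (List.mem_range.mpr hi)
    rw [List.all_eq_true] at h1
    have h2 := h1 x (List.mem_range.mpr hx)
    rw [forceB_eq] at h2
    exact beq_iff_eq.mp h2
  have hcen := cpow_comm M R tc hr hinj k hk
  have hkb : rho M R tc hr (cox M ^ k) b = a := by rw [rho_cox_pow, hka]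
  have htr : ∀ x < R, ∃ u : List ℕ, actT n R tc u b = x := by
    intro x hx
    have h1 := htrans x (List.mem_range.mpr hx)
    rw [List.any_eq_true] at h1
    obtain ⟨u, _, hu⟩ := h1
    exact ⟨u, beq_iff_eq.mp hu⟩
  refine ⟨Subgroup.mem_center_iff.mpr hcen, hkb, ?_⟩
  intro z hz
  rw [Subgroup.mem_center_iff] at hz
  have hzlt : rho M R tc hr z b < R := rho_lt M R tc hr z b hb
  have hzfix : ∀ v ∈ V, actT n R tc v (rho M R tc hr z b) = rho M R tc hr z b := by
    intro v hv
    rw [← rho_word M R tc hr, ← Equiv.Perm.mul_apply, ← map_mul, hz, map_mul,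
      Equiv.Perm.mul_apply, rho_word]
    congr 1
    exact beq_iff_eq.mp (hVb v hv)
  have hcase := hVfix _ (List.mem_range.mpr hzlt)
  rw [Bool.or_eq_true, Bool.or_eq_true, beq_iff_eq, beq_iff_eq, List.any_eq_true] at hcase
  have key : ∀ z' : M.Group, (∀ g : M.Group, g * z' = z' * g) →
      rho M R tc hr z b = rho M R tc hr z' b → z = z' := by
    intro z' hz' hbb
    apply hinj
    ext x
    by_cases hx : x < R
    · obtain ⟨u, rfl⟩ := htr x hx
      rw [← rho_word M R tc hr, ← Equiv.Perm.mul_apply, ← Equiv.Perm.mul_apply, ← map_mul,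
        ← map_mul, ← hz, ← hz', map_mul, map_mul, Equiv.Perm.mul_apply, Equiv.Perm.mul_apply,
        hbb]
    · rw [rho_ge M R tc hr z x hx, rho_ge M R tc hr z' x hx]
  rcases hcase with h1 | h1 | ⟨v, hv, h1⟩
  · left
    apply key 1 (fun g => by rw [mul_one, one_mul])
    rw [h1, map_one]
    rfl
  · right
    apply key (cox M ^ k) hcen
    rw [h1, hkb]
  · rw [bne_iff_ne] at h1
    exact absurd (hzfix v hv) h1

/-- The centre has order `2` and lies in the group generated by the Coxeter element. -/
theorem center_two (M : CoxeterMatrix (Fin n)) (R : ℕ) (tc : List ℕ) (hr : Rep M R tc)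
    (hinj : Function.Injective (rho M R tc hr)) (b a : ℕ) (U V : List (List ℕ)) (k : ℕ)
    (hc : centerCheck n R tc b a U V k = true) (hab : a ≠ b) :
    Nat.card (Subgroup.center M.Group) = 2 ∧
      Subgroup.center M.Group ≤ Subgroup.zpowers ((List.finRange n).map M.simple).prod := by
  obtain ⟨hcen, hkb, hsub⟩ := center_sub M R tc hr hinj b a U V k hc
  rw [cox_eq]
  constructor
  · rw [Nat.card_eq_two_iff]
    refine ⟨⟨1, Subgroup.one_mem _⟩, ⟨cox M ^ k, hcen⟩, ?_, ?_⟩
    · intro heq
      have h1 : (1 : M.Group) = cox M ^ k := congrArg Subtype.val heq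
      rw [← h1, map_one] at hkb
      exact hab hkb.symm
    · ext z
      simp only [Set.mem_insert_iff, Set.mem_singleton_iff, Set.mem_univ, iff_true]
      rcases hsub z.1 z.2 with h1 | h1
      · left
        exact Subtype.ext h1
      · right
        exact Subtype.ext h1
  · intro z hz
    rcases hsub z hz with h1 | h1
    · rw [h1]
      exact Subgroup.one_mem _
    · rw [h1]
      exact Subgroup.pow_mem _ (Subgroup.mem_zpowers _) k

/-- The centre is trivial. -/
theorem center_one (M : CoxeterMatrix (Fin n)) (R : ℕ) (tc : List ℕ) (hr : Rep M R tc)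
    (hinj : Function.Injective (rho M R tc hr)) (b a : ℕ) (U V : List (List ℕ))
    (hc : centerCheck n R tc b a U V 0 = true) :
    Nat.card (Subgroup.center M.Group) = 1 ∧
      Subgroup.center M.Group ≤ Subgroup.zpowers ((List.finRange n).map M.simple).prod := by
  obtain ⟨_, _, hsub⟩ := center_sub M R tc hr hinj b a U V 0 hc
  have hbot : Subgroup.center M.Group = ⊥ := by
    rw [Subgroup.eq_bot_iff_forall]
    intro z hz
    rcases hsub z hz with h1 | h1
    · exact h1
    · rw [h1, pow_zero]
  rw [hbot]
  exact ⟨Subgroup.card_bot, bot_le⟩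

end Cfsg.Agent.Lib.Helper19.CoxLower
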