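import Cfsg.Agent.Lib.Helper19.CoxLower
import Mathlib

set_option autoImplicit false

/-!
Normal subgroups of a finite Coxeter group with a faithful permutation representation given by a
table: a certificate (the conjugates of each simple reflection, and for each such conjugate `t ≠ s`
a product of conjugates of `t s` equal to a power of the Coxeter element) shows that every
non-trivial normal subgroup contains one of finitely many powers of the Coxeter element.  Hence a
criterion for the injectivity of a homomorphism defined on the Coxeter group.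
-/

namespace Cfsg.Agent.Lib.Helper19.CoxNormal

open Cfsg.Agent.Lib.Helper19.CoxUpper Cfsg.Agent.Lib.Helper19.CoxLower

variable {n : ℕ}

/-- two words act in the same way on the points of the permutation representation -/
def sameAct (n R : ℕ) (tc : List ℕ) (w₁ w₂ : List ℕ) : Bool :=
  (List.range R).all (fun x => actT n R tc w₁ x == actT n R tc w₂ x)

theorem wordProd_eq_of_sameAct (M : CoxeterMatrix (Fin n)) (R : ℕ) (tc : List ℕ) (hr : Rep M R tc)
    (hinj : Function.Injective (rho M R tc hr)) {w₁ w₂ : List ℕ}
    (h : sameAct n R tc w₁ w₂ = true) :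
    M.toCoxeterSystem.wordProd (wd n w₁) = M.toCoxeterSystem.wordProd (wd n w₂) := by
  apply hinj
  ext x
  by_cases hx : x < R
  · rw [rho_word, rho_word]
    unfold sameAct at h
    rw [List.all_eq_true] at h
    exact beq_iff_eq.mp (h x (List.mem_range.mpr hx))
  · rw [rho_ge M R tc hr _ x hx, rho_ge M R tc hr _ x hx]

theorem wd_reverse (l : List ℕ) : wd n l.reverse = (wd n l).reverse := by
  unfold wd
  exact List.filterMap_reverse

theorem wordProd_replicate (M : CoxeterMatrix (Fin n)) (l : List ℕ) (k : ℕ) :
    M.toCoxeterSystem.wordProd (wd n (List.replicate k l).flatten) =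
      (M.toCoxeterSystem.wordProd (wd n l)) ^ k := by
  induction k with
  | zero =>
    show M.toCoxeterSystem.wordProd [] = _
    rw [CoxeterSystem.wordProd_nil, pow_zero]
  | succ k ih =>
    rw [List.replicate_succ, List.flatten_cons, wd_append, CoxeterSystem.wordProd_append, ih,
      pow_succ']

/-- The certificate for the `i`-th simple reflection: entries `(τ, hs, k)`; the words `τ` give all
conjugates of `s_i`; for each of them, either `τ` is `s_i`, or the product over `h ∈ hs` of the
conjugates of `τ s_i` by `h` is the `k`-th power of the Coxeter element. -/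
def reflCheck (n R : ℕ) (tc : List ℕ) (i : ℕ) (T : List (List ℕ × List (List ℕ) × ℕ)) : Bool :=
  T.any (fun e => sameAct n R tc e.1 [i]) &&
  (T.all (fun e => (List.range n).all (fun j =>
    T.any (fun e' => sameAct n R tc (j :: (e.1 ++ [j])) e'.1))) &&
  T.all (fun e => sameAct n R tc e.1 [i] ||
    sameAct n R tc (e.2.1.flatMap (fun h => h ++ (e.1 ++ (i :: h.reverse))))
      (List.replicate e.2.2 (List.range n)).flatten))

theorem conj_mem (M : CoxeterMatrix (Fin n)) (R : ℕ) (tc : List ℕ) (hr : Rep M R tc)
    (hinj : Function.Injective (rho M R tc hr)) (i : Fin n)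
    (T : List (List ℕ × List (List ℕ) × ℕ))
    (h1 : T.any (fun e => sameAct n R tc e.1 [i.val]) = true)
    (h2 : T.all (fun e => (List.range n).all (fun j =>
      T.any (fun e' => sameAct n R tc (j :: (e.1 ++ [j])) e'.1))) = true)
    (g : M.Group) :
    ∃ e ∈ T, g * M.toCoxeterSystem.simple i * g⁻¹ = M.toCoxeterSystem.wordProd (wd n e.1) := by
  obtain ⟨ω, rfl⟩ := M.toCoxeterSystem.wordProd_surjective g
  induction ω with
  | nil =>
    rw [List.any_eq_true] at h1
    obtain ⟨e, he, hs⟩ := h1
    refine ⟨e, he, ?_⟩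
    rw [CoxeterSystem.wordProd_nil, one_mul, inv_one, mul_one,
      wordProd_eq_of_sameAct M R tc hr hinj hs, wd_singleton, CoxeterSystem.wordProd_singleton]
  | cons j ω ih =>
    obtain ⟨e, he, heq⟩ := ih
    rw [List.all_eq_true] at h2
    have h3 := h2 e he
    rw [List.all_eq_true] at h3
    have h4 := h3 j.val (List.mem_range.mpr j.isLt)
    rw [List.any_eq_true] at h4
    obtain ⟨e', he', hs⟩ := h4
    refine ⟨e', he', ?_⟩
    have eR : M.toCoxeterSystem.wordProd (wd n (j.val :: (e.1 ++ [j.val]))) =
        M.toCoxeterSystem.simple j *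
          (M.toCoxeterSystem.wordProd (wd n e.1) * M.toCoxeterSystem.simple j) := by
      rw [wd_cons_lt j.val j.isLt, wd_append, wd_singleton, CoxeterSystem.wordProd_cons,
        CoxeterSystem.wordProd_append, CoxeterSystem.wordProd_singleton]
    rw [← wordProd_eq_of_sameAct M R tc hr hinj hs, eR, ← heq, CoxeterSystem.wordProd_cons,
      mul_inv_rev, CoxeterSystem.inv_simple]
    simp only [mul_assoc]

theorem cert_mem (M : CoxeterMatrix (Fin n)) (R : ℕ) (tc : List ℕ) (hr : Rep M R tc)
    (hinj : Function.Injective (rho M R tc hr)) (i : Fin n) (τ : List ℕ) (hs : List (List ℕ))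
    (k : ℕ)
    (hc : sameAct n R tc (hs.flatMap (fun h => h ++ (τ ++ (i.val :: h.reverse))))
      (List.replicate k (List.range n)).flatten = true)
    (N : Subgroup M.Group) [hN : N.Normal]
    (hx : M.toCoxeterSystem.wordProd (wd n τ) * M.toCoxeterSystem.simple i ∈ N) :
    cox M ^ k ∈ N := by
  have e := wordProd_eq_of_sameAct M R tc hr hinj hc
  rw [wordProd_replicate] at e
  have e' : cox M ^ k = M.toCoxeterSystem.wordProd
      (wd n (hs.flatMap (fun h => h ++ (τ ++ (i.val :: h.reverse))))) := e.symm
  rw [e']
  clear e e' hc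
  induction hs with
  | nil =>
    show M.toCoxeterSystem.wordProd [] ∈ N
    rw [CoxeterSystem.wordProd_nil]
    exact N.one_mem
  | cons h hs ih =>
    rw [List.flatMap_cons, wd_append, CoxeterSystem.wordProd_append]
    apply N.mul_mem _ ih
    rw [wd_append, wd_append, wd_cons_lt i.val i.isLt, wd_reverse, CoxeterSystem.wordProd_append,
      CoxeterSystem.wordProd_append, CoxeterSystem.wordProd_cons, CoxeterSystem.wordProd_reverse]
    have h5 := hN.conj_mem _ hx (M.toCoxeterSystem.wordProd (wd n h))
    simpa only [mul_assoc, Fin.eta] using h5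

/-- every non-trivial normal subgroup contains one of the powers of the Coxeter element named by
the certificate -/
theorem exists_target (M : CoxeterMatrix (Fin n)) (R : ℕ) (tc : List ℕ) (hr : Rep M R tc)
    (hinj : Function.Injective (rho M R tc hr)) (k0 : ℕ)
    (hcen : ∀ z ∈ Subgroup.center M.Group, z = 1 ∨ z = cox M ^ k0)
    (Ts : List (List (List ℕ × List (List ℕ) × ℕ)))
    (hTs : ∀ i < n, reflCheck n R tc i (Ts.getD i []) = true)
    (N : Subgroup M.Group) [hNn : N.Normal] (hN : N ≠ ⊥) :
    cox M ^ k0 ∈ N ∨ ∃ i < n, ∃ e ∈ Ts.getD i [], cox M ^ e.2.2 ∈ N := by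
  obtain ⟨g, hg, hg1⟩ : ∃ g ∈ N, g ≠ 1 := by
    by_contra hcon
    apply hN
    rw [Subgroup.eq_bot_iff_forall]
    intro x hx
    by_contra hx1
    exact hcon ⟨x, hx, hx1⟩
  by_cases hc : ∀ i : Fin n, g * M.toCoxeterSystem.simple i = M.toCoxeterSystem.simple i * g
  · left
    have hz : g ∈ Subgroup.center M.Group := by
      rw [Subgroup.mem_center_iff]
      intro a
      obtain ⟨ω, rfl⟩ := M.toCoxeterSystem.wordProd_surjective a
      induction ω with
      | nil => rw [CoxeterSystem.wordProd_nil, one_mul, mul_one]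
      | cons j ω ih =>
        rw [CoxeterSystem.wordProd_cons, mul_assoc, ih, ← mul_assoc, ← hc j, mul_assoc]
    rcases hcen g hz with h | h
    · exact absurd h hg1
    · rw [← h]
      exact hg
  · right
    obtain ⟨i, hi⟩ := not_forall.mp hc
    have hT := hTs i.val i.isLt
    unfold reflCheck at hT
    rw [Bool.and_eq_true, Bool.and_eq_true] at hT
    obtain ⟨h1, h2, h3⟩ := hT
    obtain ⟨e, he, heq⟩ := conj_mem M R tc hr hinj i _ h1 h2 g
    refine ⟨i.val, i.isLt, e, he, ?_⟩
    rw [List.all_eq_true] at h3
    have h4 := h3 e he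
    rw [Bool.or_eq_true] at h4
    rcases h4 with h4 | h4
    · exfalso
      apply hi
      have e1 := wordProd_eq_of_sameAct M R tc hr hinj h4
      rw [wd_singleton, CoxeterSystem.wordProd_singleton] at e1
      rw [e1] at heq
      calc g * M.toCoxeterSystem.simple i
          = g * M.toCoxeterSystem.simple i * g⁻¹ * g := by group
        _ = M.toCoxeterSystem.simple i * g := by rw [heq]
    · apply cert_mem M R tc hr hinj i e.1 e.2.1 e.2.2 h4 N
      rw [← heq]
      have h5 : M.toCoxeterSystem.simple i * g⁻¹ * (M.toCoxeterSystem.simple i)⁻¹ ∈ N :=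
        hNn.conj_mem _ (N.inv_mem hg) _
      rw [CoxeterSystem.inv_simple] at h5
      have h6 := N.mul_mem hg h5
      simpa only [mul_assoc] using h6

/-- a homomorphism that does not kill the powers of the Coxeter element named by the certificate
is injective -/
theorem hom_injective (M : CoxeterMatrix (Fin n)) (R : ℕ) (tc : List ℕ) (hr : Rep M R tc)
    (hinj : Function.Injective (rho M R tc hr)) (k0 : ℕ)
    (hcen : ∀ z ∈ Subgroup.center M.Group, z = 1 ∨ z = cox M ^ k0)
    (Ts : List (List (List ℕ × List (List ℕ) × ℕ)))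
    (hTs : ∀ i < n, reflCheck n R tc i (Ts.getD i []) = true)
    {Γ : Type*} [Group Γ] (φ : M.Group →* Γ) (h0 : φ (cox M ^ k0) ≠ 1)
    (hall : ∀ i < n, ∀ e ∈ Ts.getD i [], φ (cox M ^ e.2.2) ≠ 1) : Function.Injective φ := by
  rw [← MonoidHom.ker_eq_bot_iff]
  by_contra hne
  rcases exists_target M R tc hr hinj k0 hcen Ts hTs φ.ker hne with h | ⟨i, hi, e, he, h⟩
  · exact h0 (MonoidHom.mem_ker.mp h)
  · exact hall i hi e he (MonoidHom.mem_ker.mp h)

end Cfsg.Agent.Lib.Helper19.CoxNormal
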