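import Cfsg.Agent.Lib.Helper19.CoxNormal
import Cfsg.Agent.Lib.Helper19.CoxDataF4
import Cfsg.Agent.Lib.Helper19.CoxDataG2
import Mathlib

set_option autoImplicit false
set_option maxRecDepth 100000

/-!
Injectivity criteria for homomorphisms defined on the Coxeter groups of types F4 and G2: every
non-trivial normal subgroup of `W(F4)` contains the central element `c ^ 6` (`c` the Coxeter
element), every non-trivial normal subgroup of `W(G2)` contains `c ^ 2` or `c ^ 3`.  Generated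
certificates, checked in the faithful permutation representations of `CoxDataF4`, `CoxDataG2`.
-/

namespace Cfsg.Agent.Lib.Helper19.CoxNormalData

open Cfsg.Agent.Lib.Helper19.CoxUpper Cfsg.Agent.Lib.Helper19.CoxLower
  Cfsg.Agent.Lib.Helper19.CoxNormal

def TF4x0 : List (List ℕ × List (List ℕ) × ℕ) :=
  [([0], [], 6),
   ([1, 0, 1], [[], [0, 2, 1, 3, 2], [1, 2, 1, 3, 2]], 6),
   ([0, 1, 0, 1, 0], [[], [0, 2, 1, 3, 2], [0, 1, 0, 2, 1, 3, 2]], 6),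
   ([2, 1, 0, 1, 2], [[], [0, 1, 3], [1, 2, 1, 3]], 6),
   ([2, 0, 1, 0, 1, 0, 2], [[], [0, 1, 3], [0, 2, 1, 0, 2, 1, 3]], 6),
   ([1, 2, 1, 0, 1, 2, 1], [[], [1, 3, 2, 1, 2, 3]], 6),
   ([3, 2, 1, 0, 1, 2, 3], [[], [0, 1, 3], [1, 3, 2, 1]], 6),
   ([3, 2, 0, 1, 0, 1, 0, 2, 3], [[], [0, 1, 3], [0, 2, 1, 0, 2, 1]], 6),
   ([3, 1, 2, 1, 0, 1, 2, 1, 3], [[], [1, 2, 1, 2]], 6),
   ([2, 3, 1, 2, 1, 0, 1, 2, 1, 3, 2], [[], [1, 2, 1, 2]], 6),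
   ([1, 2, 3, 1, 2, 1, 0, 1, 2, 1, 3, 2, 1], [[], [0, 1, 0, 2, 1], [0, 3, 2, 1, 0, 2, 1]], 6),
   ([0, 1, 2, 3, 1, 2, 1, 0, 1, 2, 1, 3, 2, 1, 0], [[], [0, 1, 0, 2, 1], [1, 2, 1, 0, 2, 1]], 6)]

def TF4x1 : List (List ℕ × List (List ℕ) × ℕ) :=
  [([1], [], 6),
   ([0, 1, 0], [[], [0, 2, 1, 3, 2], [0, 1, 0, 2, 1, 3, 2]], 6),
   ([2, 1, 2], [[], [0, 1, 3, 2, 1, 0, 2, 3]], 6),
   ([1, 0, 1, 0, 1], [[], [0, 2, 1, 3, 2], [1, 2, 1, 3, 2]], 6),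
   ([2, 0, 1, 0, 2], [[], [2, 3], [3, 2]], 6),
   ([3, 2, 1, 2, 3], [[], [0, 1, 2, 1, 0, 2]], 6),
   ([1, 2, 0, 1, 0, 2, 1], [[], [2, 3], [0, 1, 0, 2, 1, 2, 3]], 6),
   ([3, 2, 0, 1, 0, 2, 3], [[], [2, 3], [0, 1, 0, 2, 1, 2]], 6),
   ([3, 1, 2, 0, 1, 0, 2, 1, 3], [[], [2, 3], [3, 2]], 6),
   ([2, 3, 1, 2, 0, 1, 0, 2, 1, 3, 2], [[], [0, 2, 1], [1, 2, 1, 3, 2]], 6),
   ([1, 2, 3, 1, 2, 0, 1, 0, 2, 1, 3, 2, 1], [[], [0, 2, 1], [0, 3, 2, 1, 2]], 6),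
   ([0, 1, 2, 3, 1, 2, 0, 1, 0, 2, 1, 3, 2, 1, 0], [[], [0, 1, 2, 1, 0, 2]], 6)]

def TF4x2 : List (List ℕ × List (List ℕ) × ℕ) :=
  [([2], [], 6),
   ([1, 2, 1], [[], [0, 1, 3, 2, 1, 0, 2, 3]], 6),
   ([3, 2, 3], [[], [1, 0, 2, 1, 2], [3, 2, 1, 0, 2, 1, 2]], 6),
   ([0, 1, 2, 1, 0], [[], [1, 3, 2, 1, 2, 3]], 6),
   ([3, 1, 2, 1, 3], [[], [0, 1], [2, 1, 3, 2, 1, 0, 2]], 6),
   ([2, 3, 2, 3, 2], [[], [1, 0, 2, 1, 2], [0, 2, 1, 0, 2, 1]], 6),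
   ([3, 0, 1, 2, 1, 0, 3], [[], [0, 1], [1, 0]], 6),
   ([2, 3, 1, 2, 1, 3, 2], [[], [0, 1], [1, 0]], 6),
   ([2, 3, 0, 1, 2, 1, 0, 3, 2], [[], [0, 1], [2, 1, 3, 2, 1, 2]], 6),
   ([1, 2, 3, 0, 1, 2, 1, 0, 3, 2, 1], [[], [1, 3, 2], [2, 1, 0, 2, 1]], 6),
   ([2, 1, 2, 3, 0, 1, 2, 1, 0, 3, 2, 1, 2], [[], [1, 3, 2], [0, 1, 3, 2, 1]], 6),
   ([3, 2, 1, 2, 3, 0, 1, 2, 1, 0, 3, 2, 1, 2, 3], [[], [1, 3, 2, 1, 2, 3]], 6)]

def TF4x3 : List (List ℕ × List (List ℕ) × ℕ) :=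
  [([3], [], 6),
   ([2, 3, 2], [[], [1, 0, 2, 1, 2], [0, 2, 1, 0, 2, 1]], 6),
   ([1, 2, 3, 2, 1], [[], [0, 2, 3], [1, 0, 2, 1, 0, 2]], 6),
   ([3, 2, 3, 2, 3], [[], [1, 0, 2, 1, 2], [3, 2, 1, 0, 2, 1, 2]], 6),
   ([0, 1, 2, 3, 2, 1, 0], [[], [0, 2, 3], [1, 0, 2, 1, 2]], 6),
   ([2, 1, 2, 3, 2, 1, 2], [[], [0, 1, 2, 1, 0, 2]], 6),
   ([3, 1, 2, 3, 2, 1, 3], [[], [0, 2, 3], [3, 2, 1, 0, 2, 3]], 6),
   ([2, 0, 1, 2, 3, 2, 1, 0, 2], [[], [1, 2, 1, 2]], 6),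
   ([3, 0, 1, 2, 3, 2, 1, 0, 3], [[], [0, 2, 3], [2, 3, 2, 1, 2]], 6),
   ([1, 2, 0, 1, 2, 3, 2, 1, 0, 2, 1], [[], [1, 2, 1, 2]], 6),
   ([2, 1, 2, 0, 1, 2, 3, 2, 1, 0, 2, 1, 2], [[], [2, 1, 2, 3, 2], [1, 2, 3, 2, 1, 2]], 6),
   ([3, 2, 1, 2, 0, 1, 2, 3, 2, 1, 0, 2, 1, 2, 3], [[], [2, 1, 2, 3, 2], [0, 1, 2, 1, 2, 3, 2]], 6)]

def TG2x0 : List (List ℕ × List (List ℕ) × ℕ) :=
  [([0], [], 3),
   ([1, 0, 1], [[0]], 2),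
   ([0, 1, 0, 1, 0], [[]], 2)]

def TG2x1 : List (List ℕ × List (List ℕ) × ℕ) :=
  [([1], [], 3),
   ([0, 1, 0], [[]], 2),
   ([1, 0, 1, 0, 1], [[0]], 2)]

theorem hTF4 : ∀ i < 4, reflCheck 4 CoxDataF4.R CoxDataF4.tc i
    ([TF4x0, TF4x1, TF4x2, TF4x3].getD i []) = true := by
  intro i hi
  interval_cases i <;> decide +kernel

theorem hkF4 : ∀ i < 4, ∀ e ∈ [TF4x0, TF4x1, TF4x2, TF4x3].getD i [], e.2.2 = 6 := by
  intro i hi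
  interval_cases i <;> decide +kernel

theorem hTG2 : ∀ i < 2, reflCheck 2 CoxDataG2.R CoxDataG2.tc i
    ([TG2x0, TG2x1].getD i []) = true := by
  intro i hi
  interval_cases i <;> decide +kernel

theorem hkG2 : ∀ i < 2, ∀ e ∈ [TG2x0, TG2x1].getD i [], e.2.2 = 2 ∨ e.2.2 = 3 := by
  intro i hi
  interval_cases i <;> decide +kernel

theorem lift_cox_F4 {Γ : Type*} [Group Γ] (f : Fin 4 → Γ) (hf : CoxeterMatrix.F₄.IsLiftable f) :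
    CoxeterMatrix.F₄.toCoxeterSystem.lift ⟨f, hf⟩ (cox CoxeterMatrix.F₄) =
      f 0 * f 1 * f 2 * f 3 := by
  have e : cox CoxeterMatrix.F₄ = CoxeterMatrix.F₄.toCoxeterSystem.wordProd [0, 1, 2, 3] := by
    unfold cox
    rw [wd_range]
    rfl
  rw [e]
  simp only [CoxeterSystem.wordProd_cons, CoxeterSystem.wordProd_nil, map_mul,
    CoxeterSystem.lift_apply_simple, mul_one, mul_assoc]

theorem lift_cox_G2 {Γ : Type*} [Group Γ] (f : Fin 2 → Γ) (hf : CoxeterMatrix.G₂.IsLiftable f) :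
    CoxeterMatrix.G₂.toCoxeterSystem.lift ⟨f, hf⟩ (cox CoxeterMatrix.G₂) = f 0 * f 1 := by
  have e : cox CoxeterMatrix.G₂ = CoxeterMatrix.G₂.toCoxeterSystem.wordProd [0, 1] := by
    unfold cox
    rw [wd_range]
    rfl
  rw [e]
  simp only [CoxeterSystem.wordProd_cons, CoxeterSystem.wordProd_nil, map_mul,
    CoxeterSystem.lift_apply_simple, mul_one]

/-- A homomorphism from the Coxeter group of type F4 given on the generators by `f` is injective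
as soon as it does not kill the sixth power of the Coxeter element. -/
theorem f4_injective {Γ : Type*} [Group Γ] (f : Fin 4 → Γ) (hf : CoxeterMatrix.F₄.IsLiftable f)
    (hw : (f 0 * f 1 * f 2 * f 3) ^ 6 ≠ 1) :
    Function.Injective (CoxeterMatrix.F₄.toCoxeterSystem.lift ⟨f, hf⟩) := by
  apply hom_injective CoxeterMatrix.F₄ CoxDataF4.R CoxDataF4.tc CoxDataF4.hrep
    CoxDataF4.card_inj.2 6
    (center_sub _ CoxDataF4.R CoxDataF4.tc CoxDataF4.hrep CoxDataF4.card_inj.2 0 23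
      CoxDataF4.U CoxDataF4.V 6 CoxDataF4.hcenter).2.2
    [TF4x0, TF4x1, TF4x2, TF4x3] hTF4
  · rw [map_pow, lift_cox_F4]
    exact hw
  · intro i hi e he
    rw [hkF4 i hi e he, map_pow, lift_cox_F4]
    exact hw

/-- A homomorphism from the Coxeter group of type G2 given on the generators by `f` is injective
as soon as it kills neither the square nor the cube of the Coxeter element. -/
theorem g2_injective {Γ : Type*} [Group Γ] (f : Fin 2 → Γ) (hf : CoxeterMatrix.G₂.IsLiftable f)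
    (h2 : (f 0 * f 1) ^ 2 ≠ 1) (h3 : (f 0 * f 1) ^ 3 ≠ 1) :
    Function.Injective (CoxeterMatrix.G₂.toCoxeterSystem.lift ⟨f, hf⟩) := by
  apply hom_injective CoxeterMatrix.G₂ CoxDataG2.R CoxDataG2.tc CoxDataG2.hrep
    CoxDataG2.card_inj.2 3
    (center_sub _ CoxDataG2.R CoxDataG2.tc CoxDataG2.hrep CoxDataG2.card_inj.2 0 5
      CoxDataG2.U CoxDataG2.V 3 CoxDataG2.hcenter).2.2
    [TG2x0, TG2x1] hTG2
  · rw [map_pow, lift_cox_G2]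
    exact h3
  · intro i hi e he
    rcases hkG2 i hi e he with h | h
    · rw [h, map_pow, lift_cox_G2]
      exact h2
    · rw [h, map_pow, lift_cox_G2]
      exact h3

end Cfsg.Agent.Lib.Helper19.CoxNormalData
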