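import Cfsg.Agent.Lib.Helper19.CoxLower
import Mathlib

set_option autoImplicit false

/-!
An abstract criterion: a group `N` with a normal subgroup `H` and elements `ν i` generating `N`
modulo `H`, satisfying the Coxeter relations modulo `H`, and with a permutation action that is
trivial on `H` and restricts on the `ν i` to a faithful table representation of the Coxeter
group, has `N / H` isomorphic to the Coxeter group.
-/

namespace Cfsg.Agent.Lib.Helper19.CoxQuot

open Cfsg.Agent.Lib.Helper19.CoxUpper Cfsg.Agent.Lib.Helper19.CoxLower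

theorem exists_hom {n : ℕ} (M : CoxeterMatrix (Fin n)) (R : ℕ) (tc : List ℕ) (hr : Rep M R tc)
    (hinj : Function.Injective (rho M R tc hr))
    {G : Type*} [Group G] (N H : Subgroup G) (hHN : H ≤ N) [hnorm : (H.subgroupOf N).Normal]
    (ν : Fin n → G) (hν : ∀ i, ν i ∈ N)
    (hgen : N ≤ H ⊔ Subgroup.closure (Set.range ν))
    (hrel : ∀ i j, (ν i * ν j) ^ (M i j) ∈ H)
    (Θ : N →* Equiv.Perm ℕ) (hΘH : ∀ g : N, (g : G) ∈ H → Θ g = 1)
    (hΘν : ∀ i x, Θ ⟨ν i, hν i⟩ x = stepT R tc i.val x) :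
    ∃ φ : N →* M.Group, Function.Surjective φ ∧ φ.ker = H.subgroupOf N ∧
      ∀ i, φ ⟨ν i, hν i⟩ = M.simple i := by
  have hone : ∀ g : N, QuotientGroup.mk' (H.subgroupOf N) g = 1 ↔ (g : G) ∈ H := by
    intro g
    rw [QuotientGroup.mk'_apply, QuotientGroup.eq_one_iff, Subgroup.mem_subgroupOf]
  let f : Fin n → N ⧸ H.subgroupOf N := fun i => QuotientGroup.mk' (H.subgroupOf N) ⟨ν i, hν i⟩
  have hf : M.IsLiftable f := by
    intro i j
    show (QuotientGroup.mk' (H.subgroupOf N) ⟨ν i, hν i⟩ *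
      QuotientGroup.mk' (H.subgroupOf N) ⟨ν j, hν j⟩) ^ M i j = 1
    rw [← map_mul, ← map_pow, hone]
    exact hrel i j
  let ψ : M.Group →* N ⧸ H.subgroupOf N := M.toCoxeterSystem.lift ⟨f, hf⟩
  have hψ : ∀ i, ψ (M.toCoxeterSystem.simple i) = f i :=
    fun i => M.toCoxeterSystem.lift_apply_simple hf i
  let Θq : N ⧸ H.subgroupOf N →* Equiv.Perm ℕ := QuotientGroup.lift (H.subgroupOf N) Θ (by
    intro g hg
    rw [MonoidHom.mem_ker]
    exact hΘH g (Subgroup.mem_subgroupOf.mp hg))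
  have hcomp : Θq.comp ψ = rho M R tc hr := by
    apply M.toCoxeterSystem.ext_simple
    intro i
    rw [MonoidHom.comp_apply, hψ]
    ext x
    show Θq (QuotientGroup.mk' (H.subgroupOf N) ⟨ν i, hν i⟩) x = _
    rw [QuotientGroup.mk'_apply, QuotientGroup.lift_mk, hΘν, rho_simple]
  have hψinj : Function.Injective ψ := by
    intro a b hab
    apply hinj
    rw [← hcomp, MonoidHom.comp_apply, MonoidHom.comp_apply, hab]
  have key : ∀ x : G, x ∈ H ⊔ Subgroup.closure (Set.range ν) →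
      ∃ hx : x ∈ N, QuotientGroup.mk' (H.subgroupOf N) ⟨x, hx⟩ ∈ ψ.range := by
    intro x hx
    rw [← Subgroup.closure_eq H, ← Subgroup.closure_union] at hx
    induction hx using Subgroup.closure_induction with
    | mem y hy =>
      rcases hy with hy | ⟨i, rfl⟩
      · refine ⟨hHN hy, ?_⟩
        have h1 : QuotientGroup.mk' (H.subgroupOf N) ⟨y, hHN hy⟩ = 1 := (hone _).mpr hy
        rw [h1]
        exact Subgroup.one_mem _
      · exact ⟨hν i, ⟨M.toCoxeterSystem.simple i, hψ i⟩⟩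
    | one =>
      refine ⟨Subgroup.one_mem _, ?_⟩
      have h1 : QuotientGroup.mk' (H.subgroupOf N) ⟨1, Subgroup.one_mem _⟩ = 1 :=
        (hone _).mpr (Subgroup.one_mem _)
      rw [h1]
      exact Subgroup.one_mem _
    | mul y z _ _ hy hz =>
      obtain ⟨hy1, hy2⟩ := hy
      obtain ⟨hz1, hz2⟩ := hz
      refine ⟨Subgroup.mul_mem _ hy1 hz1, ?_⟩
      have h1 : (⟨y * z, Subgroup.mul_mem _ hy1 hz1⟩ : N) = ⟨y, hy1⟩ * ⟨z, hz1⟩ := rfl
      rw [h1, map_mul]
      exact Subgroup.mul_mem _ hy2 hz2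
    | inv y _ hy =>
      obtain ⟨hy1, hy2⟩ := hy
      refine ⟨Subgroup.inv_mem _ hy1, ?_⟩
      have h1 : (⟨y⁻¹, Subgroup.inv_mem _ hy1⟩ : N) = ⟨y, hy1⟩⁻¹ := rfl
      rw [h1, map_inv]
      exact Subgroup.inv_mem _ hy2
  have hψsurj : Function.Surjective ψ := by
    intro q
    obtain ⟨g, rfl⟩ := QuotientGroup.mk'_surjective (H.subgroupOf N) q
    obtain ⟨_, h2⟩ := key g.1 (hgen g.2)
    exact h2
  let e : M.Group ≃* N ⧸ H.subgroupOf N := MulEquiv.ofBijective ψ ⟨hψinj, hψsurj⟩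
  have he : ∀ w, e w = ψ w := fun _ => rfl
  refine ⟨e.symm.toMonoidHom.comp (QuotientGroup.mk' (H.subgroupOf N)), ?_, ?_, ?_⟩
  · exact e.symm.surjective.comp (QuotientGroup.mk'_surjective _)
  · ext g
    rw [MonoidHom.mem_ker, MonoidHom.comp_apply, Subgroup.mem_subgroupOf, ← hone]
    show e.symm (QuotientGroup.mk' (H.subgroupOf N) g) = 1 ↔ _
    rw [MulEquiv.map_eq_one_iff]
  · intro i
    rw [MonoidHom.comp_apply]
    show e.symm (f i) = M.simple i
    rw [← hψ i, ← he, MulEquiv.symm_apply_apply, M.toCoxeterSystem_simple]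

end Cfsg.Agent.Lib.Helper19.CoxQuot
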