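import Cfsg.Agent.Lib.Helper19.CoxDataD4
import Cfsg.Agent.Lib.Helper19.CoxChev
import Cfsg.Prelude.Def_ChevD4
import Mathlib

set_option autoImplicit false
set_option maxRecDepth 100000
set_option maxHeartbeats 4000000

/-!
The Coxeter group of type D4 acts faithfully on the root indices of the Chevalley datum
`chevD4` through the reflections `reflectRoot`; table facts about these reflections.
Generated data.
-/

namespace Cfsg.Agent.Lib.Helper19.CoxRootD4

open Cfsg Cfsg.Lie Cfsg.Agent.Lib.Helper19.CoxUpper Cfsg.Agent.Lib.Helper19.CoxLower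
  Cfsg.Agent.Lib.Helper19.CoxChev

def tc : List ℕ :=
  [565592643864087472290204273757603651193062799363369534976,
   541649279090809664310305499994679834166397163664360734721,
   565881119482020990812274433957960368099339668429056770816,
   565978018496368764364970633948976412520310965285293195776]

def lv : List (ℕ × List (List ℕ)) :=
  [(23, [[], [1], [0, 1], [2, 1], [3, 1], [2, 0, 1], [3, 0, 1], [3, 2, 1], [1, 2, 0, 1], [3, 2, 0, 1], [1, 3, 0, 1], [1, 3, 2, 1], [3, 1, 2, 0, 1], [1, 3, 2, 0, 1], [2, 1, 3, 0, 1], [0, 1, 3, 2, 1], [1, 3, 1, 2, 0, 1], [0, 1, 3, 2, 0, 1], [2, 1, 3, 2, 0, 1], [0, 1, 3, 1, 2, 0, 1], [2, 1, 3, 1, 2, 0, 1], [2, 0, 1, 3, 2, 0, 1], [2, 0, 1, 3, 1, 2, 0, 1], [1, 2, 0, 1, 3, 1, 2, 0, 1]]),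
   (12, [[], [3]]),
   (13, [[], [2]]),
   (6, [[], [0]])]

theorem hperm : permCheck 4 Cfsg.Agent.Lib.Helper19.CoxDataD4.mc 24 tc = true := by
  decide +kernel

theorem hchain : chainCheck 4 24 tc lv = true := by
  decide +kernel

theorem hsize : chainSize lv = 192 := by
  decide +kernel

theorem htab : tabCheck chevD4 Cfsg.Agent.Lib.Helper19.CoxDataD4.mc tc = true := by
  decide +kernel

/-- `N / H` is the Coxeter group, for the datum `chevD4`. -/
theorem hom {F : Type*} [Field F] {A : Cfsg.Agent.Lib.Helper18.Fast.FData}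
    (hF : Cfsg.Agent.Lib.Helper18.AllRoots.AFacts A chevD4)
    (W : Cfsg.Agent.Lib.Helper36.ChevWeyl.WeylData chevD4 F) :
    ∃ φ : ↥(chevD4.monomialSubgroup F) →* (Cfsg.Lie.coxeterD4).Group, Function.Surjective φ ∧
      φ.ker = (chevD4.diagonalSubgroup F).subgroupOf (chevD4.monomialSubgroup F) ∧
      ∀ (i : Fin 4) (g : ↥(chevD4.monomialSubgroup F)),
        ((g : GL chevD4.Idx F) : Matrix chevD4.Idx chevD4.Idx F) = chevD4.nMat F (chevD4.simple i) 1 →
          φ g = (Cfsg.Lie.coxeterD4).simple i :=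
  chev_hom_of_checks hF W (Cfsg.Lie.coxeterD4) Cfsg.Agent.Lib.Helper19.CoxDataD4.mc
    Cfsg.Agent.Lib.Helper19.CoxDataD4.hmc tc hperm lv hchain 192 (by decide) hsize
    Cfsg.Agent.Lib.Helper19.CoxDataD4.card htab

end Cfsg.Agent.Lib.Helper19.CoxRootD4
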