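import Cfsg.Agent.Lib.Helper19.CoxDataF4
import Cfsg.Agent.Lib.Helper19.CoxChev
import Cfsg.Prelude.Def_ChevF4
import Mathlib

set_option autoImplicit false
set_option maxRecDepth 100000
set_option maxHeartbeats 4000000

/-!
The Coxeter group of type F4 acts faithfully on the root indices of the Chevalley datum
`chevF4` through the reflections `reflectRoot`; table facts about these reflections.
Generated data.
-/

namespace Cfsg.Agent.Lib.Helper19.CoxRootF4

open Cfsg Cfsg.Lie Cfsg.Agent.Lib.Helper19.CoxUpper Cfsg.Agent.Lib.Helper19.CoxLower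
  Cfsg.Agent.Lib.Helper19.CoxChev

def tc : List ℕ :=
  [7261724565101152271001196648824430191705409898545041084742521782222439549395075633586971079114467536390968217567488,
   7261719905179377314326951809577084366435515108925945206036271551105028264520922437528663364052125838431098365018368,
   7261125723798567773061544950201179012210677350992756811983071709623601191490907863340615466535151168674041335710208,
   7108411742389255762021063953019659246634323563397623500971045033854480450961950488139841120255260502304031118589953]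

def lv : List (ℕ × List (List ℕ)) :=
  [(44, [[], [0], [1, 0], [2, 1, 0], [1, 2, 1, 0], [3, 2, 1, 0], [0, 1, 2, 1, 0], [3, 1, 2, 1, 0], [3, 0, 1, 2, 1, 0], [2, 3, 1, 2, 1, 0], [2, 3, 0, 1, 2, 1, 0], [1, 2, 3, 1, 2, 1, 0], [1, 2, 3, 0, 1, 2, 1, 0], [0, 1, 2, 3, 1, 2, 1, 0], [0, 1, 2, 3, 0, 1, 2, 1, 0], [2, 1, 2, 3, 0, 1, 2, 1, 0], [2, 0, 1, 2, 3, 0, 1, 2, 1, 0], [3, 2, 1, 2, 3, 0, 1, 2, 1, 0], [1, 2, 0, 1, 2, 3, 0, 1, 2, 1, 0], [3, 2, 0, 1, 2, 3, 0, 1, 2, 1, 0], [3, 1, 2, 0, 1, 2, 3, 0, 1, 2, 1, 0], [2, 3, 1, 2, 0, 1, 2, 3, 0, 1, 2, 1, 0], [1, 2, 3, 1, 2, 0, 1, 2, 3, 0, 1, 2, 1, 0], [0, 1, 2, 3, 1, 2, 0, 1, 2, 3, 0, 1, 2, 1, 0]]),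
   (6, [[], [3], [2, 3], [1, 2, 3], [2, 1, 2, 3], [3, 2, 1, 2, 3]]),
   (5, [[], [2], [1, 2], [2, 1, 2]]),
   (4, [[], [1]])]

theorem hperm : permCheck 4 Cfsg.Agent.Lib.Helper19.CoxDataF4.mc 48 tc = true := by
  decide +kernel

theorem hchain : chainCheck 4 48 tc lv = true := by
  decide +kernel

theorem hsize : chainSize lv = 1152 := by
  decide +kernel

theorem htab : tabCheck chevF4 Cfsg.Agent.Lib.Helper19.CoxDataF4.mc tc = true := by
  decide +kernel

/-- `N / H` is the Coxeter group, for the datum `chevF4`. -/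
theorem hom {F : Type*} [Field F] {A : Cfsg.Agent.Lib.Helper18.Fast.FData}
    (hF : Cfsg.Agent.Lib.Helper18.AllRoots.AFacts A chevF4)
    (W : Cfsg.Agent.Lib.Helper36.ChevWeyl.WeylData chevF4 F) :
    ∃ φ : ↥(chevF4.monomialSubgroup F) →* (CoxeterMatrix.F₄).Group, Function.Surjective φ ∧
      φ.ker = (chevF4.diagonalSubgroup F).subgroupOf (chevF4.monomialSubgroup F) ∧
      ∀ (i : Fin 4) (g : ↥(chevF4.monomialSubgroup F)),
        ((g : GL chevF4.Idx F) : Matrix chevF4.Idx chevF4.Idx F) = chevF4.nMat F (chevF4.simple i) 1 →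
          φ g = (CoxeterMatrix.F₄).simple i :=
  chev_hom_of_checks hF W (CoxeterMatrix.F₄) Cfsg.Agent.Lib.Helper19.CoxDataF4.mc
    Cfsg.Agent.Lib.Helper19.CoxDataF4.hmc tc hperm lv hchain 1152 (by decide) hsize
    Cfsg.Agent.Lib.Helper19.CoxDataF4.card htab

end Cfsg.Agent.Lib.Helper19.CoxRootF4
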