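import Cfsg.Agent.Lib.Helper19.CoxDataG2
import Cfsg.Agent.Lib.Helper19.CoxChev
import Cfsg.Prelude.Def_ChevG2
import Mathlib

set_option autoImplicit false
set_option maxRecDepth 100000
set_option maxHeartbeats 4000000

/-!
The Coxeter group of type G2 acts faithfully on the root indices of the Chevalley datum
`chevG2` through the reflections `reflectRoot`; table facts about these reflections.
Generated data.
-/

namespace Cfsg.Agent.Lib.Helper19.CoxRootG2

open Cfsg Cfsg.Lie Cfsg.Agent.Lib.Helper19.CoxUpper Cfsg.Agent.Lib.Helper19.CoxLower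
  Cfsg.Agent.Lib.Helper19.CoxChev

def tc : List ℕ :=
  [3411626608196089407097472256,
   3108190913232640688152248321]

def lv : List (ℕ × List (List ℕ)) :=
  [(9, [[], [0], [1, 0], [0, 1, 0], [1, 0, 1, 0], [0, 1, 0, 1, 0]]),
   (1, [[], [1]])]

theorem hperm : permCheck 2 Cfsg.Agent.Lib.Helper19.CoxDataG2.mc 12 tc = true := by
  decide +kernel

theorem hchain : chainCheck 2 12 tc lv = true := by
  decide +kernel

theorem hsize : chainSize lv = 12 := by
  decide +kernel

theorem htab : tabCheck chevG2 Cfsg.Agent.Lib.Helper19.CoxDataG2.mc tc = true := by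
  decide +kernel

/-- `N / H` is the Coxeter group, for the datum `chevG2`. -/
theorem hom {F : Type*} [Field F] {A : Cfsg.Agent.Lib.Helper18.Fast.FData}
    (hF : Cfsg.Agent.Lib.Helper18.AllRoots.AFacts A chevG2)
    (W : Cfsg.Agent.Lib.Helper36.ChevWeyl.WeylData chevG2 F) :
    ∃ φ : ↥(chevG2.monomialSubgroup F) →* (CoxeterMatrix.G₂).Group, Function.Surjective φ ∧
      φ.ker = (chevG2.diagonalSubgroup F).subgroupOf (chevG2.monomialSubgroup F) ∧
      ∀ (i : Fin 2) (g : ↥(chevG2.monomialSubgroup F)),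
        ((g : GL chevG2.Idx F) : Matrix chevG2.Idx chevG2.Idx F) = chevG2.nMat F (chevG2.simple i) 1 →
          φ g = (CoxeterMatrix.G₂).simple i :=
  chev_hom_of_checks hF W (CoxeterMatrix.G₂) Cfsg.Agent.Lib.Helper19.CoxDataG2.mc
    Cfsg.Agent.Lib.Helper19.CoxDataG2.hmc tc hperm lv hchain 12 (by decide) hsize
    Cfsg.Agent.Lib.Helper19.CoxDataG2.card htab

end Cfsg.Agent.Lib.Helper19.CoxRootG2
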