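import Cfsg.Agent.S2419
import Mathlib

set_option autoImplicit false

/-!
Upper bounds for the order of a Coxeter group `M.Group` (with `M : CoxeterMatrix (Fin n)`) from
labelled coset tables along the chain of parabolic subgroups generated by the first `k` simple
reflections.  Every table entry is justified by a list of rewriting steps (braid moves and
deletions).  Words are coded as natural numbers (base 16, least significant digit first, with a
leading `1`), so that the whole certificate is checked by fast arithmetic evaluation.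
-/

namespace Cfsg.Agent.Lib.Helper19.CoxUpper

open Cfsg.Agent.S2419

variable {n : ℕ}

/-- Convert a word of natural numbers to a word over `Fin n`, dropping out-of-range letters. -/
def wd (n : ℕ) (l : List ℕ) : List (Fin n) :=
  l.filterMap (fun a => if h : a < n then some ⟨a, h⟩ else none)

theorem wd_append (l₁ l₂ : List ℕ) : wd n (l₁ ++ l₂) = wd n l₁ ++ wd n l₂ := by
  unfold wd
  exact List.filterMap_append

theorem wd_singleton (i : Fin n) : wd n [i.val] = [i] := by
  simp [wd]

theorem wd_cons_lt (a : ℕ) (h : a < n) (l : List ℕ) : wd n (a :: l) = ⟨a, h⟩ :: wd n l := by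
  simp [wd, h]

theorem wd_cons_ge (a : ℕ) (h : ¬ a < n) (l : List ℕ) : wd n (a :: l) = wd n l := by
  simp [wd, h]

/-- The subgroup generated by the first `k` simple reflections. -/
def para (M : CoxeterMatrix (Fin n)) (k : ℕ) : Subgroup M.Group :=
  Subgroup.closure {g | ∃ i : Fin n, i.val < k ∧ g = M.toCoxeterSystem.simple i}

/-- The label of a table entry: `0` is the empty word, `u + 1` the one-letter word `u`. -/
def uword (u : ℕ) : List ℕ := if u = 0 then [] else [u - 1]

/-- The code of a word. -/
def encL : List ℕ → ℕ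
  | [] => 1
  | a :: l => a + 16 * encL l

/-- The value of a list of digits. -/
def lowL : List ℕ → ℕ
  | [] => 0
  | a :: l => a + 16 * lowL l

theorem encL_pos (l : List ℕ) : 0 < encL l := by
  cases l with
  | nil => exact Nat.one_pos
  | cons a l => unfold encL; induction l with
    | nil => unfold encL; omega
    | cons b l ih => unfold encL; omega

theorem lowL_lt (l : List ℕ) (h : ∀ a ∈ l, a < 16) : lowL l < 16 ^ l.length := by
  induction l with
  | nil => simp [lowL]
  | cons a l ih =>
    have h1 := ih (fun c hc => h c (List.mem_cons_of_mem _ hc))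
    have h2 := h a List.mem_cons_self
    rw [List.length_cons, pow_succ]
    unfold lowL
    omega

theorem encL_append (l₁ l₂ : List ℕ) :
    encL (l₁ ++ l₂) = lowL l₁ + 16 ^ l₁.length * encL l₂ := by
  induction l₁ with
  | nil => simp [lowL]
  | cons a l ih =>
    rw [List.cons_append, List.length_cons, pow_succ]
    show a + 16 * encL (l ++ l₂) = (a + 16 * lowL l) + 16 ^ l.length * 16 * encL l₂
    rw [ih]
    ring

theorem encL_lt (l : List ℕ) (h : ∀ a ∈ l, a < 16) : encL l < 16 ^ (l.length + 1) := by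
  induction l with
  | nil => simp [encL]
  | cons a l ih =>
    have h1 := ih (fun c hc => h c (List.mem_cons_of_mem _ hc))
    have h2 := h a List.mem_cons_self
    rw [List.length_cons, pow_succ]
    unfold encL
    omega

theorem encL_inj (l₁ : List ℕ) : ∀ l₂ : List ℕ, (∀ a ∈ l₁, a < 16) → (∀ a ∈ l₂, a < 16) →
    encL l₁ = encL l₂ → l₁ = l₂ := by
  induction l₁ with
  | nil =>
    intro l₂ _ _ h
    cases l₂ with
    | nil => rfl
    | cons b l₂ =>
      have := encL_pos l₂
      unfold encL at h
      omega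
  | cons a l₁ ih =>
    intro l₂ h₁ h₂ h
    cases l₂ with
    | nil =>
      have := encL_pos l₁
      unfold encL at h
      omega
    | cons b l₂ =>
      have ha := h₁ a List.mem_cons_self
      have hb := h₂ b List.mem_cons_self
      have h' : a + 16 * encL l₁ = b + 16 * encL l₂ := h
      have hab : a = b := by omega
      have he : encL l₁ = encL l₂ := by omega
      rw [hab, ih l₂ (fun c hc => h₁ c (List.mem_cons_of_mem _ hc))
        (fun c hc => h₂ c (List.mem_cons_of_mem _ hc)) he]

/-- The alternating word of length `m` starting with `a`, over `ℕ`. -/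
def altL (a b : ℕ) : ℕ → List ℕ
  | 0 => []
  | m + 1 => a :: altL b a m

/-- The digits value of the alternating word. -/
def altCode (a b : ℕ) : ℕ → ℕ
  | 0 => 0
  | m + 1 => a + 16 * altCode b a m

theorem altCode_eq (m : ℕ) : ∀ a b : ℕ, altCode a b m = lowL (altL a b m) := by
  induction m with
  | zero => intro a b; rfl
  | succ m ih => intro a b; unfold altCode altL lowL; rw [ih]

theorem altL_length (m : ℕ) : ∀ a b : ℕ, (altL a b m).length = m := by
  induction m with
  | zero => intro a b; rfl
  | succ m ih => intro a b; unfold altL; rw [List.length_cons, ih]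

theorem altL_lt (m : ℕ) : ∀ a b : ℕ, a < 16 → b < 16 → ∀ c ∈ altL a b m, c < 16 := by
  induction m with
  | zero => intro a b _ _ c hc; simp [altL] at hc
  | succ m ih =>
    intro a b ha hb c hc
    unfold altL at hc
    rcases List.mem_cons.mp hc with rfl | h
    · exact ha
    · exact ih b a hb ha c h

theorem wd_altL (m : ℕ) : ∀ (a b : ℕ) (ha : a < n) (hb : b < n),
    wd n (altL a b m) = alt ⟨a, ha⟩ ⟨b, hb⟩ m := by
  induction m with
  | zero => intro a b ha hb; rfl
  | succ m ih =>
    intro a b ha hb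
    unfold altL
    rw [wd_cons_lt a ha, ih b a hb ha]
    rfl

theorem eq_altL_of_lowL (m : ℕ) : ∀ (a b : ℕ) (v : List ℕ), (∀ c ∈ v, c < 16) → a < 16 → b < 16 →
    v.length = m → lowL v = altCode a b m → v = altL a b m := by
  induction m with
  | zero =>
    intro a b v _ _ _ hlen _
    rw [List.length_eq_zero_iff] at hlen
    rw [hlen]; rfl
  | succ m ih =>
    intro a b v hv ha hb hlen h
    cases v with
    | nil => simp at hlen
    | cons c v =>
      have hc := hv c List.mem_cons_self
      have h' : c + 16 * lowL v = a + 16 * altCode b a m := h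
      have hca : c = a := by omega
      have hl : lowL v = altCode b a m := by omega
      have hlen' : v.length = m := by simpa using hlen
      unfold altL
      rw [hca, ih b a v (fun d hd => hv d (List.mem_cons_of_mem _ hd)) hb ha hlen' hl]

/-- A braid move at position `k` on a coded word, for the letters `a`, `b` with `m = M a b`. -/
def braidN (x k a b m : ℕ) : ℕ :=
  if x / 16 ^ k / 16 ^ m = 0 then x else
  if x / 16 ^ k % 16 ^ m = altCode a b m then
    x % 16 ^ k + (altCode b a m + x / 16 ^ k / 16 ^ m * 16 ^ m) * 16 ^ k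
  else x

/-- One rewriting step at position `k` on a coded word: delete a repeated letter or apply a
braid move.  The Coxeter matrix is coded by the number `mc`. -/
def stepN (n mc x k : ℕ) : ℕ :=
  if x / 16 ^ k / 256 = 0 then x else
  if x / 16 ^ k % 16 = x / 16 ^ k / 16 % 16 then x % 16 ^ k + x / 16 ^ k / 256 * 16 ^ k else
  if x / 16 ^ k % 16 < n ∧ x / 16 ^ k / 16 % 16 < n then
    braidN x k (x / 16 ^ k % 16) (x / 16 ^ k / 16 % 16)
      (mc / 16 ^ (x / 16 ^ k % 16 * n + x / 16 ^ k / 16 % 16) % 16)
  else x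

theorem div_mod_append (w₁ v : List ℕ) (hw₁ : ∀ c ∈ w₁, c < 16) (k : ℕ) (hk : w₁.length = k) :
    encL (w₁ ++ v) / 16 ^ k = encL v ∧ encL (w₁ ++ v) % 16 ^ k = lowL w₁ := by
  have hlo := lowL_lt w₁ hw₁
  rw [hk] at hlo
  have hP : 0 < 16 ^ k := by positivity
  rw [encL_append, hk]
  constructor
  · rw [Nat.add_mul_div_left _ _ hP, Nat.div_eq_of_lt hlo, zero_add]
  · rw [Nat.add_mul_mod_self_left, Nat.mod_eq_of_lt hlo]

theorem braidN_sound (M : CoxeterMatrix (Fin n)) (w₁ v : List ℕ) (hw₁ : ∀ c ∈ w₁, c < 16)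
    (hv : ∀ c ∈ v, c < 16) (a b : ℕ) (ha : a < n) (hb : b < n) (ha16 : a < 16) (hb16 : b < 16)
    (m : ℕ) (hm : M ⟨a, ha⟩ ⟨b, hb⟩ = m) (k : ℕ) (hk : w₁.length = k) :
    ∃ w' : List ℕ, (∀ c ∈ w', c < 16) ∧ braidN (encL (w₁ ++ v)) k a b m = encL w' ∧
      M.toCoxeterSystem.wordProd (wd n w') = M.toCoxeterSystem.wordProd (wd n (w₁ ++ v)) := by
  have hwv : ∀ c ∈ w₁ ++ v, c < 16 := by
    intro c hc
    rcases List.mem_append.mp hc with h | h
    · exact hw₁ c h
    · exact hv c h
  obtain ⟨hhi, hlo⟩ := div_mod_append w₁ v hw₁ k hk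
  unfold braidN
  rw [hhi, hlo]
  by_cases hlen : v.length < m
  · have h0 : encL v / 16 ^ m = 0 := by
      apply Nat.div_eq_of_lt
      calc encL v < 16 ^ (v.length + 1) := encL_lt v hv
        _ ≤ 16 ^ m := Nat.pow_le_pow_right (by norm_num) (by omega)
    rw [if_pos h0]
    exact ⟨w₁ ++ v, hwv, rfl, rfl⟩
  · have hv1 : ∀ c ∈ v.take m, c < 16 := fun c hc => hv c (List.mem_of_mem_take hc)
    have hv2 : ∀ c ∈ v.drop m, c < 16 := fun c hc => hv c (List.mem_of_mem_drop hc)
    have hlen1 : (v.take m).length = m := by rw [List.length_take]; omega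
    obtain ⟨hhi2, hlo2⟩ := div_mod_append (v.take m) (v.drop m) hv1 m hlen1
    rw [List.take_append_drop] at hhi2 hlo2
    rw [hhi2, hlo2]
    have hpos := encL_pos (v.drop m)
    rw [if_neg (by omega)]
    by_cases halt : lowL (v.take m) = altCode a b m
    · rw [if_pos halt]
      have htake : v.take m = altL a b m :=
        eq_altL_of_lowL m a b (v.take m) hv1 ha16 hb16 hlen1 halt
      refine ⟨w₁ ++ (altL b a m ++ v.drop m), ?_, ?_, ?_⟩
      · intro c hc
        rcases List.mem_append.mp hc with h | h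
        · exact hw₁ c h
        · rcases List.mem_append.mp h with h | h
          · exact altL_lt m b a hb16 ha16 c h
          · exact hv2 c h
      · rw [encL_append, encL_append, altL_length, ← altCode_eq, hk]
        ring
      · have hv' : v = altL a b m ++ v.drop m := by
          conv_lhs => rw [← List.take_append_drop m v, htake]
        conv_rhs => rw [hv']
        rw [wd_append, wd_append, wd_append, wd_append, wd_altL m b a hb ha, wd_altL m a b ha hb,
          CoxeterSystem.wordProd_append, CoxeterSystem.wordProd_append,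
          CoxeterSystem.wordProd_append, CoxeterSystem.wordProd_append, ← hm, wordProd_alt]
    · rw [if_neg halt]
      exact ⟨w₁ ++ v, hwv, rfl, rfl⟩

theorem stepN_sound (M : CoxeterMatrix (Fin n)) (mc : ℕ)
    (hM : ∀ a b : Fin n, M a b = mc / 16 ^ (a.val * n + b.val) % 16)
    (w : List ℕ) (hw : ∀ a ∈ w, a < 16) (k : ℕ) :
    ∃ w' : List ℕ, (∀ a ∈ w', a < 16) ∧ stepN n mc (encL w) k = encL w' ∧
      M.toCoxeterSystem.wordProd (wd n w') = M.toCoxeterSystem.wordProd (wd n w) := by
  by_cases hlen : w.length < k + 2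
  · refine ⟨w, hw, ?_, rfl⟩
    have h1 : encL w / 16 ^ k / 256 = 0 := by
      rw [Nat.div_div_eq_div_mul]
      apply Nat.div_eq_of_lt
      calc encL w < 16 ^ (w.length + 1) := encL_lt w hw
        _ ≤ 16 ^ (k + 2) := Nat.pow_le_pow_right (by norm_num) (by omega)
        _ = 16 ^ k * 256 := by rw [pow_add]; norm_num
    unfold stepN
    rw [if_pos h1]
  · obtain ⟨w₁, a, b, rest, rfl, hk⟩ :
        ∃ w₁ a b rest, w = w₁ ++ a :: b :: rest ∧ w₁.length = k := by
      have hd : 2 ≤ (w.drop k).length := by rw [List.length_drop]; omega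
      match hdr : w.drop k with
      | [] => rw [hdr] at hd; simp at hd
      | [_] => rw [hdr] at hd; simp at hd
      | a :: b :: rest =>
        exact ⟨w.take k, a, b, rest, by rw [← hdr, List.take_append_drop],
          by rw [List.length_take]; omega⟩
    have ha : a < 16 := hw a (by simp)
    have hb : b < 16 := hw b (by simp)
    have hrest : ∀ c ∈ rest, c < 16 := fun c hc => hw c (by simp [hc])
    have hw₁ : ∀ c ∈ w₁, c < 16 := fun c hc => hw c (by simp [hc])
    have hR := encL_pos rest
    obtain ⟨hhi, hlo⟩ := div_mod_append w₁ (a :: b :: rest) hw₁ k hk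
    have hE : encL (a :: b :: rest) = a + 16 * (b + 16 * encL rest) := rfl
    have h1 : encL (a :: b :: rest) / 256 = encL rest := by rw [hE]; omega
    have h2 : encL (a :: b :: rest) % 16 = a := by rw [hE]; omega
    have h3 : encL (a :: b :: rest) / 16 % 16 = b := by rw [hE]; omega
    unfold stepN
    rw [hhi, hlo, h1, h2, h3, if_neg (by omega)]
    by_cases hab : a = b
    · subst hab
      rw [if_pos rfl]
      refine ⟨w₁ ++ rest, ?_, ?_, ?_⟩
      · intro c hc
        rcases List.mem_append.mp hc with h | h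
        · exact hw₁ c h
        · exact hrest c h
      · rw [encL_append, hk, mul_comm]
      · rw [wd_append, wd_append, CoxeterSystem.wordProd_append, CoxeterSystem.wordProd_append]
        congr 1
        by_cases han : a < n
        · rw [wd_cons_lt a han, wd_cons_lt a han, CoxeterSystem.wordProd_cons,
            CoxeterSystem.wordProd_cons, CoxeterSystem.simple_mul_simple_cancel_left]
        · rw [wd_cons_ge a han, wd_cons_ge a han]
    · rw [if_neg hab]
      by_cases hn : a < n ∧ b < n
      · rw [if_pos hn]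
        exact braidN_sound M w₁ (a :: b :: rest) hw₁ (fun c hc => hw c (by simp [hc])) a b hn.1
          hn.2 ha hb _ (hM ⟨a, hn.1⟩ ⟨b, hn.2⟩) k hk
      · rw [if_neg hn]
        exact ⟨w₁ ++ a :: b :: rest, hw, rfl, rfl⟩

/-- Evaluate `f` at `x`, forcing the evaluation of `x` first. -/
def forceNat (x : ℕ) (f : ℕ → ℕ) : ℕ :=
  match x with
  | 0 => f 0
  | y + 1 => f (y + 1)

theorem forceNat_eq (x : ℕ) (f : ℕ → ℕ) : forceNat x f = f x := by
  cases x <;> rfl

/-- Attach a hash to a code, so that the codes met during evaluation differ in their low bits. -/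
def pack (c : ℕ) : ℕ := c * 18446744073709551616 + c % 18446744073709551557

/-- Remove the hash. -/
def unpack (z : ℕ) : ℕ := z / 18446744073709551616

theorem unpack_pack (c : ℕ) : unpack (pack c) = c := by
  unfold unpack pack
  have h : c % 18446744073709551557 < 18446744073709551557 := Nat.mod_lt _ (by norm_num)
  omega

/-- Run a coded list of rewriting steps on a packed coded word: with `f` steps left, the next
step is the base 64 digit number `f - 1` of `s`. -/
def runN (n mc s : ℕ) : ℕ → ℕ → ℕ
  | 0, z => z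
  | f + 1, z => forceNat (pack (stepN n mc (unpack z) (s / 64 ^ f % 64))) (runN n mc s f)

theorem runN_sound (M : CoxeterMatrix (Fin n)) (mc : ℕ)
    (hM : ∀ a b : Fin n, M a b = mc / 16 ^ (a.val * n + b.val) % 16) (s f : ℕ) :
    ∀ (z : ℕ) (w : List ℕ), (∀ a ∈ w, a < 16) → unpack z = encL w →
    ∃ w' : List ℕ, (∀ a ∈ w', a < 16) ∧ unpack (runN n mc s f z) = encL w' ∧
      M.toCoxeterSystem.wordProd (wd n w') = M.toCoxeterSystem.wordProd (wd n w) := by
  induction f with
  | zero => intro z w hw hz; exact ⟨w, hw, hz, rfl⟩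
  | succ f ih =>
    intro z w hw hz
    unfold runN
    rw [forceNat_eq, hz]
    obtain ⟨w₁, hw₁, h₁, hp₁⟩ := stepN_sound M mc hM w hw (s / 64 ^ f % 64)
    rw [h₁]
    obtain ⟨w₂, hw₂, h₂, hp₂⟩ := ih (pack (encL w₁)) w₁ hw₁ (unpack_pack _)
    exact ⟨w₂, hw₂, h₂, hp₂.trans hp₁⟩

/-- All letters are less than `16`. -/
def okW (w : List ℕ) : Bool := w.all (fun a => decide (a < 16))

theorem okW_iff (w : List ℕ) (h : okW w = true) : ∀ a ∈ w, a < 16 := by
  unfold okW at h
  rw [List.all_eq_true] at h
  intro a ha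
  exact of_decide_eq_true (h a ha)

/-- Check one table entry `(u, t, steps)`: the word `d ++ [j]` rewrites to `u ++ D[t]`.  The
steps are the base 64 digits of `steps` below its leading `1`, most significant first. -/
def checkEntry (n mc k : ℕ) (D : List (List ℕ)) (d : List ℕ) (j : ℕ) (e : ℕ × ℕ × ℕ) : Bool :=
  decide (e.1 ≤ k) && (okW (d ++ [j]) && (okW (uword e.1 ++ D.getD e.2.1 []) &&
    (unpack (runN n mc e.2.2 (Nat.log2 e.2.2 / 6) (pack (encL (d ++ [j])))) ==
      encL (uword e.1 ++ D.getD e.2.1 []))))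

theorem checkEntry_sound (M : CoxeterMatrix (Fin n)) (mc : ℕ)
    (hM : ∀ a b : Fin n, M a b = mc / 16 ^ (a.val * n + b.val) % 16) (k : ℕ)
    (D : List (List ℕ)) (d : List ℕ) (j : ℕ) (e : ℕ × ℕ × ℕ)
    (h : checkEntry n mc k D d j e = true) :
    e.1 ≤ k ∧ M.toCoxeterSystem.wordProd (wd n (d ++ [j])) =
      M.toCoxeterSystem.wordProd (wd n (uword e.1 ++ D.getD e.2.1 [])) := by
  unfold checkEntry at h
  rw [Bool.and_eq_true, Bool.and_eq_true, Bool.and_eq_true, decide_eq_true_eq, beq_iff_eq] at h
  obtain ⟨hu, h1, h2, h3⟩ := h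
  refine ⟨hu, ?_⟩
  obtain ⟨w', hw', hrun, hp⟩ := runN_sound M mc hM e.2.2 (Nat.log2 e.2.2 / 6)
    (pack (encL (d ++ [j]))) (d ++ [j]) (okW_iff _ h1) (unpack_pack _)
  rw [hrun] at h3
  rw [← hp, encL_inj w' _ hw' (okW_iff _ h2) h3]

/-- Check row `q` of the coset table of level `k`: cosets of `para M k` in `para M (k + 1)`. -/
def checkRow (n mc k : ℕ) (D : List (List ℕ)) (tbl : List (List (ℕ × ℕ × ℕ))) (q : ℕ) : Bool :=
  (List.range (k + 1)).all (fun j =>
    checkEntry n mc k D (D.getD q []) j ((tbl.getD q []).getD j (0, 0, 0)))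

/-- Check the rows `lo, …, lo + len - 1` of the coset table of level `k`. -/
def checkRows (n mc k : ℕ) (D : List (List ℕ)) (tbl : List (List (ℕ × ℕ × ℕ)))
    (lo len : ℕ) : Bool :=
  (List.range len).all (fun i => checkRow n mc k D tbl (lo + i))

/-- The coset table of level `k` is correct. -/
def LevelOK (n mc k : ℕ) (D : List (List ℕ)) (tbl : List (List (ℕ × ℕ × ℕ))) : Prop :=
  D.head? = some [] ∧ ∀ q < D.length, checkRow n mc k D tbl q = true

theorem rows_zero (n mc k : ℕ) (D : List (List ℕ)) (tbl : List (List (ℕ × ℕ × ℕ))) :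
    ∀ q < 0, checkRow n mc k D tbl q = true := by
  intro q hq
  omega

theorem rows_append (n mc k : ℕ) (D : List (List ℕ)) (tbl : List (List (ℕ × ℕ × ℕ)))
    (a len : ℕ) (h1 : ∀ q < a, checkRow n mc k D tbl q = true)
    (h2 : checkRows n mc k D tbl a len = true) :
    ∀ q < a + len, checkRow n mc k D tbl q = true := by
  intro q hq
  by_cases h : q < a
  · exact h1 q h
  · unfold checkRows at h2
    rw [List.all_eq_true] at h2
    have h3 := h2 (q - a) (List.mem_range.mpr (by omega))
    rwa [show a + (q - a) = q by omega] at h3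

/-- Check the whole coset table of level `k`. -/
def checkLevel (n mc k : ℕ) (D : List (List ℕ)) (tbl : List (List (ℕ × ℕ × ℕ))) : Bool :=
  (D.head? == some []) && checkRows n mc k D tbl 0 D.length

theorem levelOK_of_check (n mc k : ℕ) (D : List (List ℕ)) (tbl : List (List (ℕ × ℕ × ℕ)))
    (h : checkLevel n mc k D tbl = true) : LevelOK n mc k D tbl := by
  unfold checkLevel at h
  rw [Bool.and_eq_true, beq_iff_eq] at h
  refine ⟨h.1, fun q hq => ?_⟩
  exact rows_append n mc k D tbl 0 D.length (rows_zero n mc k D tbl) h.2 q (by omega)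

theorem uword_mem (M : CoxeterMatrix (Fin n)) (k u : ℕ) (hu : u ≤ k) :
    M.toCoxeterSystem.wordProd (wd n (uword u)) ∈ para M k := by
  unfold uword
  split_ifs with h0
  · simp [wd]
  · by_cases hn : u - 1 < n
    · have : wd n [u - 1] = [⟨u - 1, hn⟩] := by simp [wd, hn]
      rw [this, CoxeterSystem.wordProd_singleton]
      apply Subgroup.subset_closure
      exact ⟨⟨u - 1, hn⟩, by simp only; omega, rfl⟩
    · have : wd n [u - 1] = [] := by simp [wd, hn]
      rw [this, CoxeterSystem.wordProd_nil]
      exact Subgroup.one_mem _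

theorem exists_word (M : CoxeterMatrix (Fin n)) (k : ℕ) (g : M.Group) (hg : g ∈ para M k) :
    ∃ w : List (Fin n), (∀ i ∈ w, i.val < k) ∧ g = M.toCoxeterSystem.wordProd w := by
  unfold para at hg
  induction hg using Subgroup.closure_induction with
  | mem x hx =>
    obtain ⟨i, hi, rfl⟩ := hx
    exact ⟨[i], by simpa using hi, by rw [CoxeterSystem.wordProd_singleton]⟩
  | one => exact ⟨[], by simp, by rw [CoxeterSystem.wordProd_nil]⟩
  | mul x y _ _ hx hy =>
    obtain ⟨w₁, h₁, rfl⟩ := hx
    obtain ⟨w₂, h₂, rfl⟩ := hy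
    refine ⟨w₁ ++ w₂, ?_, by rw [CoxeterSystem.wordProd_append]⟩
    intro i hi
    rcases List.mem_append.mp hi with h | h
    · exact h₁ i h
    · exact h₂ i h
  | inv x _ hx =>
    obtain ⟨w, h, rfl⟩ := hx
    refine ⟨w.reverse, ?_, by rw [CoxeterSystem.wordProd_reverse]⟩
    intro i hi
    exact h i (List.mem_reverse.mp hi)

theorem level_sound_word (M : CoxeterMatrix (Fin n)) (mc : ℕ)
    (hM : ∀ a b : Fin n, M a b = mc / 16 ^ (a.val * n + b.val) % 16) (k : ℕ)
    (D : List (List ℕ)) (tbl : List (List (ℕ × ℕ × ℕ))) (h : LevelOK n mc k D tbl) :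
    ∀ w : List (Fin n), (∀ i ∈ w, i.val < k + 1) →
      ∃ d ∈ D, ∃ x ∈ para M k,
        M.toCoxeterSystem.wordProd w = x * M.toCoxeterSystem.wordProd (wd n d) := by
  obtain ⟨hhead, hall⟩ := h
  have hnil : ([] : List ℕ) ∈ D := List.mem_of_mem_head? (by rw [hhead]; rfl)
  intro w
  induction w using List.reverseRecOn with
  | nil =>
    intro _
    exact ⟨[], hnil, 1, Subgroup.one_mem _, by simp [wd]⟩
  | append_singleton w j ih =>
    intro hw
    obtain ⟨d, hd, x, hx, hwx⟩ := ih (fun i hi => hw i (List.mem_append_left _ hi))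
    have hj : j.val < k + 1 := hw j (by simp)
    obtain ⟨q, hq, rfl⟩ := List.getElem_of_mem hd
    have h1 := hall q hq
    unfold checkRow at h1
    rw [List.all_eq_true] at h1
    have h2 := h1 j.val (List.mem_range.mpr hj)
    rw [List.getD_eq_getElem _ _ hq] at h2
    set e := (tbl.getD q []).getD j.val (0, 0, 0) with he
    obtain ⟨hu, h3⟩ := checkEntry_sound M mc hM k D D[q] j.val e h2
    rw [wd_append, wd_append, wd_singleton, CoxeterSystem.wordProd_append,
      CoxeterSystem.wordProd_append, CoxeterSystem.wordProd_singleton] at h3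
    have hmem : D.getD e.2.1 [] ∈ D := by
      rw [List.getD_eq_getElem?_getD]
      cases hh : D[e.2.1]? with
      | none => simpa using hnil
      | some v => simpa using List.mem_of_getElem? hh
    refine ⟨D.getD e.2.1 [], hmem, x * M.toCoxeterSystem.wordProd (wd n (uword e.1)),
      Subgroup.mul_mem _ hx (uword_mem M k e.1 hu), ?_⟩
    rw [CoxeterSystem.wordProd_append, CoxeterSystem.wordProd_singleton, hwx, mul_assoc, h3,
      mul_assoc]

theorem level_sound (M : CoxeterMatrix (Fin n)) (mc : ℕ)
    (hM : ∀ a b : Fin n, M a b = mc / 16 ^ (a.val * n + b.val) % 16) (k : ℕ)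
    (D : List (List ℕ)) (tbl : List (List (ℕ × ℕ × ℕ))) (h : LevelOK n mc k D tbl)
    (g : M.Group) (hg : g ∈ para M (k + 1)) :
    ∃ d ∈ D, ∃ x ∈ para M k, g = x * M.toCoxeterSystem.wordProd (wd n d) := by
  obtain ⟨w, hw, rfl⟩ := exists_word M (k + 1) g hg
  exact level_sound_word M mc hM k D tbl h w hw

theorem card_step (M : CoxeterMatrix (Fin n)) (mc : ℕ)
    (hM : ∀ a b : Fin n, M a b = mc / 16 ^ (a.val * n + b.val) % 16) (k : ℕ)
    (D : List (List ℕ)) (tbl : List (List (ℕ × ℕ × ℕ))) (h : LevelOK n mc k D tbl)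
    (hfin : Finite (para M k)) :
    Finite (para M (k + 1)) ∧ Nat.card (para M (k + 1)) ≤ Nat.card (para M k) * D.length := by
  let f : (para M k) × Fin D.length → M.Group :=
    fun p => (p.1 : M.Group) * M.toCoxeterSystem.wordProd (wd n (D.get p.2))
  have hsub : ((para M (k + 1) : Subgroup M.Group) : Set M.Group) ⊆ Set.range f := by
    intro g hg
    obtain ⟨d, hd, x, hx, rfl⟩ := level_sound M mc hM k D tbl h g hg
    obtain ⟨q, hq, rfl⟩ := List.getElem_of_mem hd
    exact ⟨(⟨x, hx⟩, ⟨q, hq⟩), rfl⟩
  have hfr : (Set.range f).Finite := Set.finite_range f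
  have hfin' : ((para M (k + 1) : Subgroup M.Group) : Set M.Group).Finite := hfr.subset hsub
  refine ⟨hfin'.to_subtype, ?_⟩
  calc Nat.card (para M (k + 1))
      = ((para M (k + 1) : Subgroup M.Group) : Set M.Group).ncard :=
        Nat.card_coe_set_eq _
    _ ≤ (Set.range f).ncard := Set.ncard_le_ncard hsub hfr
    _ = Nat.card (Set.range f) := (Nat.card_coe_set_eq _).symm
    _ ≤ Nat.card ((para M k) × Fin D.length) := Finite.card_range_le f
    _ = Nat.card (para M k) * D.length := by
        rw [Nat.card_prod, Nat.card_fin]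

/-- All coset tables are correct. -/
def AllOK (n mc : ℕ) (Ds : List (List (List ℕ)))
    (tbls : List (List (List (ℕ × ℕ × ℕ)))) : Prop :=
  ∀ k < n, LevelOK n mc k (Ds.getD k []) (tbls.getD k [])

/-- The product of the numbers of cosets of the first `k` levels. -/
def bound (Ds : List (List (List ℕ))) : ℕ → ℕ
  | 0 => 1
  | k + 1 => bound Ds k * (Ds.getD k []).length

theorem card_para (M : CoxeterMatrix (Fin n)) (mc : ℕ)
    (hM : ∀ a b : Fin n, M a b = mc / 16 ^ (a.val * n + b.val) % 16)
    (Ds : List (List (List ℕ)))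
    (tbls : List (List (List (ℕ × ℕ × ℕ)))) (h : AllOK n mc Ds tbls) :
    ∀ k, k ≤ n → Finite (para M k) ∧ Nat.card (para M k) ≤ bound Ds k := by
  intro k
  induction k with
  | zero =>
    intro _
    have hbot : para M 0 = ⊥ := by
      unfold para
      rw [Subgroup.closure_eq_bot_iff]
      rintro g ⟨i, hi, _⟩
      omega
    rw [hbot]
    refine ⟨inferInstance, ?_⟩
    simp [bound]
  | succ k ih =>
    intro hk
    obtain ⟨hfin, hcard⟩ := ih (by omega)
    have h1 := h k (by omega)
    obtain ⟨hf, hc⟩ := card_step M mc hM k _ _ h1 hfin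
    refine ⟨hf, hc.trans ?_⟩
    show _ ≤ bound Ds k * _
    exact Nat.mul_le_mul_right _ hcard

theorem para_top (M : CoxeterMatrix (Fin n)) : para M n = ⊤ := by
  rw [eq_top_iff, ← M.toCoxeterSystem.subgroup_closure_range_simple]
  unfold para
  apply Subgroup.closure_mono
  rintro _ ⟨i, rfl⟩
  exact ⟨i, i.isLt, rfl⟩

/-- Check that the number `mc` codes the Coxeter matrix `M`. -/
def mcCheck (M : CoxeterMatrix (Fin n)) (mc : ℕ) : Bool :=
  (List.finRange n).all (fun a => (List.finRange n).all (fun b =>
    Nat.beq (M a b) (mc / 16 ^ (a.val * n + b.val) % 16)))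

theorem mcCheck_sound (M : CoxeterMatrix (Fin n)) (mc : ℕ) (h : mcCheck M mc = true) :
    ∀ a b : Fin n, M a b = mc / 16 ^ (a.val * n + b.val) % 16 := by
  unfold mcCheck at h
  rw [List.all_eq_true] at h
  intro a b
  have h1 := h a (List.mem_finRange a)
  rw [List.all_eq_true] at h1
  exact Nat.eq_of_beq_eq_true (h1 b (List.mem_finRange b))

/-- The upper bound: a checked chain of coset tables bounds the order of the Coxeter group. -/
theorem card_le (M : CoxeterMatrix (Fin n)) (mc : ℕ)
    (hM : ∀ a b : Fin n, M a b = mc / 16 ^ (a.val * n + b.val) % 16)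
    (Ds : List (List (List ℕ)))
    (tbls : List (List (List (ℕ × ℕ × ℕ)))) (h : AllOK n mc Ds tbls) :
    Finite M.Group ∧ Nat.card M.Group ≤ bound Ds n := by
  obtain ⟨hfin, hcard⟩ := card_para M mc hM Ds tbls h n le_rfl
  rw [para_top] at hfin hcard
  have e : (⊤ : Subgroup M.Group) ≃ M.Group := Subgroup.topEquiv.toEquiv
  refine ⟨Finite.of_equiv _ e, ?_⟩
  rw [← Nat.card_congr e]
  exact hcard

end Cfsg.Agent.Lib.Helper19.CoxUpper
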