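import Cfsg.Agent.Lib.Helper19.GraphAut
import Cfsg.Agent.Lib.Helper18.FTabB2

set_option autoImplicit false
set_option maxRecDepth 100000

/-!
The data of the exceptional graph automorphism of type B2 in characteristic 2 and its checks.
Generated data.
-/

namespace Cfsg.Agent.Lib.Helper19.GraphAutB2

open Cfsg Cfsg.Lie Cfsg.Agent.Lib.Helper18.Fast Cfsg.Agent.Lib.Helper19.GraphAut
  Cfsg.Agent.Lib.Helper18

/-- short root vectors and the coroots of the short fundamental roots span the stable subspace -/
def gd : GData where
  inI := fun k => [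
    false, true, true, false, false, true, true, false, true, false].getD k false
  sw := fun k => [
    1, 0, 3, 2, 5, 4, 7, 6, 9, 8].getD k 0
  bar := fun r => [
    1, 0, 3, 2, 5, 4, 7, 6].getD r 0
  lam := fun r => [
    1, 2, 2, 1, 1, 2, 2, 1].getD r 1

theorem agrees : Agrees FTabB2.fd chevB2 := FTabB2.fd_eq ▸ TabB2.agrees

theorem hsw : chkSw FTabB2.fd gd = true := by decide +kernel

theorem hbar : chkBar FTabB2.fd gd 2 = true := by decide +kernel

theorem hI_0 : (List.range' 0 8).all (fun r => chkInv FTabB2.fd gd 2 r) = true := by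
  decide +kernel

theorem hR_0 : (List.range' 0 8).all (fun r => chkRel FTabB2.fd gd 2 r) = true := by
  decide +kernel

theorem hI : ∀ r < FTabB2.fd.n, chkInv FTabB2.fd gd 2 r = true := by
  intro r hr
  have hr' : r < 8 := hr
  by_cases h0 : r < 8
  · have := hI_0
    rw [List.all_eq_true] at this
    exact this r (List.mem_range'_1.mpr ⟨by omega, by omega⟩)
  omega

theorem hR : ∀ r < FTabB2.fd.n, chkRel FTabB2.fd gd 2 r = true := by
  intro r hr
  have hr' : r < 8 := hr
  by_cases h0 : r < 8
  · have := hR_0
    rw [List.all_eq_true] at this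
    exact this r (List.mem_range'_1.mpr ⟨by omega, by omega⟩)
  omega

end Cfsg.Agent.Lib.Helper19.GraphAutB2
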