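import Mathlib
import Cfsg.Prelude.Def_LieRecognition

/-!
Helper library (helper19): groups of odd order with an involutory automorphism (conjugation by `t`, `t * t = 1`).
-/

set_option autoImplicit false
open scoped Pointwise

namespace Cfsg.Agent.Lib.Helper19.OddInv

variable {M : Type*} [Group M]

/-- the exponent `(|X| + 1) / 2`, used to take square roots in a subgroup of odd order -/
noncomputable def hexp (X : Subgroup M) : ℕ := (Nat.card X + 1) / 2

theorem two_mul_hexp {X : Subgroup M} (hodd : Odd (Nat.card X)) : 2 * hexp X = Nat.card X + 1 := by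
  unfold hexp; obtain ⟨k, hk⟩ := hodd; omega

theorem pow_card_of_mem {X : Subgroup M} {x : M} (hx : x ∈ X) : x ^ Nat.card X = 1 := by
  have h := pow_card_eq_one' (G := X) (x := ⟨x, hx⟩)
  have h2 := congrArg (Subtype.val) h
  simpa only [Subgroup.coe_pow, Subgroup.coe_one] using h2

theorem sq_pow_hexp {X : Subgroup M} (hodd : Odd (Nat.card X)) {x : M} (hx : x ∈ X) :
    (x ^ 2) ^ hexp X = x := by
  rw [← pow_mul, two_mul_hexp hodd, pow_succ, pow_card_of_mem hx, one_mul]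

theorem pow_hexp_sq {X : Subgroup M} (hodd : Odd (Nat.card X)) {x : M} (hx : x ∈ X) :
    (x ^ hexp X) ^ 2 = x := by
  rw [← pow_mul, mul_comm, two_mul_hexp hodd, pow_succ, pow_card_of_mem hx, one_mul]

theorem sq_inj_of_odd {X : Subgroup M} (hodd : Odd (Nat.card X)) {x y : M} (hx : x ∈ X) (hy : y ∈ X)
    (h : x ^ 2 = y ^ 2) : x = y := by
  rw [← sq_pow_hexp hodd hx, h, sq_pow_hexp hodd hy]

/-- in a subgroup of odd order, an element commuting with `g ^ 2` commutes with `g` -/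
theorem commute_of_commute_sq {X : Subgroup M} (hodd : Odd (Nat.card X)) {g x : M} (hg : g ∈ X)
    (h : Commute (g ^ 2) x) : Commute g x := by
  have := h.pow_left (hexp X)
  rwa [sq_pow_hexp hodd hg] at this

/-- in a subgroup of odd order no non-identity element is conjugate to its inverse -/
theorem eq_one_of_conj_eq_inv {X : Subgroup M} (hodd : Odd (Nat.card X)) {g x : M} (hg : g ∈ X) (hx : x ∈ X)
    (h : g * x * g⁻¹ = x⁻¹) : x = 1 := by
  have h2 : Commute (g ^ 2) x := by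
    have h3 : g * x⁻¹ * g⁻¹ = x := by
      have := congrArg (fun y => y⁻¹) h
      simpa [mul_assoc] using this
    have : g ^ 2 * x * (g ^ 2)⁻¹ = x := by
      calc g ^ 2 * x * (g ^ 2)⁻¹ = g * (g * x * g⁻¹) * g⁻¹ := by simp [pow_two, mul_assoc]
        _ = x := by rw [h, h3]
    unfold Commute SemiconjBy
    calc g ^ 2 * x = (g ^ 2 * x * (g ^ 2)⁻¹) * g ^ 2 := by simp [mul_assoc]
      _ = x * g ^ 2 := by rw [this]
  have h4 := commute_of_commute_sq hodd hg h2
  have h5 : x = x⁻¹ := by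
    rw [← h, h4.eq]; simp
  have h6 : x ^ 2 = (1 : M) ^ 2 := by
    rw [pow_two, one_pow]
    calc x * x = x * x⁻¹ := by rw [← h5]
      _ = 1 := mul_inv_cancel x
  exact sq_inj_of_odd hodd hx (one_mem X) h6

section involution

variable {t : M} (ht : t * t = 1)
include ht

theorem inv_eq_self_of_mul_self : t⁻¹ = t := inv_eq_of_mul_eq_one_left ht

/-- conjugation by `t` is an involution -/
theorem conj_conj_of_mul_self (x : M) : t * (t * x * t⁻¹) * t⁻¹ = x := by
  rw [inv_eq_self_of_mul_self ht]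
  calc t * (t * x * t) * t = (t * t) * x * (t * t) := by simp only [mul_assoc]
    _ = x := by rw [ht]; simp

omit ht in
theorem mem_invertedBy_iff {X : Subgroup M} {x : M} : x ∈ Cfsg.invertedBy X t ↔ x ∈ X ∧ t * x * t⁻¹ = x⁻¹ :=
  Iff.rfl

omit ht in
theorem one_mem_invertedBy (X : Subgroup M) : (1 : M) ∈ Cfsg.invertedBy X t := by
  refine ⟨one_mem X, ?_⟩
  simp

omit ht in
theorem inv_mem_invertedBy {X : Subgroup M} {x : M} (hx : x ∈ Cfsg.invertedBy X t) :
    x⁻¹ ∈ Cfsg.invertedBy X t := by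
  refine ⟨inv_mem hx.1, ?_⟩
  have := congrArg (fun y => y⁻¹) hx.2
  simpa [mul_assoc] using this

omit ht in
theorem pow_mem_invertedBy {X : Subgroup M} {x : M} (hx : x ∈ Cfsg.invertedBy X t) (n : ℕ) :
    x ^ n ∈ Cfsg.invertedBy X t := by
  refine ⟨pow_mem hx.1 n, ?_⟩
  have h : t * x ^ n * t⁻¹ = (t * x * t⁻¹) ^ n := by
    rw [conj_pow]
  rw [h, hx.2, inv_pow]

omit ht in
/-- `k d k` is inverted when `k`, `d` are -/
theorem mul_mul_mem_invertedBy {X : Subgroup M} {k d : M} (hk : k ∈ Cfsg.invertedBy X t)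
    (hd : d ∈ Cfsg.invertedBy X t) : k * d * k ∈ Cfsg.invertedBy X t := by
  refine ⟨mul_mem (mul_mem hk.1 hd.1) hk.1, ?_⟩
  calc t * (k * d * k) * t⁻¹ = (t * k * t⁻¹) * (t * d * t⁻¹) * (t * k * t⁻¹) := by simp [mul_assoc]
    _ = (k * d * k)⁻¹ := by rw [hk.2, hd.2]; simp [mul_assoc]

omit ht in
/-- an inverted element of an odd-order subgroup has an inverted square root -/
theorem exists_sqrt_invertedBy {X : Subgroup M} (hodd : Odd (Nat.card X)) {d : M}
    (hd : d ∈ Cfsg.invertedBy X t) : ∃ e ∈ Cfsg.invertedBy X t, e * e = d := by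
  refine ⟨d ^ hexp X, pow_mem_invertedBy hd _, ?_⟩
  rw [← pow_two, pow_hexp_sq hodd hd.1]

/-- for `x ∈ X` (normalised by `t`), `(t x t⁻¹)⁻¹ x` is inverted by `t` -/
theorem conj_inv_mul_mem_invertedBy {X : Subgroup M} (hnorm : ∀ x ∈ X, t * x * t⁻¹ ∈ X) {x : M} (hx : x ∈ X) :
    (t * x * t⁻¹)⁻¹ * x ∈ Cfsg.invertedBy X t := by
  refine ⟨mul_mem (inv_mem (hnorm x hx)) hx, ?_⟩
  have h1 : t * ((t * x * t⁻¹)⁻¹ * x) * t⁻¹ = (t * (t * x * t⁻¹) * t⁻¹)⁻¹ * (t * x * t⁻¹) := by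
    simp [mul_assoc]
  rw [h1, conj_conj_of_mul_self ht]
  simp [mul_assoc]

/-- The factorisation `X = C_X(t) · I_X(t)`: existence and uniqueness. -/
theorem exists_unique_factorization {X : Subgroup M} (hodd : Odd (Nat.card X))
    (hnorm : ∀ x ∈ X, t * x * t⁻¹ ∈ X) {x : M} (hx : x ∈ X) :
    ∃! p : M × M, p.1 ∈ X ⊓ Subgroup.centralizer {t} ∧ p.2 ∈ Cfsg.invertedBy X t ∧ x = p.1 * p.2 := by
  set c := (t * x * t⁻¹)⁻¹ * x with hc
  have hcI : c ∈ Cfsg.invertedBy X t := conj_inv_mul_mem_invertedBy ht hnorm hx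
  set z := c ^ hexp X with hz
  have hzI : z ∈ Cfsg.invertedBy X t := pow_mem_invertedBy hcI _
  have hz2 : z * z = c := by rw [← pow_two, hz, pow_hexp_sq hodd hcI.1]
  refine ⟨(x * z⁻¹, z), ⟨Subgroup.mem_inf.mpr ⟨mul_mem hx (inv_mem hzI.1), ?_⟩, hzI, by simp⟩, ?_⟩
  · rw [Subgroup.mem_centralizer_iff]
    intro h hh
    rw [Set.mem_singleton_iff] at hh
    subst hh
    -- t * (x * z⁻¹) = (x * z⁻¹) * t
    have h1 : h * (x * z⁻¹) * h⁻¹ = x * z⁻¹ := by
      have h2 : h * (x * z⁻¹) * h⁻¹ = (h * x * h⁻¹) * (h * z * h⁻¹)⁻¹ := by simp [mul_assoc]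
      rw [h2, hzI.2, inv_inv]
      have h3 : h * x * h⁻¹ = x * c⁻¹ := by rw [hc]; simp [mul_assoc]
      rw [h3, ← hz2]; simp [mul_assoc]
    calc h * (x * z⁻¹) = (h * (x * z⁻¹) * h⁻¹) * h := by simp [mul_assoc]
      _ = x * z⁻¹ * h := by rw [h1]
  · rintro ⟨y', z'⟩ ⟨hy', hz', hxy⟩
    simp only at hy' hz' hxy
    have hcent : t * y' * t⁻¹ = y' := by
      have := (Subgroup.mem_centralizer_iff.mp hy'.2) t (Set.mem_singleton t)
      rw [this]; simp
    have h1 : t * x * t⁻¹ = y' * z'⁻¹ := by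
      rw [hxy]
      calc t * (y' * z') * t⁻¹ = (t * y' * t⁻¹) * (t * z' * t⁻¹) := by simp [mul_assoc]
        _ = y' * z'⁻¹ := by rw [hcent, hz'.2]
    have h2 : c = z' * z' := by
      rw [hc, h1, hxy]; simp [mul_assoc]
    have h3 : z' = z := by
      apply sq_inj_of_odd hodd hz'.1 hzI.1
      rw [pow_two, pow_two, ← h2, hz2]
    subst h3
    have h4 : y' = x * z⁻¹ := by rw [hxy]; simp
    rw [h4]

/-- `|X| = |C_X(t)| · |I_X(t)|` -/
theorem card_eq_card_centralizer_mul_card_invertedBy {X : Subgroup M} (hodd : Odd (Nat.card X))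
    (hnorm : ∀ x ∈ X, t * x * t⁻¹ ∈ X) :
    Nat.card X = Nat.card ↥(X ⊓ Subgroup.centralizer {t}) * Nat.card (Cfsg.invertedBy X t) := by
  rw [← Nat.card_prod]
  symm
  let f : ↥(X ⊓ Subgroup.centralizer {t}) × ↥(Cfsg.invertedBy X t) → X :=
    fun p => ⟨p.1.1 * p.2.1, mul_mem (Subgroup.mem_inf.mp p.1.2).1 p.2.2.1⟩
  have hf : Function.Bijective f := by
    constructor
    · rintro ⟨⟨y, hy⟩, ⟨z, hz⟩⟩ ⟨⟨y', hy'⟩, ⟨z', hz'⟩⟩ h
      have hval : y * z = y' * z' := congrArg Subtype.val h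
      have hx : y * z ∈ X := mul_mem (Subgroup.mem_inf.mp hy).1 hz.1
      obtain ⟨p, -, hp⟩ := exists_unique_factorization ht hodd hnorm hx
      have h1 := hp (y, z) ⟨hy, hz, rfl⟩
      have h2 := hp (y', z') ⟨hy', hz', hval⟩
      have h3 : (y, z) = (y', z') := h1.trans h2.symm
      have h4 : y = y' := congrArg Prod.fst h3
      have h5 : z = z' := congrArg Prod.snd h3
      subst h4; subst h5; rfl
    · rintro ⟨x, hx⟩
      obtain ⟨p, ⟨hp1, hp2, hp3⟩, -⟩ := exists_unique_factorization ht hodd hnorm hx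
      exact ⟨(⟨p.1, hp1⟩, ⟨p.2, hp2⟩), Subtype.ext hp3.symm⟩
  exact Nat.card_congr (Equiv.ofBijective f hf)

/-- the subgroup generated by the inverted elements is normalised by `X` -/
theorem conj_mem_closure_invertedBy {X : Subgroup M} (hodd : Odd (Nat.card X))
    (hnorm : ∀ x ∈ X, t * x * t⁻¹ ∈ X) {x : M} (hx : x ∈ X) {w : M}
    (hw : w ∈ Subgroup.closure (Cfsg.invertedBy X t)) :
    x * w * x⁻¹ ∈ Subgroup.closure (Cfsg.invertedBy X t) := by
  obtain ⟨p, ⟨hp1, hp2, hp3⟩, -⟩ := exists_unique_factorization ht hodd hnorm hx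
  obtain ⟨y, z⟩ := p
  simp only at hp1 hp2 hp3
  have hzc : z ∈ Subgroup.closure (Cfsg.invertedBy X t) := Subgroup.subset_closure hp2
  have h1 : z * w * z⁻¹ ∈ Subgroup.closure (Cfsg.invertedBy X t) :=
    mul_mem (mul_mem hzc hw) (inv_mem hzc)
  have hcent : ∀ v : M, t * (y * v * y⁻¹) * t⁻¹ = y * (t * v * t⁻¹) * y⁻¹ := by
    intro v
    have hty : t * y = y * t := (Subgroup.mem_centralizer_iff.mp (Subgroup.mem_inf.mp hp1).2) t (Set.mem_singleton t)
    have hty' : t * y⁻¹ = y⁻¹ * t := by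
      have : y⁻¹ * (t * y) * y⁻¹ = y⁻¹ * (y * t) * y⁻¹ := by rw [hty]
      simpa [mul_assoc] using this.symm
    calc t * (y * v * y⁻¹) * t⁻¹ = (t * y) * v * y⁻¹ * t⁻¹ := by simp [mul_assoc]
      _ = y * t * v * (y⁻¹ * t⁻¹) := by rw [hty]; simp [mul_assoc]
      _ = y * t * v * (t⁻¹ * y⁻¹) := by
          have : y⁻¹ * t⁻¹ = t⁻¹ * y⁻¹ := by
            rw [inv_eq_self_of_mul_self ht, hty']
          rw [this]
      _ = y * (t * v * t⁻¹) * y⁻¹ := by simp [mul_assoc]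
  have h2 : ∀ v ∈ Subgroup.closure (Cfsg.invertedBy X t), y * v * y⁻¹ ∈ Subgroup.closure (Cfsg.invertedBy X t) := by
    intro v hv
    induction hv using Subgroup.closure_induction with
    | mem v hv =>
      apply Subgroup.subset_closure
      refine ⟨mul_mem (mul_mem (Subgroup.mem_inf.mp hp1).1 hv.1) (inv_mem (Subgroup.mem_inf.mp hp1).1), ?_⟩
      rw [hcent, hv.2]; simp [mul_assoc]
    | one => simp
    | mul a b _ _ iha ihb =>
      have : y * (a * b) * y⁻¹ = (y * a * y⁻¹) * (y * b * y⁻¹) := by simp [mul_assoc]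
      rw [this]; exact mul_mem iha ihb
    | inv a _ iha =>
      have : y * a⁻¹ * y⁻¹ = (y * a * y⁻¹)⁻¹ := by simp [mul_assoc]
      rw [this]; exact inv_mem iha
  have h3 := h2 _ h1
  have h4 : x * w * x⁻¹ = y * (z * w * z⁻¹) * y⁻¹ := by rw [hp3]; simp [mul_assoc]
  rw [h4]; exact h3

end involution

end Cfsg.Agent.Lib.Helper19.OddInv
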