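import Mathlib
import Cfsg.Prelude.Def_LieRecognition
import Cfsg.Agent.Lib.Helper19.OddInv

/-!
Helper library (helper19): in a subgroup `X` of odd order normalised by an involution `t`, the set `K` of
inverted elements satisfies: for `d, d' ∈ K` there is `k ∈ K` with `k d k = d'`.
-/

set_option autoImplicit false

namespace Cfsg.Agent.Lib.Helper19.OddInv2

open Cfsg.Agent.Lib.Helper19.OddInv

variable {M : Type*} [Group M] {t : M}

theorem finite_of_odd {X : Subgroup M} (hodd : Odd (Nat.card X)) : Finite X := by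
  apply Nat.finite_of_card_ne_zero
  intro h
  rw [h] at hodd
  exact (by decide : ¬ Odd 0) hodd

theorem finite_invertedBy {X : Subgroup M} (hodd : Odd (Nat.card X)) : Finite ↥(Cfsg.invertedBy X t) := by
  have := finite_of_odd hodd
  apply Finite.of_injective (fun k : ↥(Cfsg.invertedBy X t) => (⟨k.1, k.2.1⟩ : X))
  intro k k' h
  have h' : (⟨k.1, k.2.1⟩ : X) = ⟨k'.1, k'.2.1⟩ := h
  have : k.1 = k'.1 := Subtype.mk.inj h'
  exact Subtype.ext this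

/-- `k ↦ k d k` is injective on the inverted elements -/
theorem mul_mul_inj {X : Subgroup M} (hodd : Odd (Nat.card X)) {d p q : M}
    (hd : d ∈ Cfsg.invertedBy X t) (hp : p ∈ Cfsg.invertedBy X t) (hq : q ∈ Cfsg.invertedBy X t)
    (h : p * d * p = q * d * q) : p = q := by
  obtain ⟨e, he, hed⟩ := exists_sqrt_invertedBy hodd hd
  subst hed
  have h1 : e⁻¹ * q⁻¹ * p * e = e * q * p⁻¹ * e⁻¹ := by
    have h' : e⁻¹ * q⁻¹ * (p * (e * e) * p) * p⁻¹ * e⁻¹ = e⁻¹ * q⁻¹ * (q * (e * e) * q) * p⁻¹ * e⁻¹ := by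
      rw [h]
    calc e⁻¹ * q⁻¹ * p * e = e⁻¹ * q⁻¹ * (p * (e * e) * p) * p⁻¹ * e⁻¹ := by group
      _ = e⁻¹ * q⁻¹ * (q * (e * e) * q) * p⁻¹ * e⁻¹ := h'
      _ = e * q * p⁻¹ * e⁻¹ := by group
  set c := e⁻¹ * q⁻¹ * p * e with hc
  have hcX : c ∈ X := mul_mem (mul_mem (mul_mem (inv_mem he.1) (inv_mem hq.1)) hp.1) he.1
  -- `c` is centralised by `t`
  have h2 : t * c * t⁻¹ = c := by
    have : t * c * t⁻¹ = (t * e * t⁻¹)⁻¹ * (t * q * t⁻¹)⁻¹ * (t * p * t⁻¹) * (t * e * t⁻¹) := by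
      rw [hc]; group
    rw [this, he.2, hq.2, hp.2, inv_inv, inv_inv]
    exact h1.symm
  have h3 : p = q * e * c * e⁻¹ := by rw [hc]; group
  have h4 : q⁻¹ * e⁻¹ * c * e = e * c⁻¹ * e⁻¹ * q⁻¹ := by
    have h5 : t * p * t⁻¹ = (t * q * t⁻¹) * (t * e * t⁻¹) * (t * c * t⁻¹) * (t * e * t⁻¹)⁻¹ := by
      rw [h3]; group
    rw [hp.2, hq.2, he.2, h2, inv_inv] at h5
    rw [← h5, h3]; group
  have h6 : (e⁻¹ * q⁻¹ * e⁻¹) * c * (e⁻¹ * q⁻¹ * e⁻¹)⁻¹ = c⁻¹ := by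
    calc (e⁻¹ * q⁻¹ * e⁻¹) * c * (e⁻¹ * q⁻¹ * e⁻¹)⁻¹ = e⁻¹ * (q⁻¹ * e⁻¹ * c * e) * q * e := by group
      _ = e⁻¹ * (e * c⁻¹ * e⁻¹ * q⁻¹) * q * e := by rw [h4]
      _ = c⁻¹ := by group
  have h7 : c = 1 :=
    eq_one_of_conj_eq_inv hodd (mul_mem (mul_mem (inv_mem he.1) (inv_mem hq.1)) (inv_mem he.1)) hcX h6
  rw [h3, h7]; group

/-- for inverted `d`, `d'` there is an inverted `k` with `k d k = d'` -/
theorem exists_mul_mul_eq {X : Subgroup M} (hodd : Odd (Nat.card X)) {d d' : M}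
    (hd : d ∈ Cfsg.invertedBy X t) (hd' : d' ∈ Cfsg.invertedBy X t) :
    ∃ k ∈ Cfsg.invertedBy X t, k * d * k = d' := by
  have hfin : Finite ↥(Cfsg.invertedBy X t) := finite_invertedBy hodd
  let f : ↥(Cfsg.invertedBy X t) → ↥(Cfsg.invertedBy X t) :=
    fun k => ⟨k.1 * d * k.1, mul_mul_mem_invertedBy k.2 hd⟩
  have hinj : Function.Injective f := by
    intro k k' h
    have h1 : k.1 * d * k.1 = k'.1 * d * k'.1 := Subtype.mk.inj h
    exact Subtype.ext (mul_mul_inj hodd hd k.2 k'.2 h1)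
  have hsurj : Function.Surjective f := Finite.injective_iff_surjective.mp hinj
  obtain ⟨k, hk⟩ := hsurj ⟨d', hd'⟩
  exact ⟨k.1, k.2, congrArg Subtype.val hk⟩

end Cfsg.Agent.Lib.Helper19.OddInv2
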