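import Mathlib
import Cfsg.Prelude.Def_LieRecognition
import Cfsg.Agent.Lib.Helper19.OddInv

/-!
Helper library (helper19): basic consequences of `Cfsg.IsRankOneSetup`.
`Q` is regular on the points other than `a`; canonical form; every involution fixes exactly one point.
-/

set_option autoImplicit false
set_option linter.unusedSectionVars false
open scoped Pointwise

namespace Cfsg.Agent.Lib.Helper19.RankOne

open MulAction

variable {G Ω : Type*} [Group G] [MulAction G Ω] {a : Ω} {t : G} {Q : Subgroup G}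

section basic

variable (hS : Cfsg.IsRankOneSetup G Ω a t Q)
include hS

theorem t_smul_ne : t • a ≠ a := fun h => hS.not_mem (mem_stabilizer_iff.mpr h)

theorem t_smul_t_smul : t • t • a = a := by rw [smul_smul, hS.mul_self, one_smul]

theorem t_inv : t⁻¹ = t := inv_eq_of_mul_eq_one_left hS.mul_self

theorem D_le_normalizer :
    stabilizer G a ⊓ stabilizer G (t • a) ≤ Subgroup.normalizer (Q : Set G) := by
  intro d hd
  rw [Subgroup.mem_normalizer_iff]
  intro h
  have hda : d ∈ stabilizer G a := (Subgroup.mem_inf.mp hd).1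
  constructor
  · intro hh
    exact hS.conj_mem d hda h hh
  · intro hh
    have := hS.conj_mem d⁻¹ (inv_mem hda) _ hh
    simpa [mul_assoc] using this

/-- every element of `G_a` is `q * d` with `q ∈ Q`, `d ∈ D` -/
theorem exists_mul_of_mem_stabilizer {g : G} (hg : g ∈ stabilizer G a) :
    ∃ q ∈ Q, ∃ d ∈ stabilizer G a ⊓ stabilizer G (t • a), g = q * d := by
  have h1 := Subgroup.coe_mul_of_right_le_normalizer_left Q _ (D_le_normalizer hS)
  rw [← hS.sup_eq] at hg
  have hg' : g ∈ ((Q ⊔ (stabilizer G a ⊓ stabilizer G (t • a)) : Subgroup G) : Set G) := hg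
  rw [h1] at hg'
  obtain ⟨q, hq, d, hd, rfl⟩ := Set.mem_mul.mp hg'
  exact ⟨q, hq, d, hd, rfl⟩

/-- `Q` is transitive on the points other than `a` -/
theorem exists_mem_smul_eq {c : Ω} (hc : c ≠ a) : ∃ q ∈ Q, q • (t • a) = c := by
  have h2 := hS.two_transitive
  rw [MulAction.is_two_pretransitive_iff] at h2
  obtain ⟨g, hga, hgb⟩ := h2 (a := a) (b := t • a) (c := a) (d := c) (t_smul_ne hS).symm hc.symm
  obtain ⟨q, hq, d, hd, rfl⟩ := exists_mul_of_mem_stabilizer hS (mem_stabilizer_iff.mpr hga)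
  refine ⟨q, hq, ?_⟩
  have hdb : d • (t • a) = t • a := mem_stabilizer_iff.mp (Subgroup.mem_inf.mp hd).2
  rw [← hgb, mul_smul, hdb]

/-- a non-identity element of `Q` fixes no point other than `a` -/
theorem eq_one_of_smul_eq {q : G} (hq : q ∈ Q) {c : Ω} (hc : c ≠ a) (h : q • c = c) : q = 1 := by
  obtain ⟨q₀, hq₀, rfl⟩ := exists_mem_smul_eq hS hc
  have h1 : q₀⁻¹ * q * q₀ ∈ Q := mul_mem (mul_mem (inv_mem hq₀) hq) hq₀
  have h2 : (q₀⁻¹ * q * q₀) • (t • a) = t • a := by
    rw [mul_smul, mul_smul, h, inv_smul_smul]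
  have h3 : q₀⁻¹ * q * q₀ ∈ Q ⊓ stabilizer G (t • a) := Subgroup.mem_inf.mpr ⟨h1, mem_stabilizer_iff.mpr h2⟩
  rw [hS.inf_eq_bot, Subgroup.mem_bot] at h3
  have : q = q₀ * (q₀⁻¹ * q * q₀) * q₀⁻¹ := by simp [mul_assoc]
  rw [this, h3]; simp

theorem eq_of_smul_eq {q q' : G} (hq : q ∈ Q) (hq' : q' ∈ Q) {c : Ω} (hc : c ≠ a) (h : q • c = q' • c) :
    q = q' := by
  have h1 : (q'⁻¹ * q) • c = c := by rw [mul_smul, h, inv_smul_smul]
  have h2 := eq_one_of_smul_eq hS (mul_mem (inv_mem hq') hq) hc h1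
  calc q = q' * (q'⁻¹ * q) := by simp
    _ = q' := by rw [h2, mul_one]

omit hS in
theorem smul_ne_of_mem {g : G} (hg : g ∈ stabilizer G a) {c : Ω} (hc : c ≠ a) : g • c ≠ a := by
  intro h
  apply hc
  have : g • c = g • a := by rw [h, mem_stabilizer_iff.mp hg]
  exact smul_left_cancel g this

/-- `Q` is regular on the points other than `a` -/
theorem existsUnique_smul_eq {b c : Ω} (hb : b ≠ a) (hc : c ≠ a) : ∃! x : Q, (x : G) • b = c := by
  obtain ⟨q₁, hq₁, rfl⟩ := exists_mem_smul_eq hS hb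
  obtain ⟨q₂, hq₂, rfl⟩ := exists_mem_smul_eq hS hc
  refine ⟨⟨q₂ * q₁⁻¹, mul_mem hq₂ (inv_mem hq₁)⟩, ?_, ?_⟩
  · show (q₂ * q₁⁻¹) • q₁ • t • a = q₂ • t • a
    rw [mul_smul, inv_smul_smul]
  · rintro ⟨y, hy⟩ hy2
    apply Subtype.ext
    show y = q₂ * q₁⁻¹
    have hy3 : y • q₁ • t • a = q₂ • t • a := hy2
    have h1 : (y * q₁) • (t • a) = q₂ • (t • a) := by rw [mul_smul, hy3]
    have h2 := eq_of_smul_eq hS (mul_mem hy hq₁) hq₂ (t_smul_ne hS) h1
    rw [← h2]; simp

/-- canonical form: existence -/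
theorem exists_canonical {g : G} (hg : g ∉ stabilizer G a) :
    ∃ x ∈ stabilizer G a, ∃ y ∈ Q, g = x * t * y := by
  have h1 : g⁻¹ • a ≠ a := by
    intro h
    apply hg
    rw [mem_stabilizer_iff]
    calc g • a = g • (g⁻¹ • a) := by rw [h]
      _ = a := smul_inv_smul g a
  obtain ⟨q, hq, hq2⟩ := exists_mem_smul_eq hS h1
  refine ⟨g * q * t, ?_, q⁻¹, inv_mem hq, ?_⟩
  · rw [mem_stabilizer_iff, mul_smul, mul_smul, hq2, smul_inv_smul]
  · have := hS.mul_self
    calc g = g * q * (t * t) * q⁻¹ := by rw [this]; simp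
      _ = g * q * t * t * q⁻¹ := by simp only [mul_assoc]

/-- canonical form: uniqueness -/
theorem canonical_unique {x x' y y' : G} (hx : x ∈ stabilizer G a) (hx' : x' ∈ stabilizer G a)
    (hy : y ∈ Q) (hy' : y' ∈ Q) (h : x * t * y = x' * t * y') : x = x' ∧ y = y' := by
  have h1 : ∀ {x y : G}, x ∈ stabilizer G a → (x * t * y)⁻¹ • a = y⁻¹ • (t • a) := by
    intro x y hx
    have hxa : x⁻¹ • a = a := mem_stabilizer_iff.mp (inv_mem hx)
    rw [mul_inv_rev, mul_inv_rev, mul_smul, mul_smul, hxa, t_inv hS]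
  have h2 : y⁻¹ • (t • a) = y'⁻¹ • (t • a) := by
    rw [← h1 hx, ← h1 hx', h]
  have h3 := eq_of_smul_eq hS (inv_mem hy) (inv_mem hy') (t_smul_ne hS) h2
  have h4 : y = y' := inv_injective h3
  subst h4
  refine ⟨?_, rfl⟩
  have h5 : x * t = x' * t := mul_right_cancel h
  exact mul_right_cancel h5

theorem existsUnique_canonical {g : G} (hg : g ∉ stabilizer G a) :
    ∃! p : G × G, p.1 ∈ stabilizer G a ∧ p.2 ∈ Q ∧ g = p.1 * t * p.2 := by
  obtain ⟨x, hx, y, hy, rfl⟩ := exists_canonical hS hg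
  refine ⟨(x, y), ⟨hx, hy, rfl⟩, ?_⟩
  rintro ⟨x', y'⟩ ⟨hx', hy', h⟩
  obtain ⟨h1, h2⟩ := canonical_unique hS hx hx' hy hy' h
  simp only at h1 h2
  rw [h1, h2]

theorem stabilizer_le_normalizer : stabilizer G a ≤ Subgroup.normalizer (Q : Set G) := by
  intro d hda
  rw [Subgroup.mem_normalizer_iff]
  intro h
  constructor
  · intro hh
    exact hS.conj_mem d hda h hh
  · intro hh
    have := hS.conj_mem d⁻¹ (inv_mem hda) _ hh
    simpa [mul_assoc] using this

theorem exists_ne_one : ∃ q ∈ Q, q ≠ 1 := by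
  by_contra h
  have h' : ∀ q ∈ Q, q = 1 := fun q hq => by_contra fun hq1 => h ⟨q, hq, hq1⟩
  have h1 : Q = ⊥ := (Subgroup.eq_bot_iff_forall Q).mpr h'
  have h2 := hS.even_card
  rw [h1, Subgroup.card_bot] at h2
  exact (by decide : ¬ Even 1) h2

/-- the normaliser of a subset of `Q` with a non-identity element fixes `a` -/
theorem normalizer_le_stabilizer {X : Set G} (hX : X ⊆ (Q : Set G)) (hne : ∃ x ∈ X, x ≠ 1) :
    Subgroup.normalizer X ≤ stabilizer G a := by
  intro g hg
  obtain ⟨x, hx, hx1⟩ := hne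
  rw [Subgroup.mem_set_normalizer_iff] at hg
  have h1 : g * x * g⁻¹ ∈ X := (hg x).mp hx
  have h2 : g * x * g⁻¹ ∈ Q := hX h1
  rw [mem_stabilizer_iff]
  by_contra hga
  have h3 : (g * x * g⁻¹) • (g • a) = g • a := by
    rw [mul_smul, mul_smul, inv_smul_smul, mem_stabilizer_iff.mp (hS.le (hX hx))]
  have h4 := eq_one_of_smul_eq hS h2 hga h3
  apply hx1
  have : x = g⁻¹ * (g * x * g⁻¹) * g := by simp [mul_assoc]
  rw [this, h4]; simp

theorem normalizer_Q_eq : Subgroup.normalizer (Q : Set G) = stabilizer G a :=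
  le_antisymm (normalizer_le_stabilizer hS (le_refl _) (exists_ne_one hS)) (stabilizer_le_normalizer hS)

theorem normalizer_stabilizer_eq : Subgroup.normalizer (stabilizer G a : Set G) = stabilizer G a := by
  apply le_antisymm _ Subgroup.le_normalizer
  intro g hg
  obtain ⟨q, hq, hq1⟩ := exists_ne_one hS
  rw [Subgroup.mem_normalizer_iff] at hg
  have h1 : g * q * g⁻¹ ∈ stabilizer G a := (hg q).mp (hS.le hq)
  rw [mem_stabilizer_iff]
  by_contra hga
  have hga' : g⁻¹ • a ≠ a := by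
    intro h
    apply hga
    calc g • a = g • (g⁻¹ • a) := by rw [h]
      _ = a := smul_inv_smul g a
  have h2 : q • (g⁻¹ • a) = g⁻¹ • a := by
    have h3 : (g * q * g⁻¹) • a = a := mem_stabilizer_iff.mp h1
    rw [mul_smul, mul_smul] at h3
    calc q • g⁻¹ • a = g⁻¹ • (g • q • g⁻¹ • a) := by rw [inv_smul_smul]
      _ = g⁻¹ • a := by rw [h3]
  exact hq1 (eq_one_of_smul_eq hS hq hga' h2)

end basic

section counting

variable [Finite G] (hS : Cfsg.IsRankOneSetup G Ω a t Q)
include hS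

theorem pretransitive : IsPretransitive G Ω := by
  have := hS.two_transitive
  exact isPretransitive_of_is_two_pretransitive

theorem exists_smul_eq' (c d : Ω) : ∃ g : G, g • c = d := by
  have := pretransitive hS
  exact MulAction.exists_smul_eq G c d

theorem card_ne : Nat.card {c : Ω // c ≠ a} = Nat.card Q := by
  symm
  apply Nat.card_congr
  refine Equiv.ofBijective
    (fun q : Q => (⟨(q : G) • (t • a), smul_ne_of_mem (hS.le q.2) (t_smul_ne hS)⟩ : {c : Ω // c ≠ a})) ⟨?_, ?_⟩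
  · intro q q' h
    have h1 : (q : G) • (t • a) = (q' : G) • (t • a) := congrArg Subtype.val h
    exact Subtype.ext (eq_of_smul_eq hS q.2 q'.2 (t_smul_ne hS) h1)
  · rintro ⟨c, hc⟩
    obtain ⟨q, hq, h⟩ := exists_mem_smul_eq hS hc
    exact ⟨⟨q, hq⟩, Subtype.ext h⟩

theorem finite_Omega : Finite Ω := by
  have := pretransitive hS
  obtain ⟨f⟩ : Nonempty (G ⧸ stabilizer G a ≃ Ω) := by
    have e := MulAction.orbitEquivQuotientStabilizer G a
    rw [MulAction.orbit_eq_univ] at e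
    exact ⟨e.symm.trans (Equiv.Set.univ Ω)⟩
  exact Finite.of_equiv _ f

theorem card_Omega : Nat.card Ω = Nat.card Q + 1 := by
  classical
  have := finite_Omega hS
  rw [← Nat.card_congr (Equiv.optionSubtypeNe a), Finite.card_option, card_ne hS]

theorem card_stabilizer :
    Nat.card (stabilizer G a) = Nat.card Q * Nat.card ↥(stabilizer G a ⊓ stabilizer G (t • a)) := by
  rw [← Nat.card_prod]
  symm
  apply Nat.card_congr
  refine Equiv.ofBijective (fun p : Q × ↥(stabilizer G a ⊓ stabilizer G (t • a)) =>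
    (⟨p.1.1 * p.2.1, mul_mem (hS.le p.1.2) (Subgroup.mem_inf.mp p.2.2).1⟩ : stabilizer G a)) ⟨?_, ?_⟩
  · rintro ⟨⟨q, hq⟩, ⟨d, hd⟩⟩ ⟨⟨q', hq'⟩, ⟨d', hd'⟩⟩ h
    have h1 : q * d = q' * d' := congrArg Subtype.val h
    have hdb : d • (t • a) = t • a := mem_stabilizer_iff.mp (Subgroup.mem_inf.mp hd).2
    have hdb' : d' • (t • a) = t • a := mem_stabilizer_iff.mp (Subgroup.mem_inf.mp hd').2
    have h2 : q • (t • a) = q' • (t • a) := by
      calc q • (t • a) = (q * d) • (t • a) := by rw [mul_smul, hdb]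
        _ = (q' * d') • (t • a) := by rw [h1]
        _ = q' • (t • a) := by rw [mul_smul, hdb']
    have h3 := eq_of_smul_eq hS hq hq' (t_smul_ne hS) h2
    subst h3
    have h4 : d = d' := mul_left_cancel h1
    subst h4
    rfl
  · rintro ⟨g, hg⟩
    obtain ⟨q, hq, d, hd, rfl⟩ := exists_mul_of_mem_stabilizer hS hg
    exact ⟨(⟨q, hq⟩, ⟨d, hd⟩), rfl⟩

theorem card_G :
    Nat.card G = Nat.card Q * Nat.card ↥(stabilizer G a ⊓ stabilizer G (t • a)) * (Nat.card Q + 1) := by
  have := pretransitive hS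
  rw [← card_stabilizer hS, ← card_Omega hS, ← index_stabilizer_of_transitive G a, Subgroup.card_mul_index]

theorem exists_sylow_le : ∃ P : Sylow 2 G, (P : Subgroup G) ≤ Q := by
  have : Fact (Nat.Prime 2) := ⟨Nat.prime_two⟩
  obtain ⟨P₀⟩ : Nonempty (Sylow 2 Q) := inferInstance
  have hcard : Nat.card ((P₀ : Subgroup Q).map Q.subtype) = 2 ^ (Nat.card G).factorization 2 := by
    have h1 : Nat.card ((P₀ : Subgroup Q).map Q.subtype) = Nat.card (P₀ : Subgroup Q) :=
      Subgroup.card_map_of_injective (Subgroup.subtype_injective Q)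
    rw [h1, Sylow.card_eq_multiplicity, card_G hS]
    congr 1
    have hQ : Nat.card Q ≠ 0 := Nat.card_pos.ne'
    have hD : Nat.card ↥(stabilizer G a ⊓ stabilizer G (t • a)) ≠ 0 := Nat.card_pos.ne'
    rw [Nat.factorization_mul (mul_ne_zero hQ hD) (Nat.succ_ne_zero _), Nat.factorization_mul hQ hD]
    have h2 : (Nat.card ↥(stabilizer G a ⊓ stabilizer G (t • a))).factorization 2 = 0 := by
      apply Nat.factorization_eq_zero_of_not_dvd
      exact hS.odd_card.not_two_dvd_nat
    have h3 : (Nat.card Q + 1).factorization 2 = 0 := by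
      apply Nat.factorization_eq_zero_of_not_dvd
      exact (hS.even_card.add_one).not_two_dvd_nat
    simp only [Finsupp.add_apply, h2, h3, add_zero]
  exact ⟨Sylow.ofCard _ hcard, by rw [Sylow.coe_ofCard]; exact Subgroup.map_subtype_le _⟩

/-- every involution of `G` is conjugate to a non-identity element of `Q` -/
theorem involution_conj {u : G} (hu1 : u ≠ 1) (hu2 : u * u = 1) :
    ∃ g : G, ∃ q ∈ Q, q ≠ 1 ∧ u = g * q * g⁻¹ := by
  have : Fact (Nat.Prime 2) := ⟨Nat.prime_two⟩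
  obtain ⟨P, hP⟩ := exists_sylow_le hS
  have hu : IsPGroup 2 (Subgroup.zpowers u) := by
    apply IsPGroup.of_card (n := 1)
    rw [Nat.card_zpowers, pow_one]
    exact orderOf_eq_prime (by rw [pow_two]; exact hu2) hu1
  obtain ⟨P', hP'⟩ := hu.exists_le_sylow
  obtain ⟨g, rfl⟩ := MulAction.exists_smul_eq G P P'
  have hu' : u ∈ ((g • P : Sylow 2 G) : Subgroup G) := hP' (Subgroup.mem_zpowers u)
  rw [Sylow.coe_subgroup_smul, Subgroup.mem_pointwise_smul_iff_inv_smul_mem] at hu'
  have h1 : (MulAut.conj g)⁻¹ • u = g⁻¹ * u * g := by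
    simp [MulAut.smul_def]
  rw [h1] at hu'
  refine ⟨g, g⁻¹ * u * g, hP hu', ?_, by simp [mul_assoc]⟩
  intro h
  apply hu1
  have : u = g * (g⁻¹ * u * g) * g⁻¹ := by simp [mul_assoc]
  rw [this, h]; simp

/-- every involution of `G` fixes exactly one point -/
theorem involution_existsUnique_fixed {u : G} (hu1 : u ≠ 1) (hu2 : u * u = 1) : ∃! c : Ω, u • c = c := by
  obtain ⟨g, q, hq, hq1, rfl⟩ := involution_conj hS hu1 hu2
  refine ⟨g • a, ?_, ?_⟩
  · show (g * q * g⁻¹) • g • a = g • a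
    rw [mul_smul, mul_smul, inv_smul_smul, mem_stabilizer_iff.mp (hS.le hq)]
  · intro c hc
    have hc' : g • q • g⁻¹ • c = c := by
      have : (g * q * g⁻¹) • c = c := hc
      rwa [mul_smul, mul_smul] at this
    have h1 : q • (g⁻¹ • c) = g⁻¹ • c := by
      calc q • g⁻¹ • c = g⁻¹ • (g • q • g⁻¹ • c) := by rw [inv_smul_smul]
        _ = g⁻¹ • c := by rw [hc']
    by_contra hne
    have h2 : g⁻¹ • c ≠ a := by
      intro h; apply hne; rw [← h, smul_inv_smul]
    exact hq1 (eq_one_of_smul_eq hS hq h2 h1)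

theorem involution_fixed_unique {u : G} (hu1 : u ≠ 1) (hu2 : u * u = 1) {c d : Ω} (hc : u • c = c)
    (hd : u • d = d) : c = d := by
  obtain ⟨e, -, he⟩ := involution_existsUnique_fixed hS hu1 hu2
  rw [he c hc, he d hd]

/-- an involution of `G_a` lies in `Q` -/
theorem involution_mem_Q {s : G} (hs : s ∈ stabilizer G a) (hs1 : s ≠ 1) (hs2 : s * s = 1) : s ∈ Q := by
  obtain ⟨g, q, hq, hq1, hsq⟩ := involution_conj hS hs1 hs2
  have hga : g • a = a := by
    apply involution_fixed_unique hS hs1 hs2 _ (mem_stabilizer_iff.mp hs)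
    rw [hsq, mul_smul, mul_smul, inv_smul_smul, mem_stabilizer_iff.mp (hS.le hq)]
  rw [hsq]
  exact hS.conj_mem g (mem_stabilizer_iff.mpr hga) q hq

/-- an element commuting with an involution fixes the fixed point of that involution -/
theorem smul_eq_of_commute {u z : G} (hu1 : u ≠ 1) (hu2 : u * u = 1) (hz : z * u = u * z) {c : Ω}
    (hc : u • c = c) : z • c = c := by
  apply involution_fixed_unique hS hu1 hu2 _ hc
  rw [← mul_smul, ← hz, mul_smul, hc]

/-- the product of two involutions with different fixed points has odd order -/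
theorem odd_orderOf_mul {u v : G} (hu1 : u ≠ 1) (hu2 : u * u = 1) (hv1 : v ≠ 1) (hv2 : v * v = 1)
    {c d : Ω} (hc : u • c = c) (hd : v • d = d) (hne : c ≠ d) : Odd (orderOf (u * v)) := by
  rw [← Nat.not_even_iff_odd]
  rintro ⟨k, hk⟩
  have hn : 0 < orderOf (u * v) := orderOf_pos (u * v)
  have hk0 : k ≠ 0 := by omega
  have hkn : k < orderOf (u * v) := by omega
  set z := (u * v) ^ k with hz
  have hz1 : z ≠ 1 := pow_ne_one_of_lt_orderOf hk0 hkn
  have hz2 : z * z = 1 := by
    rw [hz, ← pow_add, ← hk, pow_orderOf_eq_one]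
  have hzinv : z⁻¹ = z := inv_eq_of_mul_eq_one_left hz2
  have huinv : u⁻¹ = u := inv_eq_of_mul_eq_one_left hu2
  have hvinv : v⁻¹ = v := inv_eq_of_mul_eq_one_left hv2
  have hinv : (u * v)⁻¹ = v * u := by rw [mul_inv_rev, huinv, hvinv]
  have h1 : u * z * u⁻¹ = z := by
    rw [hz, ← conj_pow]
    have : u * (u * v) * u⁻¹ = (u * v)⁻¹ := by
      rw [hinv, huinv]
      calc u * (u * v) * u = (u * u) * v * u := by simp only [mul_assoc]
        _ = v * u := by rw [hu2, one_mul]
    rw [this, inv_pow, ← hz, hzinv]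
  have h2 : v * z * v⁻¹ = z := by
    rw [hz, ← conj_pow]
    have : v * (u * v) * v⁻¹ = (u * v)⁻¹ := by
      rw [hinv, hvinv]
      calc v * (u * v) * v = v * u * (v * v) := by simp only [mul_assoc]
        _ = v * u := by rw [hv2, mul_one]
    rw [this, inv_pow, ← hz, hzinv]
  have h3 : z * u = u * z := by
    calc z * u = (u * z * u⁻¹) * u := by rw [h1]
      _ = u * z := by simp [mul_assoc]
  have h4 : z * v = v * z := by
    calc z * v = (v * z * v⁻¹) * v := by rw [h2]
      _ = v * z := by simp [mul_assoc]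
  have h5 : z • c = c := smul_eq_of_commute hS hu1 hu2 h3 hc
  have h6 : z • d = d := smul_eq_of_commute hS hv1 hv2 h4 hd
  exact hne (involution_fixed_unique hS hz1 hz2 h5 h6)

omit hS in
/-- two involutions whose product has odd order are conjugate -/
theorem conj_of_odd_orderOf_mul {x y : G} (hx2 : x * x = 1) (hy2 : y * y = 1)
    (hodd : Odd (orderOf (x * y))) : ∃ g : G, g * x * g⁻¹ = y := by
  obtain ⟨k, hk⟩ := hodd
  have hxinv : x⁻¹ = x := inv_eq_of_mul_eq_one_left hx2
  have hyinv : y⁻¹ = y := inv_eq_of_mul_eq_one_left hy2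
  have hinv : (x * y)⁻¹ = y * x := by rw [mul_inv_rev, hxinv, hyinv]
  set w := (x * y) ^ k with hw
  have h1 : x * w * x⁻¹ = w⁻¹ := by
    rw [hw, ← conj_pow]
    have : x * (x * y) * x⁻¹ = (x * y)⁻¹ := by
      rw [hinv, hxinv]
      calc x * (x * y) * x = (x * x) * y * x := by simp only [mul_assoc]
        _ = y * x := by rw [hx2, one_mul]
    rw [this, inv_pow]
  have h2 : w * w = y * x := by
    have h3 : (x * y) ^ (2 * k + 1) = 1 := by rw [← hk, pow_orderOf_eq_one]
    have h4 : w * w * (x * y) = 1 := by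
      rw [hw, ← pow_add, ← pow_succ]
      have : k + k + 1 = 2 * k + 1 := by ring
      rw [this, h3]
    rw [← hinv]
    exact eq_inv_of_mul_eq_one_left h4
  refine ⟨w, ?_⟩
  have h5 : x * w⁻¹ = w * x := by
    have : x * w⁻¹ * x⁻¹ = w := by
      have := congrArg (fun z => z⁻¹) h1
      simpa [mul_assoc] using this
    calc x * w⁻¹ = (x * w⁻¹ * x⁻¹) * x := by simp [mul_assoc]
      _ = w * x := by rw [this]
  calc w * x * w⁻¹ = w * (x * w⁻¹) := by rw [mul_assoc]
    _ = w * w * x := by rw [h5, mul_assoc]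
    _ = y * x * x := by rw [h2]
    _ = y := by rw [mul_assoc, hx2, mul_one]

/-- all involutions of `G` are conjugate -/
theorem involutions_conj {u v : G} (hu1 : u ≠ 1) (hu2 : u * u = 1) (hv1 : v ≠ 1) (hv2 : v * v = 1) :
    ∃ g : G, g * u * g⁻¹ = v := by
  obtain ⟨c, hc, -⟩ := involution_existsUnique_fixed hS hu1 hu2
  obtain ⟨d, hd, -⟩ := involution_existsUnique_fixed hS hv1 hv2
  by_cases hcd : c = d
  · subst hcd
    -- move `u` to an involution with another fixed point
    obtain ⟨e, he⟩ : ∃ e : Ω, e ≠ c := by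
      by_cases h : c = a
      · exact ⟨t • a, by rw [h]; exact t_smul_ne hS⟩
      · exact ⟨a, fun h' => h h'.symm⟩
    obtain ⟨h, hh⟩ := exists_smul_eq' hS c e
    have hw1 : h * u * h⁻¹ ≠ 1 := by
      intro h'
      apply hu1
      have : u = h⁻¹ * (h * u * h⁻¹) * h := by simp [mul_assoc]
      rw [this, h']; simp
    have hw2 : (h * u * h⁻¹) * (h * u * h⁻¹) = 1 := by
      calc (h * u * h⁻¹) * (h * u * h⁻¹) = h * (u * u) * h⁻¹ := by simp [mul_assoc]
        _ = 1 := by rw [hu2]; simp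
    have hwe : (h * u * h⁻¹) • e = e := by
      rw [← hh, mul_smul, mul_smul, inv_smul_smul, hc]
    obtain ⟨g, hg⟩ := conj_of_odd_orderOf_mul hw2 hv2 (odd_orderOf_mul hS hw1 hw2 hv1 hv2 hwe hd he)
    refine ⟨g * h, ?_⟩
    rw [← hg]; simp [mul_assoc]
  · exact conj_of_odd_orderOf_mul hu2 hv2 (odd_orderOf_mul hS hu1 hu2 hv1 hv2 hc hd hcd)

end counting

end Cfsg.Agent.Lib.Helper19.RankOne
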