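import Mathlib
import Cfsg.Prelude.Def_LieRecognition
import Cfsg.Agent.Lib.Helper19.OddInv
import Cfsg.Agent.Lib.Helper19.OddInv2
import Cfsg.Agent.Lib.Helper19.RankOne

/-!
Helper library (helper19): the rank-one set-up, second part.
Involutions outside `G_a` in canonical form, the structure equation, the bijection between the
involutions of `G_a` and the elements of `D` inverted by `t`, conjugacy of the involutions of `G_a` under
the inverted elements.
-/

set_option autoImplicit false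
set_option linter.unusedSectionVars false

namespace Cfsg.Agent.Lib.Helper19.RankOne2

open MulAction
open Cfsg.Agent.Lib.Helper19.OddInv Cfsg.Agent.Lib.Helper19.OddInv2 Cfsg.Agent.Lib.Helper19.RankOne

theorem conj_ne_one {G : Type*} [Group G] {g u : G} (hu1 : u ≠ 1) : g * u * g⁻¹ ≠ 1 := by
  intro h
  apply hu1
  have : u = g⁻¹ * (g * u * g⁻¹) * g := by group
  rw [this, h]; group

theorem conj_mul_self {G : Type*} [Group G] {g u : G} (hu2 : u * u = 1) :
    (g * u * g⁻¹) * (g * u * g⁻¹) = 1 := by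
  calc (g * u * g⁻¹) * (g * u * g⁻¹) = g * (u * u) * g⁻¹ := by group
    _ = 1 := by rw [hu2]; group

theorem conj_ne_one' {G : Type*} [Group G] {g u : G} (hu1 : u ≠ 1) : g⁻¹ * u * g ≠ 1 := by
  have := conj_ne_one (g := g⁻¹) hu1
  rwa [inv_inv] at this

theorem conj_mul_self' {G : Type*} [Group G] {g u : G} (hu2 : u * u = 1) :
    (g⁻¹ * u * g) * (g⁻¹ * u * g) = 1 := by
  have := conj_mul_self (g := g⁻¹) hu2
  rwa [inv_inv] at this

variable {G Ω : Type*} [Group G] [Finite G] [MulAction G Ω] {a : Ω} {t : G} {Q : Subgroup G}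

/-- the relation between an involution `s` of `G_a` and the inverted element `d` with
`t s t = q (d t) q⁻¹` for some `q ∈ Q` -/
def Rel (Q : Subgroup G) (t s d : G) : Prop := ∃ q ∈ Q, t * s * t = q * (d * t) * q⁻¹

variable (hS : Cfsg.IsRankOneSetup G Ω a t Q)
include hS

theorem D_le : stabilizer G a ⊓ stabilizer G (t • a) ≤ stabilizer G a := inf_le_left

/-- `t` normalises the two-point stabiliser -/
theorem t_conj_mem_D {d : G} (hd : d ∈ stabilizer G a ⊓ stabilizer G (t • a)) :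
    t * d * t⁻¹ ∈ stabilizer G a ⊓ stabilizer G (t • a) := by
  have hda : d • a = a := mem_stabilizer_iff.mp (Subgroup.mem_inf.mp hd).1
  have hdb : d • (t • a) = t • a := mem_stabilizer_iff.mp (Subgroup.mem_inf.mp hd).2
  rw [t_inv hS]
  refine Subgroup.mem_inf.mpr ⟨?_, ?_⟩
  · rw [mem_stabilizer_iff, mul_smul, mul_smul, hdb, t_smul_t_smul hS]
  · rw [mem_stabilizer_iff, mul_smul, mul_smul, t_smul_t_smul hS, hda]

theorem K_involution {d : G} (hd : d ∈ Cfsg.invertedBy (stabilizer G a ⊓ stabilizer G (t • a)) t) :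
    d * t ≠ 1 ∧ (d * t) * (d * t) = 1 := by
  constructor
  · intro h
    apply hS.not_mem
    have : t = d⁻¹ := by
      calc t = d⁻¹ * (d * t) := by group
        _ = d⁻¹ := by rw [h, mul_one]
    rw [this]
    exact inv_mem (D_le hS hd.1)
  · calc (d * t) * (d * t) = d * (t * d * t⁻¹) * (t * t) := by group
      _ = 1 := by rw [hd.2, hS.mul_self]; group

/-- an involution outside `G_a` is `q (d t) q⁻¹` with `q ∈ Q` and `d ∈ D` inverted by `t` -/
theorem involution_canonical {u : G} (hu2 : u * u = 1) (hu : u ∉ stabilizer G a) :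
    ∃ q ∈ Q, ∃ d ∈ Cfsg.invertedBy (stabilizer G a ⊓ stabilizer G (t • a)) t, u = q * (d * t) * q⁻¹ := by
  obtain ⟨x, hx, y, hy, hxy⟩ := exists_canonical hS hu
  obtain ⟨q, hq, d, hd, rfl⟩ := exists_mul_of_mem_stabilizer hS hx
  have huinv : u⁻¹ = u := inv_eq_of_mul_eq_one_left hu2
  have ht := t_inv hS
  have h1 : u = (y⁻¹ * (t * d⁻¹ * t⁻¹)) * t * q⁻¹ := by
    calc u = u⁻¹ := huinv.symm
      _ = (q * d * t * y)⁻¹ := by rw [hxy]
      _ = y⁻¹ * t⁻¹ * d⁻¹ * q⁻¹ := by group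
      _ = y⁻¹ * t * d⁻¹ * q⁻¹ := by rw [ht]
      _ = (y⁻¹ * (t * d⁻¹ * t⁻¹)) * t * q⁻¹ := by group
  have h2 : y⁻¹ * (t * d⁻¹ * t⁻¹) ∈ stabilizer G a :=
    mul_mem (hS.le (inv_mem hy)) (D_le hS (t_conj_mem_D hS (inv_mem hd)))
  have h3 := canonical_unique hS hx h2 hy (inv_mem hq) (hxy.symm.trans h1)
  obtain ⟨h4, h5⟩ := h3
  subst h5
  have h6 : d = t * d⁻¹ * t⁻¹ := by
    have : q * d = q * (t * d⁻¹ * t⁻¹) := by rw [h4]; group
    exact mul_left_cancel this
  have h7 : t * d * t⁻¹ = d⁻¹ := by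
    calc t * d * t⁻¹ = (t * d⁻¹ * t⁻¹)⁻¹ := by group
      _ = d⁻¹ := by rw [← h6]
  exact ⟨q, hq, d, ⟨hd, h7⟩, by rw [hxy]; group⟩

theorem involution_canonical_unique {q q' d d' : G} (hq : q ∈ Q) (hq' : q' ∈ Q)
    (hd : d ∈ Cfsg.invertedBy (stabilizer G a ⊓ stabilizer G (t • a)) t)
    (hd' : d' ∈ Cfsg.invertedBy (stabilizer G a ⊓ stabilizer G (t • a)) t)
    (h : q * (d * t) * q⁻¹ = q' * (d' * t) * q'⁻¹) : q = q' ∧ d = d' := by
  have h1 : (q * d) * t * q⁻¹ = (q' * d') * t * q'⁻¹ := by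
    calc (q * d) * t * q⁻¹ = q * (d * t) * q⁻¹ := by group
      _ = q' * (d' * t) * q'⁻¹ := h
      _ = (q' * d') * t * q'⁻¹ := by group
  obtain ⟨h2, h3⟩ := canonical_unique hS (mul_mem (hS.le hq) (D_le hS hd.1))
    (mul_mem (hS.le hq') (D_le hS hd'.1)) (inv_mem hq) (inv_mem hq') h1
  have h4 : q = q' := inv_injective h3
  subst h4
  exact ⟨rfl, mul_left_cancel h2⟩

/-- the fixed point of `t` is not `a` -/
theorem exists_fixed_t : ∃ c : Ω, t • c = c ∧ c ≠ a := by
  obtain ⟨c, hc, -⟩ := involution_existsUnique_fixed hS hS.ne_one hS.mul_self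
  refine ⟨c, hc, ?_⟩
  intro h
  rw [h] at hc
  exact t_smul_ne hS hc

/-- the structure equation: existence -/
theorem structure_exists :
    ∃ s r : G, s ∈ Cfsg.involutionsIn (stabilizer G a : Set G) ∧ r ∈ Q ∧ t * s * t = r⁻¹ * t * r := by
  obtain ⟨c, hc, hca⟩ := exists_fixed_t hS
  obtain ⟨r, hr, hrc⟩ := exists_mem_smul_eq hS hca
  have hrc' : r⁻¹ • c = t • a := by rw [← hrc, inv_smul_smul]
  refine ⟨(t * r⁻¹) * t * (t * r⁻¹)⁻¹, r, ⟨?_, conj_ne_one hS.ne_one, conj_mul_self hS.mul_self⟩, hr, ?_⟩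
  · show (t * r⁻¹) * t * (t * r⁻¹)⁻¹ ∈ stabilizer G a
    rw [mem_stabilizer_iff]
    have : (t * r⁻¹) * t * (t * r⁻¹)⁻¹ = t * r⁻¹ * t * r * t := by
      rw [mul_inv_rev, inv_inv, t_inv hS]; group
    rw [this, mul_smul, mul_smul, mul_smul, mul_smul, hrc, hc, hrc', t_smul_t_smul hS]
  · calc t * ((t * r⁻¹) * t * (t * r⁻¹)⁻¹) * t = (t * t) * r⁻¹ * t * r := by group
      _ = r⁻¹ * t * r := by rw [hS.mul_self, one_mul]

/-- the structure equation: uniqueness -/
theorem structure_unique {s r s' r' : G} (hs : s ∈ Cfsg.involutionsIn (stabilizer G a : Set G))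
    (hr : r ∈ Q) (h : t * s * t = r⁻¹ * t * r)
    (hs' : s' ∈ Cfsg.involutionsIn (stabilizer G a : Set G))
    (hr' : r' ∈ Q) (h' : t * s' * t = r'⁻¹ * t * r') : s = s' ∧ r = r' := by
  obtain ⟨c, hc, hca⟩ := exists_fixed_t hS
  have key : ∀ {s r : G}, s ∈ Cfsg.involutionsIn (stabilizer G a : Set G) → r ∈ Q →
      t * s * t = r⁻¹ * t * r → r • (t • a) = c := by
    intro s r hs hr h
    have hw1 : r⁻¹ * t * r ≠ 1 := conj_ne_one' hS.ne_one
    have hw2 : (r⁻¹ * t * r) * (r⁻¹ * t * r) = 1 := conj_mul_self' hS.mul_self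
    have hfix1 : (r⁻¹ * t * r) • (r⁻¹ • c) = r⁻¹ • c := by
      rw [mul_smul, mul_smul, smul_inv_smul, hc]
    have hfix2 : (r⁻¹ * t * r) • (t • a) = t • a := by
      rw [← h, mul_smul, mul_smul, t_smul_t_smul hS, mem_stabilizer_iff.mp hs.1]
    have := involution_fixed_unique hS hw1 hw2 hfix1 hfix2
    rw [← this, smul_inv_smul]
  have h1 := key hs hr h
  have h2 := key hs' hr' h'
  have h3 : r = r' := eq_of_smul_eq hS hr hr' (t_smul_ne hS) (h1.trans h2.symm)
  subst h3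
  refine ⟨?_, rfl⟩
  have h4 : t * s * t = t * s' * t := h.trans h'.symm
  exact mul_left_cancel (mul_right_cancel h4)

theorem structure_existsUnique :
    ∃! p : G × G, p.1 ∈ Cfsg.involutionsIn (stabilizer G a : Set G) ∧ p.2 ∈ Q ∧
      t * p.1 * t = p.2⁻¹ * t * p.2 := by
  obtain ⟨s, r, hs, hr, h⟩ := structure_exists hS
  refine ⟨(s, r), ⟨hs, hr, h⟩, ?_⟩
  rintro ⟨s', r'⟩ ⟨hs', hr', h'⟩
  obtain ⟨h1, h2⟩ := structure_unique hS hs' hr' h' hs hr h
  simp only at h1 h2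
  rw [h1, h2]

/-- `t s t` is an involution outside `G_a` when `s` is an involution of `G_a` -/
theorem tst_not_mem {s : G} (hs : s ∈ Cfsg.involutionsIn (stabilizer G a : Set G)) :
    t * s * t ∉ stabilizer G a := by
  intro h
  have h1 : (t * s * t) • (t • a) = t • a := by
    rw [mul_smul, mul_smul, t_smul_t_smul hS, mem_stabilizer_iff.mp hs.1]
  have hw1 : t * s * t ≠ 1 := by
    have := conj_ne_one (g := t) hs.2.1
    rwa [t_inv hS] at this
  have hw2 : (t * s * t) * (t * s * t) = 1 := by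
    have := conj_mul_self (g := t) hs.2.2
    rwa [t_inv hS] at this
  exact t_smul_ne hS (involution_fixed_unique hS hw1 hw2 h1 (mem_stabilizer_iff.mp h))

theorem tst_mul_self {s : G} (hs : s ∈ Cfsg.involutionsIn (stabilizer G a : Set G)) :
    (t * s * t) * (t * s * t) = 1 := by
  have := conj_mul_self (g := t) hs.2.2
  rwa [t_inv hS] at this

theorem rel_exists {s : G} (hs : s ∈ Cfsg.involutionsIn (stabilizer G a : Set G)) :
    ∃ d ∈ Cfsg.invertedBy (stabilizer G a ⊓ stabilizer G (t • a)) t, Rel Q t s d := by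
  obtain ⟨q, hq, d, hd, h⟩ := involution_canonical hS (tst_mul_self hS hs) (tst_not_mem hS hs)
  exact ⟨d, hd, q, hq, h⟩

theorem rel_unique_right {s d d' : G}
    (hd : d ∈ Cfsg.invertedBy (stabilizer G a ⊓ stabilizer G (t • a)) t)
    (hd' : d' ∈ Cfsg.invertedBy (stabilizer G a ⊓ stabilizer G (t • a)) t)
    (h : Rel Q t s d) (h' : Rel Q t s d') : d = d' := by
  obtain ⟨q, hq, h1⟩ := h
  obtain ⟨q', hq', h2⟩ := h'
  exact (involution_canonical_unique hS hq hq' hd hd' (h1.symm.trans h2)).2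

/-- the fixed point of `d t` is not `a` -/
theorem exists_fixed_dt {d : G} (hd : d ∈ Cfsg.invertedBy (stabilizer G a ⊓ stabilizer G (t • a)) t) :
    ∃ c : Ω, (d * t) • c = c ∧ c ≠ a := by
  obtain ⟨h1, h2⟩ := K_involution hS hd
  obtain ⟨c, hc, -⟩ := involution_existsUnique_fixed hS h1 h2
  refine ⟨c, hc, ?_⟩
  intro h
  rw [h, mul_smul, mem_stabilizer_iff.mp (Subgroup.mem_inf.mp hd.1).2] at hc
  exact t_smul_ne hS hc

theorem rel_exists_left {d : G} (hd : d ∈ Cfsg.invertedBy (stabilizer G a ⊓ stabilizer G (t • a)) t) :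
    ∃ s ∈ Cfsg.involutionsIn (stabilizer G a : Set G), Rel Q t s d := by
  obtain ⟨h1, h2⟩ := K_involution hS hd
  obtain ⟨c, hc, hca⟩ := exists_fixed_dt hS hd
  obtain ⟨⟨q, hq⟩, hqc, -⟩ := existsUnique_smul_eq hS hca (t_smul_ne hS)
  have hqc' : q • c = t • a := hqc
  have hqc'' : q⁻¹ • (t • a) = c := by rw [← hqc', inv_smul_smul]
  have hw1 : q * (d * t) * q⁻¹ ≠ 1 := conj_ne_one h1
  have hw2 : (q * (d * t) * q⁻¹) * (q * (d * t) * q⁻¹) = 1 := conj_mul_self h2
  refine ⟨t * (q * (d * t) * q⁻¹) * t, ⟨?_, ?_, ?_⟩, q, hq, ?_⟩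
  · show t * (q * (d * t) * q⁻¹) * t ∈ stabilizer G a
    rw [mem_stabilizer_iff, mul_smul, mul_smul, mul_smul, mul_smul, hqc'', hc, hqc', t_smul_t_smul hS]
  · have := conj_ne_one (g := t) hw1
    rwa [t_inv hS] at this
  · have := conj_mul_self (g := t) hw2
    rwa [t_inv hS] at this
  · calc t * (t * (q * (d * t) * q⁻¹) * t) * t = (t * t) * (q * (d * t) * q⁻¹) * (t * t) := by group
      _ = q * (d * t) * q⁻¹ := by rw [hS.mul_self]; group

theorem rel_unique_left {s s' d : G} (hs : s ∈ Cfsg.involutionsIn (stabilizer G a : Set G))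
    (hs' : s' ∈ Cfsg.involutionsIn (stabilizer G a : Set G))
    (hd : d ∈ Cfsg.invertedBy (stabilizer G a ⊓ stabilizer G (t • a)) t)
    (h : Rel Q t s d) (h' : Rel Q t s' d) : s = s' := by
  obtain ⟨h1, h2⟩ := K_involution hS hd
  obtain ⟨c, hc, hca⟩ := exists_fixed_dt hS hd
  have key : ∀ {s q : G}, s ∈ Cfsg.involutionsIn (stabilizer G a : Set G) → q ∈ Q →
      t * s * t = q * (d * t) * q⁻¹ → q • c = t • a := by
    intro s q hs hq h
    have hw1 : q * (d * t) * q⁻¹ ≠ 1 := conj_ne_one h1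
    have hw2 : (q * (d * t) * q⁻¹) * (q * (d * t) * q⁻¹) = 1 := conj_mul_self h2
    have hfix1 : (q * (d * t) * q⁻¹) • (q • c) = q • c := by
      rw [mul_smul, mul_smul, inv_smul_smul, hc]
    have hfix2 : (q * (d * t) * q⁻¹) • (t • a) = t • a := by
      rw [← h, mul_smul, mul_smul, t_smul_t_smul hS, mem_stabilizer_iff.mp hs.1]
    exact involution_fixed_unique hS hw1 hw2 hfix1 hfix2
  obtain ⟨q, hq, e1⟩ := h
  obtain ⟨q', hq', e2⟩ := h'
  have h3 : q = q' := eq_of_smul_eq hS hq hq' hca ((key hs hq e1).trans (key hs' hq' e2).symm)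
  subst h3
  have h4 : t * s * t = t * s' * t := e1.trans e2.symm
  exact mul_left_cancel (mul_right_cancel h4)

theorem rel_conj {s d k : G} (hk : k ∈ Cfsg.invertedBy (stabilizer G a ⊓ stabilizer G (t • a)) t)
    (h : Rel Q t s d) : Rel Q t (k⁻¹ * s * k) (k * d * k) := by
  obtain ⟨q, hq, h⟩ := h
  refine ⟨k * q * k⁻¹, hS.conj_mem k (D_le hS hk.1) q hq, ?_⟩
  have ht := t_inv hS
  have hA : t * k * t = k⁻¹ := by
    have := hk.2
    rwa [ht] at this
  have hB : t * k⁻¹ * t = k := by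
    calc t * k⁻¹ * t = (t⁻¹ * k * t⁻¹)⁻¹ := by group
      _ = k := by rw [ht, hA, inv_inv]
  have hC : k * t * k = t := by
    calc k * t * k = k * t * k * (t * t) := by rw [hS.mul_self, mul_one]
      _ = k * (t * k * t) * t := by group
      _ = t := by rw [hA]; group
  calc t * (k⁻¹ * s * k) * t = t * k⁻¹ * (t * t) * s * (t * t) * k * t := by rw [hS.mul_self]; group
    _ = (t * k⁻¹ * t) * (t * s * t) * (t * k * t) := by group
    _ = k * (q * (d * t) * q⁻¹) * k⁻¹ := by rw [hB, h, hA]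
    _ = k * q * d * (k * t * k) * q⁻¹ * k⁻¹ := by rw [hC]; group
    _ = (k * q * k⁻¹) * ((k * d * k) * t) * (k * q * k⁻¹)⁻¹ := by group

theorem conj_mem_involutionsIn {s k : G} (hs : s ∈ Cfsg.involutionsIn (stabilizer G a : Set G))
    (hk : k ∈ stabilizer G a) : k⁻¹ * s * k ∈ Cfsg.involutionsIn (stabilizer G a : Set G) :=
  ⟨mul_mem (mul_mem (inv_mem hk) hs.1) hk, conj_ne_one' hs.2.1, conj_mul_self' hs.2.2⟩

/-- the inverted elements of `D` are as many as the involutions of `G_a` -/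
theorem card_invertedBy_eq :
    Nat.card (Cfsg.invertedBy (stabilizer G a ⊓ stabilizer G (t • a)) t) =
      Nat.card (Cfsg.involutionsIn (stabilizer G a : Set G)) := by
  symm
  have hex : ∀ s : ↥(Cfsg.involutionsIn (stabilizer G a : Set G)),
      ∃ d : ↥(Cfsg.invertedBy (stabilizer G a ⊓ stabilizer G (t • a)) t), Rel Q t s.1 d.1 := by
    intro s
    obtain ⟨d, hd, h⟩ := rel_exists hS s.2
    exact ⟨⟨d, hd⟩, h⟩
  choose f hf using hex
  apply Nat.card_congr
  refine Equiv.ofBijective f ⟨?_, ?_⟩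
  · intro s s' h
    have h1 := hf s
    have h2 := hf s'
    rw [h] at h1
    exact Subtype.ext (rel_unique_left hS s.2 s'.2 (f s').2 h1 h2)
  · intro d
    obtain ⟨s, hs, h⟩ := rel_exists_left hS d.2
    refine ⟨⟨s, hs⟩, ?_⟩
    exact Subtype.ext (rel_unique_right hS (f ⟨s, hs⟩).2 d.2 (hf ⟨s, hs⟩) h)

/-- any two involutions of `G_a` are conjugate by an inverted element of `D` -/
theorem exists_conj_invertedBy {s s' : G} (hs : s ∈ Cfsg.involutionsIn (stabilizer G a : Set G))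
    (hs' : s' ∈ Cfsg.involutionsIn (stabilizer G a : Set G)) :
    ∃ k ∈ Cfsg.invertedBy (stabilizer G a ⊓ stabilizer G (t • a)) t, k⁻¹ * s * k = s' := by
  obtain ⟨d, hd, h⟩ := rel_exists hS hs
  obtain ⟨d', hd', h'⟩ := rel_exists hS hs'
  obtain ⟨k, hk, hkd⟩ := exists_mul_mul_eq hS.odd_card hd hd'
  refine ⟨k, hk, ?_⟩
  have h1 := rel_conj hS hk h
  rw [hkd] at h1
  exact rel_unique_left hS (conj_mem_involutionsIn hS hs (D_le hS hk.1)) hs' hd' h1 h'

end Cfsg.Agent.Lib.Helper19.RankOne2
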