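import Mathlib
import Cfsg.Prelude.Def_LieRecognition
import Cfsg.Prelude.Def_Solvable
import Cfsg.Agent.Lib.Helper19.OddInv
import Cfsg.Agent.Lib.Helper19.OddInv2
import Cfsg.Agent.Lib.Helper19.RankOne
import Cfsg.Agent.Lib.Helper19.RankOne2

/-!
Helper library (helper19): the rank-one set-up, third part.
Centralisers of subsets of the two-point stabiliser fixing at least three points; normal subgroups of odd order.
-/

set_option autoImplicit false
set_option linter.unusedSectionVars false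

namespace Cfsg.Agent.Lib.Helper19.RankOne3

open MulAction
open Cfsg.Agent.Lib.Helper19.OddInv Cfsg.Agent.Lib.Helper19.OddInv2 Cfsg.Agent.Lib.Helper19.RankOne
open Cfsg.Agent.Lib.Helper19.RankOne2

variable {G Ω : Type*} [Group G] [Finite G] [MulAction G Ω] {a : Ω} {t : G} {Q : Subgroup G}
variable (hS : Cfsg.IsRankOneSetup G Ω a t Q)
include hS

omit hS [Finite G] in
/-- the centraliser of `X` preserves the fixed points of `X` -/
theorem smul_fixed_of_mem_centralizer {X : Set G} {h : G} (hh : h ∈ Subgroup.centralizer X) {c : Ω}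
    (hc : ∀ x ∈ X, x • c = c) : ∀ x ∈ X, x • (h • c) = h • c := by
  intro x hx
  have := (Subgroup.mem_centralizer_iff.mp hh) x hx
  rw [← mul_smul, this, mul_smul, hc x hx]

/-- if `X` fixes `g • a`, `c`, `c'` (the latter two different from `g • a`), the element of `g Q g⁻¹` moving
`c` to `c'` centralises `X` -/
theorem exists_Q_conj_centralizer {X : Set G} {g : G} {c c' : Ω} (he : ∀ x ∈ X, x • (g • a) = g • a)
    (hc : ∀ x ∈ X, x • c = c) (hc' : ∀ x ∈ X, x • c' = c') (hce : c ≠ g • a) (hce' : c' ≠ g • a) :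
    ∃ q ∈ Q, g * q * g⁻¹ ∈ Subgroup.centralizer X ∧ (g * q * g⁻¹) • c = c' := by
  have h1 : g⁻¹ • c ≠ a := by
    intro h; apply hce; rw [← h, smul_inv_smul]
  have h2 : g⁻¹ • c' ≠ a := by
    intro h; apply hce'; rw [← h, smul_inv_smul]
  obtain ⟨⟨q, hq⟩, hqc, -⟩ := existsUnique_smul_eq hS h1 h2
  have hqc' : q • g⁻¹ • c = g⁻¹ • c' := hqc
  refine ⟨q, hq, ?_, ?_⟩
  · rw [Subgroup.mem_centralizer_iff]
    intro x hx
    have hy : g⁻¹ * x * g ∈ stabilizer G a := by
      rw [mem_stabilizer_iff, mul_smul, mul_smul, he x hx, inv_smul_smul]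
    have hyq : (g⁻¹ * x * g) * q * (g⁻¹ * x * g)⁻¹ ∈ Q := hS.conj_mem _ hy q hq
    have hxinv : x⁻¹ • c = c := by
      calc x⁻¹ • c = x⁻¹ • (x • c) := by rw [hc x hx]
        _ = c := inv_smul_smul x c
    have h3 : ((g⁻¹ * x * g) * q * (g⁻¹ * x * g)⁻¹) • (g⁻¹ • c) = g⁻¹ • c' := by
      have : (g⁻¹ * x * g) * q * (g⁻¹ * x * g)⁻¹ = g⁻¹ * x * g * q * g⁻¹ * x⁻¹ * g := by group
      rw [this]
      simp only [mul_smul]
      rw [smul_inv_smul, hxinv, hqc', smul_inv_smul, hc' x hx]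
    have h4 := eq_of_smul_eq hS hyq hq h1 (h3.trans hqc'.symm)
    calc x * (g * q * g⁻¹) = g * ((g⁻¹ * x * g) * q * (g⁻¹ * x * g)⁻¹) * g⁻¹ * x := by group
      _ = (g * q * g⁻¹) * x := by rw [h4]
  · rw [mul_smul, mul_smul, hqc', smul_inv_smul]

/-- if `X` fixes `e`, `c`, `c'` (the latter two different from `e`), some element of `C_G(X)` fixes `e`
and moves `c` to `c'` -/
theorem exists_centralizer_smul {X : Set G} {e c c' : Ω} (he : ∀ x ∈ X, x • e = e)
    (hc : ∀ x ∈ X, x • c = c) (hc' : ∀ x ∈ X, x • c' = c') (hce : c ≠ e) (hce' : c' ≠ e) :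
    ∃ h ∈ Subgroup.centralizer X, h • e = e ∧ h • c = c' := by
  obtain ⟨g, rfl⟩ := exists_smul_eq' hS a e
  obtain ⟨q, hq, h1, h2⟩ := exists_Q_conj_centralizer hS he hc hc' hce hce'
  refine ⟨g * q * g⁻¹, h1, ?_, h2⟩
  rw [mul_smul, mul_smul, inv_smul_smul, mem_stabilizer_iff.mp (hS.le hq)]

/-- base point `a`: the element of `Q` moving `c` to `c'` centralises `X` -/
theorem exists_centralizer_Q_smul {X : Set G} {c c' : Ω} (ha : ∀ x ∈ X, x • a = a)
    (hc : ∀ x ∈ X, x • c = c) (hc' : ∀ x ∈ X, x • c' = c') (hca : c ≠ a) (hca' : c' ≠ a) :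
    ∃ q ∈ Q, q ∈ Subgroup.centralizer X ∧ q • c = c' := by
  have := exists_Q_conj_centralizer hS (X := X) (g := 1) (c := c) (c' := c') (by simpa using ha) hc hc'
    (by simpa using hca) (by simpa using hca')
  simpa using this

/-- `C_G(X)` is transitive on the fixed points of `X` when there are at least three -/
theorem exists_centralizer_smul_eq {X : Set G}
    (h3 : ∃ b c d : Ω, b ≠ c ∧ b ≠ d ∧ c ≠ d ∧ ∀ x ∈ X, x • b = b ∧ x • c = c ∧ x • d = d) {p p' : Ω}
    (hp : ∀ x ∈ X, x • p = p) (hp' : ∀ x ∈ X, x • p' = p') :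
    ∃ h ∈ Subgroup.centralizer X, h • p = p' := by
  by_cases hpp : p = p'
  · exact ⟨1, one_mem _, by rw [one_smul, hpp]⟩
  · obtain ⟨b, c, d, hbc, hbd, hcd, hfix⟩ := h3
    obtain ⟨e, he, hep, hep'⟩ : ∃ e : Ω, (∀ x ∈ X, x • e = e) ∧ p ≠ e ∧ p' ≠ e := by
      by_cases h1 : p ≠ b ∧ p' ≠ b
      · exact ⟨b, fun x hx => (hfix x hx).1, h1.1, h1.2⟩
      · by_cases h2 : p ≠ c ∧ p' ≠ c
        · exact ⟨c, fun x hx => (hfix x hx).2.1, h2.1, h2.2⟩
        · refine ⟨d, fun x hx => (hfix x hx).2.2, ?_, ?_⟩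
          · intro h
            subst h
            have hp'b : p' = b := by
              by_contra h'
              exact h1 ⟨fun h'' => hbd h''.symm, h'⟩
            have hp'c : p' = c := by
              by_contra h'
              exact h2 ⟨fun h'' => hcd h''.symm, h'⟩
            exact hbc (hp'b.symm.trans hp'c)
          · intro h
            subst h
            have hpb : p = b := by
              by_contra h'
              exact h1 ⟨h', fun h'' => hbd h''.symm⟩
            have hpc : p = c := by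
              by_contra h'
              exact h2 ⟨h', fun h'' => hcd h''.symm⟩
            exact hbc (hpb.symm.trans hpc)
    obtain ⟨h, hh, -, hh2⟩ := exists_centralizer_smul hS he hp hp' hep hep'
    exact ⟨h, hh, hh2⟩

/-- `C_G(X)` is doubly transitive on the fixed points of `X` when there are at least three -/
theorem exists_centralizer_smul_smul {X : Set G}
    (h3 : ∃ b c d : Ω, b ≠ c ∧ b ≠ d ∧ c ≠ d ∧ ∀ x ∈ X, x • b = b ∧ x • c = c ∧ x • d = d)
    {b₁ b₂ c₁ c₂ : Ω} (hb₁ : ∀ x ∈ X, x • b₁ = b₁) (hb₂ : ∀ x ∈ X, x • b₂ = b₂)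
    (hc₁ : ∀ x ∈ X, x • c₁ = c₁) (hc₂ : ∀ x ∈ X, x • c₂ = c₂) (hb : b₁ ≠ b₂) (hc : c₁ ≠ c₂) :
    ∃ g ∈ Subgroup.centralizer X, g • b₁ = c₁ ∧ g • b₂ = c₂ := by
  obtain ⟨h₁, hh₁, e₁⟩ := exists_centralizer_smul_eq hS h3 hb₁ hc₁
  have hfix : ∀ x ∈ X, x • (h₁ • b₂) = h₁ • b₂ := smul_fixed_of_mem_centralizer hh₁ hb₂
  have hne : h₁ • b₂ ≠ c₁ := by
    rw [← e₁]
    intro h
    exact hb (smul_left_cancel h₁ h).symm
  obtain ⟨h₂, hh₂, e₂, e₃⟩ := exists_centralizer_smul hS hc₁ hfix hc₂ hne hc.symm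
  exact ⟨h₂ * h₁, mul_mem hh₂ hh₁, by rw [mul_smul, e₁, e₂], by rw [mul_smul, e₃]⟩

section twoPoint

variable {X : Set G} (hX : X ⊆ ((stabilizer G a ⊓ stabilizer G (t • a) : Subgroup G) : Set G))
  (h3 : ∃ b c d : Ω, b ≠ c ∧ b ≠ d ∧ c ≠ d ∧ ∀ x ∈ X, x • b = b ∧ x • c = c ∧ x • d = d)
include hX h3

omit h3 hS [Finite G] in
theorem fix_a : ∀ x ∈ X, x • a = a :=
  fun _ hx => mem_stabilizer_iff.mp (Subgroup.mem_inf.mp (hX hx)).1

omit h3 hS [Finite G] in
theorem fix_b : ∀ x ∈ X, x • (t • a) = t • a :=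
  fun _ hx => mem_stabilizer_iff.mp (Subgroup.mem_inf.mp (hX hx)).2

/-- `C_G(X)` contains an involution -/
theorem exists_involution_centralizer : ∃ i ∈ Subgroup.centralizer X, i ≠ 1 ∧ i * i = 1 := by
  have ha := fix_a hX
  have hb := fix_b hX
  obtain ⟨g, hg, e1, e2⟩ :=
    exists_centralizer_smul_smul hS h3 ha hb hb ha (t_smul_ne hS).symm (t_smul_ne hS)
  have hn : 0 < orderOf g := orderOf_pos g
  have heven : Even (orderOf g) := by
    rw [← Nat.not_odd_iff_even]
    rintro ⟨m, hm⟩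
    have h1 : (g ^ 2) ^ (m + 1) = g := by
      rw [← pow_mul]
      have : 2 * (m + 1) = orderOf g + 1 := by omega
      rw [this, pow_succ, pow_orderOf_eq_one, one_mul]
    have h2 : (g ^ 2) • a = a := by rw [pow_two, mul_smul, e1, e2]
    have h3' : ((g ^ 2) ^ (m + 1)) • a = a := by
      have : g ^ 2 ∈ stabilizer G a := mem_stabilizer_iff.mpr h2
      exact mem_stabilizer_iff.mp (pow_mem this _)
    rw [h1, e1] at h3'
    exact t_smul_ne hS h3'
  obtain ⟨k, hk⟩ := heven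
  refine ⟨g ^ k, pow_mem hg k, pow_ne_one_of_lt_orderOf (by omega) (by omega), ?_⟩
  rw [← pow_add, ← hk, pow_orderOf_eq_one]

/-- `C_Q(X)` contains an involution -/
theorem exists_involution_centralizer_Q : ∃ i ∈ Subgroup.centralizer X ⊓ Q, i ≠ 1 ∧ i * i = 1 := by
  have ha := fix_a hX
  obtain ⟨i, hi, hi1, hi2⟩ := exists_involution_centralizer hS hX h3
  obtain ⟨p, hp, -⟩ := involution_existsUnique_fixed hS hi1 hi2
  have hpfix : ∀ x ∈ X, x • p = p := by
    intro x hx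
    exact smul_eq_of_commute hS hi1 hi2 ((Subgroup.mem_centralizer_iff.mp hi) x hx) hp
  obtain ⟨h, hh, e⟩ := exists_centralizer_smul_eq hS h3 hpfix ha
  refine ⟨h * i * h⁻¹, Subgroup.mem_inf.mpr ⟨mul_mem (mul_mem hh hi) (inv_mem hh), ?_⟩,
    conj_ne_one hi1, conj_mul_self hi2⟩
  apply involution_mem_Q hS _ (conj_ne_one hi1) (conj_mul_self hi2)
  rw [mem_stabilizer_iff, mul_smul, mul_smul, ← e, inv_smul_smul, hp]

theorem even_card_centralizer_Q : Even (Nat.card ↥(Subgroup.centralizer X ⊓ Q)) := by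
  obtain ⟨i, hi, hi1, hi2⟩ := exists_involution_centralizer_Q hS hX h3
  have h1 : orderOf i = 2 := orderOf_eq_prime (by rw [pow_two]; exact hi2) hi1
  have h2 := Subgroup.orderOf_dvd_natCard _ hi
  rw [h1] at h2
  exact even_iff_two_dvd.mpr h2

/-- `C_G(X)` contains an involution interchanging `a` and `t • a` -/
theorem exists_involution_swap :
    ∃ u ∈ Subgroup.centralizer X, u ≠ 1 ∧ u * u = 1 ∧ u • a = t • a := by
  have ha := fix_a hX
  have hb := fix_b hX
  obtain ⟨i, hi, hi1, hi2⟩ := exists_involution_centralizer hS hX h3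
  obtain ⟨p, hp, -⟩ := involution_existsUnique_fixed hS hi1 hi2
  obtain ⟨e, he, hep⟩ : ∃ e, (∀ x ∈ X, x • e = e) ∧ e ≠ p := by
    by_cases h : p = a
    · exact ⟨t • a, hb, by rw [h]; exact t_smul_ne hS⟩
    · exact ⟨a, ha, fun h' => h h'.symm⟩
  have hie : i • e ≠ e := fun h => hep (involution_fixed_unique hS hi1 hi2 h hp)
  have hiefix : ∀ x ∈ X, x • (i • e) = i • e := smul_fixed_of_mem_centralizer hi he
  obtain ⟨h, hh, e1, e2⟩ :=
    exists_centralizer_smul_smul hS h3 he hiefix ha hb hie.symm (t_smul_ne hS).symm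
  refine ⟨h * i * h⁻¹, mul_mem (mul_mem hh hi) (inv_mem hh), conj_ne_one hi1, conj_mul_self hi2, ?_⟩
  have e1' : h⁻¹ • a = e := by rw [← e1, inv_smul_smul]
  rw [mul_smul, mul_smul, e1', e2]

omit hX h3 in
/-- an involution interchanging `a` and `t • a` is `d t` with `d` inverted by `t` -/
theorem swap_mul_t_mem {u : G} (hu2 : u * u = 1) (hua : u • a = t • a) :
    u * t ∈ Cfsg.invertedBy (stabilizer G a ⊓ stabilizer G (t • a)) t := by
  have hub : u • (t • a) = a := by rw [← hua, ← mul_smul, hu2, one_smul]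
  have huinv : u⁻¹ = u := inv_eq_of_mul_eq_one_left hu2
  refine ⟨Subgroup.mem_inf.mpr ⟨?_, ?_⟩, ?_⟩
  · rw [mem_stabilizer_iff, mul_smul, hub]
  · rw [mem_stabilizer_iff, mul_smul, t_smul_t_smul hS, hua]
  · calc t * (u * t) * t⁻¹ = t * u := by group
      _ = t⁻¹ * u⁻¹ := by rw [t_inv hS, huinv]
      _ = (u * t)⁻¹ := by group

/-- `X` is conjugate under `D` to a subset of `C_D(t)` -/
theorem exists_conj_commute :
    ∃ k ∈ stabilizer G a ⊓ stabilizer G (t • a), ∀ x ∈ X, (k * x * k⁻¹) * t = t * (k * x * k⁻¹) := by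
  obtain ⟨u, hu, hu1, hu2, hua⟩ := exists_involution_swap hS hX h3
  have hd := swap_mul_t_mem hS hu2 hua
  obtain ⟨e, he, hee⟩ := exists_sqrt_invertedBy hS.odd_card hd
  have hu_eq : u = e * t * e⁻¹ := by
    have h1 : t * e⁻¹ * t⁻¹ = e := by
      calc t * e⁻¹ * t⁻¹ = (t * e * t⁻¹)⁻¹ := by group
        _ = e := by rw [he.2, inv_inv]
    calc u = (u * t) * t⁻¹ := by group
      _ = e * e * t⁻¹ := by rw [hee]
      _ = e * (t * e⁻¹ * t⁻¹) * t⁻¹ := by rw [h1]
      _ = e * t * e⁻¹ * (t⁻¹ * t⁻¹) := by group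
      _ = e * t * e⁻¹ := by rw [t_inv hS, hS.mul_self, mul_one]
  refine ⟨e⁻¹, inv_mem he.1, ?_⟩
  intro x hx
  have hxu : x * u = u * x := (Subgroup.mem_centralizer_iff.mp hu) x hx
  rw [hu_eq] at hxu
  rw [inv_inv]
  calc e⁻¹ * x * e * t = e⁻¹ * (x * (e * t * e⁻¹)) * e := by group
    _ = e⁻¹ * ((e * t * e⁻¹) * x) * e := by rw [hxu]
    _ = t * (e⁻¹ * x * e) := by group

/-- `C_{G_a}(X) = C_Q(X) C_D(X)` -/
theorem centralizer_sup_eq :
    (Subgroup.centralizer X ⊓ Q) ⊔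
      (Subgroup.centralizer X ⊓ (stabilizer G a ⊓ stabilizer G (t • a))) =
        Subgroup.centralizer X ⊓ stabilizer G a := by
  have ha := fix_a hX
  have hb := fix_b hX
  apply le_antisymm
  · apply sup_le
    · exact inf_le_inf_left _ hS.le
    · exact inf_le_inf_left _ inf_le_left
  · intro g hg
    obtain ⟨hgC, hga⟩ := Subgroup.mem_inf.mp hg
    have hgb_ne : g • (t • a) ≠ a := smul_ne_of_mem hga (t_smul_ne hS)
    have hgbfix : ∀ x ∈ X, x • (g • (t • a)) = g • (t • a) := smul_fixed_of_mem_centralizer hgC hb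
    obtain ⟨q, hqQ, hqC, hqb⟩ := exists_centralizer_Q_smul hS ha hb hgbfix (t_smul_ne hS) hgb_ne
    have h1 : q⁻¹ * g ∈ Subgroup.centralizer X ⊓ (stabilizer G a ⊓ stabilizer G (t • a)) := by
      refine Subgroup.mem_inf.mpr ⟨mul_mem (inv_mem hqC) hgC, Subgroup.mem_inf.mpr ⟨?_, ?_⟩⟩
      · exact mul_mem (inv_mem (hS.le hqQ)) hga
      · rw [mem_stabilizer_iff, mul_smul, ← hqb, inv_smul_smul]
    have h2 : g = q * (q⁻¹ * g) := by group
    rw [h2]
    exact Subgroup.mul_mem_sup (Subgroup.mem_inf.mpr ⟨hqC, hqQ⟩) h1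

end twoPoint

/-- a non-identity element of `D` inverted by `t` centralises no non-identity element of `Q` -/
theorem inf_centralizer_eq_bot {x : G}
    (hx : x ∈ Cfsg.invertedBy (stabilizer G a ⊓ stabilizer G (t • a)) t) (hx1 : x ≠ 1) :
    Q ⊓ Subgroup.centralizer {x} = ⊥ := by
  rw [Subgroup.eq_bot_iff_forall]
  intro q hq
  obtain ⟨hqQ, hqx⟩ := Subgroup.mem_inf.mp hq
  by_contra hq1
  have hxq : x * q = q * x := (Subgroup.mem_centralizer_iff.mp hqx) x (Set.mem_singleton x)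
  have hxa : x • a = a := mem_stabilizer_iff.mp (Subgroup.mem_inf.mp hx.1).1
  have hxb : x • (t • a) = t • a := mem_stabilizer_iff.mp (Subgroup.mem_inf.mp hx.1).2
  have hqb_ne_b : q • (t • a) ≠ t • a := fun h => hq1 (eq_one_of_smul_eq hS hqQ (t_smul_ne hS) h)
  have hqb_ne_a : q • (t • a) ≠ a := smul_ne_of_mem (hS.le hqQ) (t_smul_ne hS)
  have hxqb : x • (q • (t • a)) = q • (t • a) := by rw [← mul_smul, hxq, mul_smul, hxb]
  have h3 : ∃ b c d : Ω, b ≠ c ∧ b ≠ d ∧ c ≠ d ∧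
      ∀ y ∈ ({x} : Set G), y • b = b ∧ y • c = c ∧ y • d = d :=
    ⟨a, t • a, q • (t • a), (t_smul_ne hS).symm, hqb_ne_a.symm, hqb_ne_b.symm, by
      intro y hy
      rw [Set.mem_singleton_iff] at hy
      subst hy
      exact ⟨hxa, hxb, hxqb⟩⟩
  have hX : ({x} : Set G) ⊆ ((stabilizer G a ⊓ stabilizer G (t • a) : Subgroup G) : Set G) := by
    intro y hy
    rw [Set.mem_singleton_iff] at hy
    subst hy
    exact hx.1
  obtain ⟨u, hu, hu1, hu2, hua⟩ := exists_involution_swap hS hX h3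
  have hd := swap_mul_t_mem hS hu2 hua
  have hxu : x * u = u * x := (Subgroup.mem_centralizer_iff.mp hu) x (Set.mem_singleton x)
  have h : (u * t) * x * (u * t)⁻¹ = x⁻¹ := by
    have h' : u * x⁻¹ = x⁻¹ * u := by
      calc u * x⁻¹ = x⁻¹ * (x * u) * x⁻¹ := by group
        _ = x⁻¹ * (u * x) * x⁻¹ := by rw [hxu]
        _ = x⁻¹ * u := by group
    calc (u * t) * x * (u * t)⁻¹ = u * (t * x * t⁻¹) * u⁻¹ := by group
      _ = (u * x⁻¹) * u⁻¹ := by rw [hx.2]
      _ = x⁻¹ := by rw [h']; group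
  exact hx1 (eq_one_of_conj_eq_inv hS.odd_card hd.1 hx.1 h)

/-- the kernel of the action has odd order -/
theorem odd_card_normalCore : Odd (Nat.card (stabilizer G a).normalCore) := by
  rw [← Nat.not_even_iff_odd, even_iff_two_dvd]
  intro h2
  have : Fact (Nat.Prime 2) := ⟨Nat.prime_two⟩
  obtain ⟨i, hi⟩ := exists_prime_orderOf_dvd_card' 2 h2
  have hi' : orderOf (i : G) = 2 := by rw [Subgroup.orderOf_coe]; exact hi
  have hi1 : (i : G) ≠ 1 := by
    intro h
    rw [h, orderOf_one] at hi'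
    exact absurd hi' (by decide)
  have hi2 : (i : G) * (i : G) = 1 := by
    have := pow_orderOf_eq_one (i : G)
    rwa [hi', pow_two] at this
  have hia : (i : G) • a = a := mem_stabilizer_iff.mp (Subgroup.normalCore_le _ i.2)
  have hconj : t * (i : G) * t⁻¹ ∈ (stabilizer G a).normalCore :=
    (Subgroup.normalCore_normal (stabilizer G a)).conj_mem _ i.2 t
  have hib : (i : G) • (t • a) = t • a := by
    have h1 : (t * (i : G) * t⁻¹) • a = a := mem_stabilizer_iff.mp (Subgroup.normalCore_le _ hconj)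
    rw [t_inv hS, mul_smul, mul_smul] at h1
    calc (i : G) • (t • a) = t • (t • ((i : G) • (t • a))) := by
          rw [← mul_smul t t, hS.mul_self, one_smul]
      _ = t • a := by rw [h1]
  exact t_smul_ne hS (involution_fixed_unique hS hi1 hi2 hib hia)

/-- with two distinct commuting involutions, a normal subgroup of odd order fixes every point -/
theorem le_stabilizer_of_normal_odd {N : Subgroup G} (hN : N.Normal) (hodd : Odd (Nat.card N))
    (h2 : ∃ x y : G, x ≠ 1 ∧ y ≠ 1 ∧ x ≠ y ∧ x * x = 1 ∧ y * y = 1 ∧ x * y = y * x) :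
    N ≤ stabilizer G a := by
  obtain ⟨x, y, hx1, hy1, hxy, hx2, hy2, hcomm⟩ := h2
  obtain ⟨c, hc, -⟩ := involution_existsUnique_fixed hS hx1 hx2
  have hyc : y • c = c := smul_eq_of_commute hS hx1 hx2 hcomm.symm hc
  have hxyne : x * y ≠ 1 := by
    intro h
    apply hxy
    have : y = x⁻¹ := (inv_eq_of_mul_eq_one_right h).symm
    rw [this, inv_eq_of_mul_eq_one_left hx2]
  have hxy2 : (x * y) * (x * y) = 1 := by
    calc (x * y) * (x * y) = x * (y * x) * y := by group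
      _ = x * (x * y) * y := by rw [hcomm]
      _ = (x * x) * (y * y) := by group
      _ = 1 := by rw [hx2, hy2, one_mul]
  have hxyN : x * y ∉ N := by
    intro h
    have h1 : orderOf (x * y) = 2 := orderOf_eq_prime (by rw [pow_two]; exact hxy2) hxyne
    have h2 := Subgroup.orderOf_dvd_natCard N h
    rw [h1] at h2
    exact (Nat.not_even_iff_odd.mpr hodd) (even_iff_two_dvd.mpr h2)
  have key : ∀ g ∈ N, g • c = c := by
    intro g hg
    by_contra hgc
    have hw1 : g * x * g⁻¹ ≠ 1 := conj_ne_one hx1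
    have hw2 : (g * x * g⁻¹) * (g * x * g⁻¹) = 1 := conj_mul_self hx2
    have hwfix : (g * x * g⁻¹) • (g • c) = g • c := by
      rw [mul_smul, mul_smul, inv_smul_smul, hc]
    have hoddn := odd_orderOf_mul hS hw1 hw2 hy1 hy2 hwfix hyc hgc
    have hm : g * (x * g⁻¹ * x⁻¹) ∈ N := mul_mem hg (hN.conj_mem g⁻¹ (inv_mem hg) x)
    have hdecomp : g * x * g⁻¹ * y = (g * (x * g⁻¹ * x⁻¹)) * (x * y) := by group
    have hπ : (QuotientGroup.mk' N) (g * x * g⁻¹ * y) = (QuotientGroup.mk' N) (x * y) := by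
      rw [hdecomp, map_mul]
      have : (QuotientGroup.mk' N) (g * (x * g⁻¹ * x⁻¹)) = 1 := (QuotientGroup.eq_one_iff _).mpr hm
      rw [this, one_mul]
    have h1 : (QuotientGroup.mk' N) (x * y) ^ orderOf (g * x * g⁻¹ * y) = 1 := by
      rw [← hπ, ← map_pow, pow_orderOf_eq_one, map_one]
    have h2 : (QuotientGroup.mk' N) (x * y) ^ 2 = 1 := by
      rw [← map_pow, pow_two, hxy2, map_one]
    obtain ⟨k, hk⟩ := hoddn
    rw [hk, pow_succ, pow_mul, h2, one_pow, one_mul] at h1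
    exact hxyN ((QuotientGroup.eq_one_iff _).mp h1)
  obtain ⟨h, hh⟩ := exists_smul_eq' hS c a
  intro g hg
  rw [mem_stabilizer_iff]
  have h1 : h⁻¹ * g * h ∈ N := by
    have := hN.conj_mem g hg h⁻¹
    rwa [inv_inv] at this
  have h2 := key _ h1
  rw [mul_smul, mul_smul, hh] at h2
  calc g • a = h • (h⁻¹ • (g • a)) := (smul_inv_smul h _).symm
    _ = h • c := by rw [h2]
    _ = a := hh

/-- `O_{2'}(G)` is the kernel of the action when `G` has two distinct commuting involutions -/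
theorem pPrimeCore_eq_normalCore
    (h2 : ∃ x y : G, x ≠ 1 ∧ y ≠ 1 ∧ x ≠ y ∧ x * x = 1 ∧ y * y = 1 ∧ x * y = y * x) :
    Cfsg.pPrimeCore 2 G = (stabilizer G a).normalCore := by
  apply le_antisymm
  · apply sSup_le
    rintro N ⟨hN, hcop⟩
    have hodd : Odd (Nat.card N) := Nat.coprime_two_right.mp hcop
    exact (Subgroup.normal_le_normalCore (hN := hN)).mpr (le_stabilizer_of_normal_odd hS hN hodd h2)
  · apply le_sSup
    exact ⟨Subgroup.normalCore_normal _, Nat.coprime_two_right.mpr (odd_card_normalCore hS)⟩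

end Cfsg.Agent.Lib.Helper19.RankOne3
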