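import Mathlib
import Cfsg.Prelude.Def_LieRecognition
import Cfsg.Agent.Lib.Helper19.OddInv
import Cfsg.Agent.Lib.Helper19.OddInv2
import Cfsg.Agent.Lib.Helper19.RankOne
import Cfsg.Agent.Lib.Helper19.RankOne2
import Cfsg.Agent.Lib.Helper19.RankOne3

/-!
Helper library (helper19): the rank-one set-up, fourth part.
The involutions of `G_a` are central in `Q`; products of two involutions.
-/

set_option autoImplicit false
set_option linter.unusedSectionVars false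

namespace Cfsg.Agent.Lib.Helper19.RankOne4

open MulAction
open Cfsg.Agent.Lib.Helper19.OddInv Cfsg.Agent.Lib.Helper19.OddInv2 Cfsg.Agent.Lib.Helper19.RankOne
open Cfsg.Agent.Lib.Helper19.RankOne2 Cfsg.Agent.Lib.Helper19.RankOne3

variable {G Ω : Type*} [Group G] [Finite G] [MulAction G Ω] {a : Ω} {t : G} {Q : Subgroup G}
variable (hS : Cfsg.IsRankOneSetup G Ω a t Q)
include hS

/-- if `k ∈ G_a` centralises no non-identity element of `Q`, neither does any element of `k Q` -/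
theorem coset_fpf {k : G} (hk : k ∈ stabilizer G a) (hfpf : Q ⊓ Subgroup.centralizer {k} = ⊥)
    {q s : G} (hq : q ∈ Q) (hs : s ∈ Q) (hcomm : (k * q) * s = s * (k * q)) : s = 1 := by
  have hfin : Finite Q := inferInstance
  let ψ : Q → Q := fun q' => ⟨q'.1 * (k * q'.1⁻¹ * k⁻¹), mul_mem q'.2 (hS.conj_mem k hk _ (inv_mem q'.2))⟩
  have hinj : Function.Injective ψ := by
    intro q₁ q₂ h
    have h1 : q₁.1 * (k * q₁.1⁻¹ * k⁻¹) = q₂.1 * (k * q₂.1⁻¹ * k⁻¹) := Subtype.mk.inj h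
    have h2 : k * (q₂.1⁻¹ * q₁.1) = (q₂.1⁻¹ * q₁.1) * k := by
      calc k * (q₂.1⁻¹ * q₁.1) = q₂.1⁻¹ * (q₂.1 * (k * q₂.1⁻¹ * k⁻¹)) * k * q₁.1 := by group
        _ = q₂.1⁻¹ * (q₁.1 * (k * q₁.1⁻¹ * k⁻¹)) * k * q₁.1 := by rw [h1]
        _ = (q₂.1⁻¹ * q₁.1) * k := by group
    have h3 : q₂.1⁻¹ * q₁.1 ∈ Q ⊓ Subgroup.centralizer {k} := by
      refine Subgroup.mem_inf.mpr ⟨mul_mem (inv_mem q₂.2) q₁.2, ?_⟩
      rw [Subgroup.mem_centralizer_iff]
      intro x hx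
      rw [Set.mem_singleton_iff] at hx
      subst hx
      exact h2
    rw [hfpf, Subgroup.mem_bot] at h3
    apply Subtype.ext
    calc q₁.1 = q₂.1 * (q₂.1⁻¹ * q₁.1) := by group
      _ = q₂.1 := by rw [h3, mul_one]
  have hsurj : Function.Surjective ψ := Finite.injective_iff_surjective.mp hinj
  obtain ⟨q', hq'⟩ := hsurj ⟨k * q * k⁻¹, hS.conj_mem k hk q hq⟩
  have h1 : q'.1 * (k * q'.1⁻¹ * k⁻¹) = k * q * k⁻¹ := Subtype.mk.inj hq'
  have h2 : k * q = q'.1 * k * q'.1⁻¹ := by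
    calc k * q = (k * q * k⁻¹) * k := by group
      _ = q'.1 * (k * q'.1⁻¹ * k⁻¹) * k := by rw [h1]
      _ = q'.1 * k * q'.1⁻¹ := by group
  rw [h2] at hcomm
  have h3 : k * (q'.1⁻¹ * s * q'.1) = (q'.1⁻¹ * s * q'.1) * k := by
    calc k * (q'.1⁻¹ * s * q'.1) = q'.1⁻¹ * ((q'.1 * k * q'.1⁻¹) * s) * q'.1 := by group
      _ = q'.1⁻¹ * (s * (q'.1 * k * q'.1⁻¹)) * q'.1 := by rw [hcomm]
      _ = (q'.1⁻¹ * s * q'.1) * k := by group
  have h4 : q'.1⁻¹ * s * q'.1 ∈ Q ⊓ Subgroup.centralizer {k} := by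
    refine Subgroup.mem_inf.mpr ⟨mul_mem (mul_mem (inv_mem q'.2) hs) q'.2, ?_⟩
    rw [Subgroup.mem_centralizer_iff]
    intro x hx
    rw [Set.mem_singleton_iff] at hx
    subst hx
    exact h3
  rw [hfpf, Subgroup.mem_bot] at h4
  calc s = q'.1 * (q'.1⁻¹ * s * q'.1) * q'.1⁻¹ := by group
    _ = 1 := by rw [h4]; group

/-- the involutions of `G_a` are central in `Q` -/
theorem involution_central {s : G} (hs : s ∈ Cfsg.involutionsIn (stabilizer G a : Set G)) {x : G}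
    (hx : x ∈ Q) : s * x = x * s := by
  have hs' : x⁻¹⁻¹ * s * x⁻¹ ∈ Cfsg.involutionsIn (stabilizer G a : Set G) :=
    conj_mem_involutionsIn hS hs (inv_mem (hS.le hx))
  rw [inv_inv] at hs'
  obtain ⟨k, hk, hks⟩ := exists_conj_invertedBy hS hs hs'
  by_cases hk1 : k = 1
  · rw [hk1] at hks
    calc s * x = (1⁻¹ * s * 1) * x := by group
      _ = (x * s * x⁻¹) * x := by rw [hks]
      _ = x * s := by group
  · exfalso
    have hfpf := inf_centralizer_eq_bot hS hk hk1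
    have hcomm : (k * x) * s = s * (k * x) := by
      calc (k * x) * s = k * (x * s * x⁻¹) * x := by group
        _ = k * (k⁻¹ * s * k) * x := by rw [hks]
        _ = s * (k * x) := by group
    exact hs.2.1 (coset_fpf hS (D_le hS hk.1) hfpf hx (involution_mem_Q hS hs.1 hs.2.1 hs.2.2) hcomm)

/-- the product of two involutions of `G_a` is `1` or an involution of `G_a` -/
theorem involution_mul {s s' : G} (hs : s ∈ Cfsg.involutionsIn (stabilizer G a : Set G))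
    (hs' : s' ∈ Cfsg.involutionsIn (stabilizer G a : Set G)) :
    s * s' = 1 ∨ s * s' ∈ Cfsg.involutionsIn (stabilizer G a : Set G) := by
  by_cases h : s * s' = 1
  · exact Or.inl h
  · refine Or.inr ⟨mul_mem hs.1 hs'.1, h, ?_⟩
    have hc := involution_central hS hs (involution_mem_Q hS hs'.1 hs'.2.1 hs'.2.2)
    calc (s * s') * (s * s') = s * (s' * s) * s' := by group
      _ = s * (s * s') * s' := by rw [hc]
      _ = (s * s) * (s' * s') := by group
      _ = 1 := by rw [hs.2.2, hs'.2.2, one_mul]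

/-- two involutions with the same fixed point commute -/
theorem commute_of_same_fixed {u v : G} (hu1 : u ≠ 1) (hu2 : u * u = 1) (hv1 : v ≠ 1) (hv2 : v * v = 1)
    {c : Ω} (hc : u • c = c) (hd : v • c = c) : u * v = v * u := by
  obtain ⟨h, hh⟩ := exists_smul_eq' hS c a
  have hh' : h⁻¹ • a = c := by rw [← hh, inv_smul_smul]
  have hu' : h * u * h⁻¹ ∈ Cfsg.involutionsIn (stabilizer G a : Set G) := by
    refine ⟨?_, conj_ne_one hu1, conj_mul_self hu2⟩
    show h * u * h⁻¹ ∈ stabilizer G a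
    rw [mem_stabilizer_iff, mul_smul, mul_smul, hh', hc, hh]
  have hv' : h * v * h⁻¹ ∈ Cfsg.involutionsIn (stabilizer G a : Set G) := by
    refine ⟨?_, conj_ne_one hv1, conj_mul_self hv2⟩
    show h * v * h⁻¹ ∈ stabilizer G a
    rw [mem_stabilizer_iff, mul_smul, mul_smul, hh', hd, hh]
  have hcomm := involution_central hS hu' (involution_mem_Q hS hv'.1 hv'.2.1 hv'.2.2)
  calc u * v = h⁻¹ * ((h * u * h⁻¹) * (h * v * h⁻¹)) * h := by group
    _ = h⁻¹ * ((h * v * h⁻¹) * (h * u * h⁻¹)) * h := by rw [hcomm]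
    _ = v * u := by group

/-- two involutions whose product does not square to `1` have different fixed points -/
theorem fixed_ne_of_sq_ne {u v : G} (hu1 : u ≠ 1) (hu2 : u * u = 1) (hv1 : v ≠ 1) (hv2 : v * v = 1)
    (hx : (u * v) * (u * v) ≠ 1) {c : Ω} (hc : u • c = c) : v • c ≠ c := by
  intro hd
  apply hx
  have hcomm := commute_of_same_fixed hS hu1 hu2 hv1 hv2 hc hd
  calc (u * v) * (u * v) = u * (v * u) * v := by group
    _ = u * (u * v) * v := by rw [hcomm]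
    _ = (u * u) * (v * v) := by group
    _ = 1 := by rw [hu2, hv2, one_mul]

omit hS [Finite G] in
/-- two involutions whose product has odd order are conjugate by a power of the product -/
theorem conj_pow_of_odd_orderOf_mul {x y : G} (hx2 : x * x = 1) (hy2 : y * y = 1)
    (hodd : Odd (orderOf (x * y))) : ∃ k : ℕ, (x * y) ^ k * x * ((x * y) ^ k)⁻¹ = y := by
  obtain ⟨k, hk⟩ := hodd
  have hxinv : x⁻¹ = x := inv_eq_of_mul_eq_one_left hx2
  have hyinv : y⁻¹ = y := inv_eq_of_mul_eq_one_left hy2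
  have hinv : (x * y)⁻¹ = y * x := by rw [mul_inv_rev, hxinv, hyinv]
  refine ⟨k, ?_⟩
  set w := (x * y) ^ k with hw
  have h1 : x * w * x⁻¹ = w⁻¹ := by
    rw [hw, ← conj_pow]
    have : x * (x * y) * x⁻¹ = (x * y)⁻¹ := by
      rw [hinv, hxinv]
      calc x * (x * y) * x = (x * x) * y * x := by simp only [mul_assoc]
        _ = y * x := by rw [hx2, one_mul]
    rw [this, inv_pow]
  have h2 : w * w = y * x := by
    have h3 : (x * y) ^ (2 * k + 1) = 1 := by rw [← hk, pow_orderOf_eq_one]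
    have h4 : w * w * (x * y) = 1 := by
      rw [hw, ← pow_add, ← pow_succ]
      have : k + k + 1 = 2 * k + 1 := by ring
      rw [this, h3]
    rw [← hinv]
    exact eq_inv_of_mul_eq_one_left h4
  have h5 : x * w⁻¹ = w * x := by
    have : x * w⁻¹ * x⁻¹ = w := by
      have := congrArg (fun z => z⁻¹) h1
      simpa [mul_assoc] using this
    calc x * w⁻¹ = (x * w⁻¹ * x⁻¹) * x := by simp [mul_assoc]
      _ = w * x := by rw [this]
  calc w * x * w⁻¹ = w * (x * w⁻¹) := by rw [mul_assoc]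
    _ = w * w * x := by rw [h5, mul_assoc]
    _ = y * x * x := by rw [h2]
    _ = y := by rw [mul_assoc, hx2, mul_one]

/-- a product `u v` of two involutions with `(u v)² ≠ 1` is conjugate to `u' t`, `u'` an involution of
`G_a` -/
theorem exists_conj_eq_mul_t {u v : G} (hu1 : u ≠ 1) (hu2 : u * u = 1) (hv1 : v ≠ 1) (hv2 : v * v = 1)
    (hx : (u * v) * (u * v) ≠ 1) :
    ∃ g : G, ∃ u' ∈ Cfsg.involutionsIn (stabilizer G a : Set G), g * (u * v) * g⁻¹ = u' * t := by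
  obtain ⟨cu, hcu, -⟩ := involution_existsUnique_fixed hS hu1 hu2
  have hvcu : v • cu ≠ cu := fixed_ne_of_sq_ne hS hu1 hu2 hv1 hv2 hx hcu
  obtain ⟨g₁, hg₁⟩ := involutions_conj hS hv1 hv2 hS.ne_one hS.mul_self
  obtain ⟨c, hc, hca⟩ := exists_fixed_t hS
  -- the fixed point `e` of `g₁ u g₁⁻¹` is not `c`
  have hu₂1 : g₁ * u * g₁⁻¹ ≠ 1 := conj_ne_one hu1
  have hu₂2 : (g₁ * u * g₁⁻¹) * (g₁ * u * g₁⁻¹) = 1 := conj_mul_self hu2
  have he : (g₁ * u * g₁⁻¹) • (g₁ • cu) = g₁ • cu := by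
    rw [mul_smul, mul_smul, inv_smul_smul, hcu]
  have hec : g₁ • cu ≠ c := by
    intro h
    apply hvcu
    have h1 : (g₁ * v * g₁⁻¹) • (g₁ • cu) = g₁ • cu := by rw [hg₁, h, hc]
    rw [mul_smul, mul_smul, inv_smul_smul] at h1
    exact smul_left_cancel g₁ h1
  obtain ⟨g₀, hg₀⟩ := exists_smul_eq' hS a c
  have hs : g₀⁻¹ * t * g₀ ∈ Cfsg.involutionsIn (stabilizer G a : Set G) := by
    refine ⟨?_, conj_ne_one' hS.ne_one, conj_mul_self' hS.mul_self⟩
    show g₀⁻¹ * t * g₀ ∈ stabilizer G a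
    rw [mem_stabilizer_iff, mul_smul, mul_smul, hg₀, hc, ← hg₀, inv_smul_smul]
  have he' : g₀⁻¹ • (g₁ • cu) ≠ a := by
    intro h
    apply hec
    rw [← hg₀, ← h, smul_inv_smul]
  have ha' : g₀⁻¹ • a ≠ a := by
    intro h
    apply hca
    rw [← hg₀]
    calc g₀ • a = g₀ • (g₀⁻¹ • a) := by rw [h]
      _ = a := smul_inv_smul g₀ a
  obtain ⟨⟨q, hq⟩, hqe, -⟩ := existsUnique_smul_eq hS he' ha'
  have hqe' : q • (g₀⁻¹ • (g₁ • cu)) = g₀⁻¹ • a := hqe
  have hcomm := involution_central hS hs hq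
  -- `h = g₀ q g₀⁻¹` centralises `t` and moves `e` to `a`
  have ht : (g₀ * q * g₀⁻¹) * t * (g₀ * q * g₀⁻¹)⁻¹ = t := by
    calc (g₀ * q * g₀⁻¹) * t * (g₀ * q * g₀⁻¹)⁻¹ = g₀ * (q * (g₀⁻¹ * t * g₀)) * q⁻¹ * g₀⁻¹ := by group
      _ = g₀ * ((g₀⁻¹ * t * g₀) * q) * q⁻¹ * g₀⁻¹ := by rw [hcomm]
      _ = t := by group
  have hea : (g₀ * q * g₀⁻¹) • (g₁ • cu) = a := by
    rw [mul_smul, mul_smul, hqe', smul_inv_smul]
  refine ⟨(g₀ * q * g₀⁻¹) * g₁, (g₀ * q * g₀⁻¹) * (g₁ * u * g₁⁻¹) * (g₀ * q * g₀⁻¹)⁻¹,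
    ⟨?_, conj_ne_one hu₂1, conj_mul_self hu₂2⟩, ?_⟩
  · show (g₀ * q * g₀⁻¹) * (g₁ * u * g₁⁻¹) * (g₀ * q * g₀⁻¹)⁻¹ ∈ stabilizer G a
    rw [mem_stabilizer_iff]
    have hinv : (g₀ * q * g₀⁻¹)⁻¹ • a = g₁ • cu := by rw [← hea, inv_smul_smul]
    rw [mul_smul, mul_smul, hinv, he, hea]
  · calc (g₀ * q * g₀⁻¹) * g₁ * (u * v) * ((g₀ * q * g₀⁻¹) * g₁)⁻¹
        = (g₀ * q * g₀⁻¹) * (g₁ * u * g₁⁻¹) * (g₀ * q * g₀⁻¹)⁻¹ *
            ((g₀ * q * g₀⁻¹) * (g₁ * v * g₁⁻¹) * (g₀ * q * g₀⁻¹)⁻¹) := by group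
      _ = (g₀ * q * g₀⁻¹) * (g₁ * u * g₁⁻¹) * (g₀ * q * g₀⁻¹)⁻¹ * t := by rw [hg₁, ht]

/-- the centraliser of a product `u v` of two involutions with `(u v)² ≠ 1` has odd order -/
theorem odd_card_centralizer_mul {u v : G} (hu1 : u ≠ 1) (hu2 : u * u = 1) (hv1 : v ≠ 1)
    (hv2 : v * v = 1) (hx : (u * v) * (u * v) ≠ 1) :
    Odd (Nat.card ↥(Subgroup.centralizer {u * v})) := by
  rw [← Nat.not_even_iff_odd, even_iff_two_dvd]
  intro h2
  have : Fact (Nat.Prime 2) := ⟨Nat.prime_two⟩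
  obtain ⟨z', hz'⟩ := exists_prime_orderOf_dvd_card' 2 h2
  have hzo : orderOf (z' : G) = 2 := by rw [Subgroup.orderOf_coe]; exact hz'
  have hz1 : (z' : G) ≠ 1 := by
    intro h
    rw [h, orderOf_one] at hzo
    exact absurd hzo (by decide)
  have hz2 : (z' : G) * (z' : G) = 1 := by
    have := pow_orderOf_eq_one (z' : G)
    rwa [hzo, pow_two] at this
  have hzx : (u * v) * (z' : G) = (z' : G) * (u * v) :=
    (Subgroup.mem_centralizer_iff.mp z'.2) (u * v) (Set.mem_singleton _)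
  set z : G := (z' : G) with hz
  have huinv : u⁻¹ = u := inv_eq_of_mul_eq_one_left hu2
  have hvinv : v⁻¹ = v := inv_eq_of_mul_eq_one_left hv2
  have hzinv : z⁻¹ = z := inv_eq_of_mul_eq_one_left hz2
  obtain ⟨c, hc, -⟩ := involution_existsUnique_fixed hS hz1 hz2
  obtain ⟨cu, hcu, -⟩ := involution_existsUnique_fixed hS hu1 hu2
  have hvcu : v • cu ≠ cu := fixed_ne_of_sq_ne hS hu1 hu2 hv1 hv2 hx hcu
  have hxc : (u * v) • c = c := smul_eq_of_commute hS hz1 hz2 hzx hc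
  by_cases hcc : cu = c
  · apply hvcu
    rw [hcc]
    rw [mul_smul] at hxc
    calc v • c = u • (u • (v • c)) := by rw [← mul_smul u u, hu2, one_smul]
      _ = u • c := by rw [hxc]
      _ = c := by rw [← hcc, hcu]
  · have hodd := odd_orderOf_mul hS hu1 hu2 hz1 hz2 hcu hc hcc
    obtain ⟨k, hk⟩ := conj_pow_of_odd_orderOf_mul hu2 hz2 hodd
    -- `u z` inverts `u v`
    have hzxz : z * (u * v) * z⁻¹ = u * v := by
      calc z * (u * v) * z⁻¹ = ((u * v) * z) * z⁻¹ := by rw [hzx]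
        _ = u * v := by group
    have huxu : u * (u * v) * u⁻¹ = (u * v)⁻¹ := by
      rw [mul_inv_rev, huinv, hvinv]
      calc u * (u * v) * u = (u * u) * v * u := by group
        _ = v * u := by rw [hu2, one_mul]
    have hstep : (u * z) * (u * v) * (u * z)⁻¹ = (u * v)⁻¹ := by
      calc (u * z) * (u * v) * (u * z)⁻¹ = u * (z * (u * v) * z⁻¹) * u⁻¹ := by group
        _ = (u * v)⁻¹ := by rw [hzxz, huxu]
    have hpow : ∀ n : ℕ, (u * z) ^ n * (u * v) * ((u * z) ^ n)⁻¹ = u * v ∨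
        (u * z) ^ n * (u * v) * ((u * z) ^ n)⁻¹ = (u * v)⁻¹ := by
      intro n
      induction n with
      | zero => left; simp
      | succ n ih =>
        have e : (u * z) ^ (n + 1) * (u * v) * ((u * z) ^ (n + 1))⁻¹ =
            ((u * z) ^ n * (u * v) * ((u * z) ^ n)⁻¹)⁻¹ := by
          calc (u * z) ^ (n + 1) * (u * v) * ((u * z) ^ (n + 1))⁻¹
              = (u * z) ^ n * ((u * z) * (u * v) * (u * z)⁻¹) * ((u * z) ^ n)⁻¹ := by
                rw [pow_succ]; group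
            _ = (u * z) ^ n * (u * v)⁻¹ * ((u * z) ^ n)⁻¹ := by rw [hstep]
            _ = ((u * z) ^ n * (u * v) * ((u * z) ^ n)⁻¹)⁻¹ := by group
        rcases ih with ih | ih
        · right; rw [e, ih]
        · left; rw [e, ih, inv_inv]
    set w := (u * z) ^ k with hw
    have hzw : z = w * u * w⁻¹ := hk.symm
    have hpk : w * (u * v) * w⁻¹ = u * v ∨ w * (u * v) * w⁻¹ = (u * v)⁻¹ := hpow k
    have hkey : z * (u * v) * z⁻¹ = (u * v)⁻¹ := by
      rcases hpk with h | h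
      · have h' : w⁻¹ * (u * v) * w = u * v := by
          calc w⁻¹ * (u * v) * w = w⁻¹ * (w * (u * v) * w⁻¹) * w := by rw [h]
            _ = u * v := by group
        calc z * (u * v) * z⁻¹ = w * (u * (w⁻¹ * (u * v) * w) * u⁻¹) * w⁻¹ := by rw [hzw]; group
          _ = w * (u * v)⁻¹ * w⁻¹ := by rw [h', huxu]
          _ = (w * (u * v) * w⁻¹)⁻¹ := by group
          _ = (u * v)⁻¹ := by rw [h]
      · have h' : w⁻¹ * (u * v) * w = (u * v)⁻¹ := by
          calc w⁻¹ * (u * v) * w = (w⁻¹ * (u * v)⁻¹ * w)⁻¹ := by group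
            _ = (w⁻¹ * (w * (u * v) * w⁻¹) * w)⁻¹ := by rw [h]
            _ = (u * v)⁻¹ := by group
        calc z * (u * v) * z⁻¹ = w * (u * (w⁻¹ * (u * v) * w) * u⁻¹) * w⁻¹ := by rw [hzw]; group
          _ = w * (u * (u * v)⁻¹ * u⁻¹) * w⁻¹ := by rw [h']
          _ = w * (u * (u * v) * u⁻¹)⁻¹ * w⁻¹ := by group
          _ = w * (u * v) * w⁻¹ := by rw [huxu, inv_inv]
          _ = (u * v)⁻¹ := h
    apply hx
    have h3 : u * v = (u * v)⁻¹ := hzxz.symm.trans hkey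
    calc (u * v) * (u * v) = (u * v) * (u * v)⁻¹ := by rw [← h3]
      _ = 1 := mul_inv_cancel _

end Cfsg.Agent.Lib.Helper19.RankOne4
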