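import Mathlib
import Cfsg.Agent.Lib.Helper19.TwF4B
import Cfsg.Agent.Lib.Helper18.TwSimp

set_option autoImplicit false
set_option linter.unusedSimpArgs false
set_option linter.unusedSectionVars false
set_option linter.unusedVariables false

/-!
The `(B, N)`-pair of the twisted group of type F4 in characteristic 2 is irreducible.
-/

namespace Cfsg.Agent.Lib.Helper19.TwF4S

open Cfsg Cfsg.Lie Cfsg.Agent.Lib.Helper18 Cfsg.Agent.Lib.Helper18.BNPairC
  Cfsg.Agent.Lib.Helper18.Long Cfsg.Agent.Lib.Helper18.Cells Cfsg.Agent.Lib.Helper18.Cells2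
  Cfsg.Agent.Lib.Helper18.Fast Cfsg.Agent.Lib.Helper18.AllRoots Cfsg.Agent.Lib.Helper18.Weyl
  Cfsg.Agent.Lib.Helper19.TwF4U Cfsg.Agent.Lib.Helper19.TwF4V Cfsg.Agent.Lib.Helper19.TwF4O
  Cfsg.Agent.Lib.Helper19.TwF4B

theorem ncAB : TwSimp.ncB FTabF4.fd WTabF4.X [0, 3] [1, 2, 1, 2] = true := by decide +kernel

variable {K : Type*} [Field K]

/-- The `(B, N)`-pair of the twisted group of type F4 is irreducible. -/
theorem bn_irr [Fintype K] {m : ℕ} (hK : Fintype.card K = 2 ^ (2 * m + 1)) :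
    ∃ P : Cfsg.BNPair ↥(twistedF4 K (2 ^ m)),
      P.B = (chevF4.borelSubgroup K ⊓ twistedF4 K (2 ^ m)).subgroupOf (twistedF4 K (2 ^ m)) ∧
      P.N = (chevF4.monomialSubgroup K ⊓ twistedF4 K (2 ^ m)).subgroupOf (twistedF4 K (2 ^ m)) ∧
      P.Irreducible ∧ P.S.Nonempty := by
  obtain ⟨P, hB, hN, hS⟩ := bn hK
  obtain ⟨hnA, hnB⟩ := nw_blocks_mem (m := m) hK
  let f : Fin 2 → ↥(twistedF4 K (2 ^ m)) := fun i =>
    if i.1 = 0 then ⟨nw hF4 K (plain [0, 3]), hnA⟩ else ⟨nw hF4 K (plain [1, 2, 1, 2]), hnB⟩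
  have hS' : ∀ s, s ∈ P.S ↔ ∃ i, s = f i := by
    intro s
    rw [hS]
    constructor
    · intro h
      simp only [Set.mem_setOf_eq, Set.mem_insert_iff, Set.mem_singleton_iff] at h
      rcases h with h | h
      · exact ⟨0, Subtype.ext h⟩
      · exact ⟨1, Subtype.ext h⟩
    · rintro ⟨i, rfl⟩
      by_cases hi : i.1 = 0
      · have e : f i = ⟨nw hF4 K (plain [0, 3]), hnA⟩ := if_pos hi
        rw [e]
        exact Set.mem_insert _ _
      · have e : f i = ⟨nw hF4 K (plain [1, 2, 1, 2]), hnB⟩ := if_neg hi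
        rw [e]
        exact Set.mem_insert_of_mem _ (Set.mem_singleton _)
  refine ⟨P, hB, hN, ?_, ⟨f 0, (hS' _).mpr ⟨0, rfl⟩⟩⟩
  apply TwSimp.irreducible_of_chain P 2 f hS'
  intro i h hmem
  have hi : i = 0 := by omega
  subst hi
  rw [hB, Subgroup.mem_subgroupOf] at hmem
  exact TwSimp.not_comm_of_ncB CAll.cfF4 UAll.uF4 (by decide) (by decide) ncAB hmem.1

end Cfsg.Agent.Lib.Helper19.TwF4S
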