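import Mathlib

set_option autoImplicit false

/-!
An abstract lemma on quotients of twisted monomial groups: if `π : N → W` has kernel `H`, an
endomorphism `σ` of the ambient group induces on `W` the endomorphism `ρ`, the subgroup `G1` is
fixed by `σ` elementwise, and the elements of `W` fixed by `ρ` form the range of an injective
homomorphism `ψ : V → W` whose generators are hit by elements of `N ⊓ G1`, then there is a
surjective homomorphism `N ⊓ G1 → V` with kernel `H ⊓ G1`.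
-/

namespace Cfsg.Agent.Lib.Helper19.TwQuot

variable {Γ : Type*} [Group Γ] {W : Type*} [Group W] {V : Type*} [Group V]

theorem equivariant (N : Subgroup Γ) (π : ↥N →* W) (σ : Γ →* Γ) (ρ : W →* W)
    (T : Set Γ) (hN : N = Subgroup.closure T)
    (hT : ∀ t ∈ T, ∃ (h1 : t ∈ N) (h2 : σ t ∈ N), π ⟨σ t, h2⟩ = ρ (π ⟨t, h1⟩))
    (n : Γ) (hn : n ∈ N) :
    ∃ (h1 : n ∈ N) (h2 : σ n ∈ N), π ⟨σ n, h2⟩ = ρ (π ⟨n, h1⟩) := by
  have hn' : n ∈ Subgroup.closure T := hN ▸ hn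
  induction hn' using Subgroup.closure_induction with
  | mem t ht => exact hT t ht
  | one =>
    refine ⟨N.one_mem, by rw [map_one]; exact N.one_mem, ?_⟩
    have e1 : (⟨σ 1, by rw [map_one]; exact N.one_mem⟩ : ↥N) = 1 := Subtype.ext (map_one σ)
    have e2 : (⟨1, N.one_mem⟩ : ↥N) = 1 := rfl
    rw [e1, e2, map_one, map_one]
  | mul a b _ _ iha ihb =>
    obtain ⟨a1, a2, ea⟩ := iha (hN ▸ ‹a ∈ Subgroup.closure T›)
    obtain ⟨b1, b2, eb⟩ := ihb (hN ▸ ‹b ∈ Subgroup.closure T›)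
    refine ⟨N.mul_mem a1 b1, by rw [map_mul]; exact N.mul_mem a2 b2, ?_⟩
    have e1 : (⟨σ (a * b), by rw [map_mul]; exact N.mul_mem a2 b2⟩ : ↥N) =
        ⟨σ a, a2⟩ * ⟨σ b, b2⟩ := Subtype.ext (map_mul σ a b)
    have e2 : (⟨a * b, N.mul_mem a1 b1⟩ : ↥N) = ⟨a, a1⟩ * ⟨b, b1⟩ := rfl
    rw [e1, e2, map_mul, map_mul, map_mul, ea, eb]
  | inv a _ iha =>
    obtain ⟨a1, a2, ea⟩ := iha (hN ▸ ‹a ∈ Subgroup.closure T›)
    refine ⟨N.inv_mem a1, by rw [map_inv]; exact N.inv_mem a2, ?_⟩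
    have e1 : (⟨σ a⁻¹, by rw [map_inv]; exact N.inv_mem a2⟩ : ↥N) = (⟨σ a, a2⟩ : ↥N)⁻¹ :=
      Subtype.ext (map_inv σ a)
    have e2 : (⟨a⁻¹, N.inv_mem a1⟩ : ↥N) = (⟨a, a1⟩ : ↥N)⁻¹ := rfl
    rw [e1, e2, map_inv, map_inv, map_inv, ea]

theorem exists_hom (N H G1 : Subgroup Γ) (π : ↥N →* W) (hker : π.ker = H.subgroupOf N)
    (σ : Γ →* Γ) (ρ : W →* W) (T : Set Γ) (hN : N = Subgroup.closure T)
    (hT : ∀ t ∈ T, ∃ (h1 : t ∈ N) (h2 : σ t ∈ N), π ⟨σ t, h2⟩ = ρ (π ⟨t, h1⟩))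
    (hfix : ∀ g ∈ G1, σ g = g)
    (ψ : V →* W) (hψ : Function.Injective ψ) (hrange : ∀ w : W, ρ w = w → w ∈ ψ.range)
    (S : Set V) (hS : Subgroup.closure S = ⊤)
    (hgen : ∀ s ∈ S, ∃ n : ↥N, (n : Γ) ∈ G1 ∧ π n = ψ s) :
    ∃ φ : ↥(N ⊓ G1) →* V, Function.Surjective φ ∧
      φ.ker = (H ⊓ G1).subgroupOf (N ⊓ G1) := by
  have hfixed : ∀ m : ↥(N ⊓ G1), ρ (π ⟨m.1, m.2.1⟩) = π ⟨m.1, m.2.1⟩ := by
    intro m
    obtain ⟨h1, h2, e⟩ := equivariant N π σ ρ T hN hT m.1 m.2.1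
    have e1 : (⟨σ m.1, h2⟩ : ↥N) = ⟨m.1, m.2.1⟩ := Subtype.ext (hfix m.1 m.2.2)
    rw [e1] at e
    exact e.symm
  let π1 : ↥(N ⊓ G1) →* W := π.comp (Subgroup.inclusion inf_le_left)
  have hπ1 : ∀ m : ↥(N ⊓ G1), π1 m = π ⟨m.1, m.2.1⟩ := fun m => rfl
  have hmem : ∀ m : ↥(N ⊓ G1), π1 m ∈ ψ.range := by
    intro m
    apply hrange
    rw [hπ1]
    exact hfixed m
  let φ : ↥(N ⊓ G1) →* V :=
    (MonoidHom.ofInjective hψ).symm.toMonoidHom.comp (π1.codRestrict ψ.range hmem)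
  have hφ : ∀ m : ↥(N ⊓ G1), ψ (φ m) = π ⟨m.1, m.2.1⟩ := by
    intro m
    have e : (MonoidHom.ofInjective hψ) (φ m) = π1.codRestrict ψ.range hmem m :=
      (MonoidHom.ofInjective hψ).apply_symm_apply _
    have e2 := congrArg Subtype.val e
    rw [MonoidHom.ofInjective_apply] at e2
    exact e2
  refine ⟨φ, ?_, ?_⟩
  · rw [← MonoidHom.range_eq_top, eq_top_iff, ← hS, Subgroup.closure_le]
    intro s hs
    obtain ⟨n, hn1, hn⟩ := hgen s hs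
    refine ⟨⟨n.1, ⟨n.2, hn1⟩⟩, ?_⟩
    apply hψ
    rw [hφ, ← hn]
  · ext m
    rw [MonoidHom.mem_ker, Subgroup.mem_subgroupOf]
    constructor
    · intro h
      have h1 : π ⟨m.1, m.2.1⟩ = 1 := by rw [← hφ, h, map_one]
      have h2 : (⟨m.1, m.2.1⟩ : ↥N) ∈ π.ker := MonoidHom.mem_ker.mpr h1
      rw [hker, Subgroup.mem_subgroupOf] at h2
      exact ⟨h2, m.2.2⟩
    · intro h
      apply hψ
      rw [hφ, map_one]
      have h2 : (⟨m.1, m.2.1⟩ : ↥N) ∈ π.ker := by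
        rw [hker, Subgroup.mem_subgroupOf]
        exact h.1
      exact MonoidHom.mem_ker.mp h2

end Cfsg.Agent.Lib.Helper19.TwQuot
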