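import Cfsg.Agent.Lib.Helper19.TwQuot
import Cfsg.Agent.Lib.Helper18.Tw0
import Mathlib

set_option autoImplicit false

/-!
The quotient `N¹ / H¹` of a twisted group inside a Chevalley group: from the homomorphism
`N → W` with kernel `H` (onto the Coxeter group `W`), the twisting endomorphism `σ` of helper18
(which permutes the `n_p` of the fundamental roots and preserves `H`), and a folding
`ψ : V → W` whose range contains the elements of `W` fixed by the symmetry of the diagram.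
-/

namespace Cfsg.Agent.Lib.Helper19.TwQuotChev

open Cfsg Cfsg.Lie Cfsg.Agent.Lib.Helper18.Fast Cfsg.Agent.Lib.Helper18.AllRoots
  Cfsg.Agent.Lib.Helper18.WGroup Cfsg.Agent.Lib.Helper18.BNChev Cfsg.Agent.Lib.Helper18.BNPairC
  Cfsg.Agent.Lib.Helper18.Graph Cfsg.Agent.Lib.Helper18.Tw0 Cfsg.Agent.Lib.Helper18.Weyl

variable {A : FData} {D : ChevalleyDatum} {K : Type*} [Field K] {X : WD} {m : ℕ → ℕ → ℤ}
  {w : ℕ → ℤ} {P : SPerm} {l : List ℕ}

theorem twisted_quot (hC : CFacts A D X m w) (hP : P.OK A) (hl : SimpleOK P A l) (φ : K →+* K)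
    (G1 : Subgroup (GL D.Idx K)) (hG1 : G1 ≤ fixS hP hC.af.agrees φ)
    {n : ℕ} (hn : A.rank = n) (M : CoxeterMatrix (Fin n))
    (π : ↥(D.monomialSubgroup K) →* M.Group)
    (hker : π.ker = (D.diagonalSubgroup K).subgroupOf (D.monomialSubgroup K))
    (hπ : ∀ (i : Fin n) (g : ↥(D.monomialSubgroup K)),
      ((g : GL D.Idx K) : Matrix D.Idx D.Idx K) = D.nMat K (D.simple i) 1 → π g = M.simple i)
    (ρ : M.Group →* M.Group) (hlt : ∀ i < n, l.getD i 0 < n)
    (hρ : ∀ i : Fin n, ρ (M.simple i) = M.simple ⟨l.getD i.val 0, hlt i.val i.isLt⟩)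
    {V : Type*} [Group V] (ψ : V →* M.Group) (hψ : Function.Injective ψ)
    (hrange : ∀ g : M.Group, ρ g = g → g ∈ ψ.range)
    (S : Set V) (hS : Subgroup.closure S = ⊤)
    (hgen : ∀ s ∈ S, ∃ wd : List ℕ, (∀ i ∈ wd, i < n) ∧ (wd.map (ng hC.af K)).prod ∈ G1 ∧
      ψ s = (wd.map (fun i => if h : i < n then M.simple ⟨i, h⟩ else 1)).prod) :
    ∃ φ' : ↥(D.monomialSubgroup K ⊓ G1) →* V, Function.Surjective φ' ∧
      φ'.ker = (D.diagonalSubgroup K ⊓ G1).subgroupOf (D.monomialSubgroup K ⊓ G1) := by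
  have hF := hC.af
  have hHN : D.diagonalSubgroup K ≤ D.monomialSubgroup K := by
    unfold ChevalleyDatum.monomialSubgroup
    exact le_sup_left
  have hngN : ∀ i < n, ng hF K i ∈ D.monomialSubgroup K := by
    intro i hi
    rw [hC.monomial_eq (F := K)]
    exact ng_mem_N0 hF (hn ▸ hi)
  have hπng : ∀ (i : ℕ) (hi : i < n), π ⟨ng hF K i, hngN i hi⟩ = M.simple ⟨i, hi⟩ := by
    intro i hi
    apply hπ ⟨i, hi⟩
    have hiA : i < A.rank := hn ▸ hi
    have hiD : i < D.rank := hF.agrees.rank_eq ▸ hiA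
    show ((ng hF K i : GL D.Idx K) : Matrix D.Idx D.Idx K) = D.nMat K (D.simple i) 1
    rw [coe_ng hF hiA, Cfsg.Agent.Lib.Helper18.Torus.simple_eq_fast hF hiD]
  have hπH : ∀ (h : GL D.Idx K) (hh : h ∈ D.diagonalSubgroup K), π ⟨h, hHN hh⟩ = 1 := by
    intro h hh
    have : (⟨h, hHN hh⟩ : ↥(D.monomialSubgroup K)) ∈ π.ker := by
      rw [hker, Subgroup.mem_subgroupOf]
      exact hh
    exact MonoidHom.mem_ker.mp this
  have hNT : D.monomialSubgroup K = Subgroup.closure
      ((D.diagonalSubgroup K : Set (GL D.Idx K)) ∪ {g | ∃ i < A.rank, g = ng hF K i}) := by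
    rw [hC.monomial_eq (F := K), Subgroup.closure_union, Subgroup.closure_eq]
    rfl
  apply Cfsg.Agent.Lib.Helper19.TwQuot.exists_hom (D.monomialSubgroup K) (D.diagonalSubgroup K)
    G1 π hker (sg hP hF.agrees φ) ρ _ hNT ?_ ?_ ψ hψ hrange S hS ?_
  · rintro t (ht | ⟨i, hi, rfl⟩)
    · have h2 := sg_H hP hF hl φ ht
      refine ⟨hHN ht, hHN h2, ?_⟩
      rw [hπH _ h2, hπH _ ht, map_one]
    · have hi' : i < n := hn ▸ hi
      have e := sg_ng hP hF hl φ (K := K) hi
      have hj : l.getD i 0 < n := hlt i hi'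
      refine ⟨hngN i hi', by rw [e]; exact hngN _ hj, ?_⟩
      have e2 : (⟨sg hP hF.agrees φ (ng hF K i), by rw [e]; exact hngN _ hj⟩ :
          ↥(D.monomialSubgroup K)) = ⟨ng hF K (l.getD i 0), hngN _ hj⟩ := Subtype.ext e
      rw [e2, hπng _ hj, hπng i hi']
      exact (hρ ⟨i, hi'⟩).symm
  · intro g hg
    exact (mem_fixS hP hF.agrees φ g).mp (hG1 hg)
  · intro s hs
    obtain ⟨wd, hwd, hmem, hψs⟩ := hgen s hs
    have key : ∀ wd : List ℕ, (∀ i ∈ wd, i < n) →
        ∃ hN : (wd.map (ng hF K)).prod ∈ D.monomialSubgroup K,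
          π ⟨(wd.map (ng hF K)).prod, hN⟩ =
            (wd.map (fun i => if h : i < n then M.simple ⟨i, h⟩ else 1)).prod := by
      intro wd
      induction wd with
      | nil =>
        intro _
        refine ⟨Subgroup.one_mem _, ?_⟩
        show π 1 = 1
        rw [map_one]
      | cons a wd ih =>
        intro hlt'
        have ha : a < n := hlt' a List.mem_cons_self
        obtain ⟨h1, e1⟩ := ih (fun i hi => hlt' i (List.mem_cons_of_mem _ hi))
        refine ⟨?_, ?_⟩
        · rw [List.map_cons, List.prod_cons]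
          exact Subgroup.mul_mem _ (hngN a ha) h1
        · have e3 : (⟨((a :: wd).map (ng hF K)).prod, by
              rw [List.map_cons, List.prod_cons]
              exact Subgroup.mul_mem _ (hngN a ha) h1⟩ : ↥(D.monomialSubgroup K)) =
              ⟨ng hF K a, hngN a ha⟩ * ⟨(wd.map (ng hF K)).prod, h1⟩ := by
            apply Subtype.ext
            show ((a :: wd).map (ng hF K)).prod = ng hF K a * (wd.map (ng hF K)).prod
            rw [List.map_cons, List.prod_cons]
          rw [e3, map_mul, e1, hπng a ha, List.map_cons, List.prod_cons, dif_pos ha]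
    obtain ⟨hN, e⟩ := key wd hwd
    exact ⟨⟨_, hN⟩, hmem, by rw [e, hψs]⟩

end Cfsg.Agent.Lib.Helper19.TwQuotChev
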